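/-
Small fields: the group acting on the members of the family through a non-singular vector.
-/
import Cfsg.Agent.Lib.MinOmega.Main
set_option autoImplicit false

namespace Cfsg.Agent.Lib.MinOmega

open Cfsg Cfsg.Geo Cfsg.Agent.Lib.Geo.Basic Cfsg.Agent.Lib.Geo.QForm Cfsg.Agent.Lib.GeoOmega.Basic
open Cfsg.Agent.Lib.GeoOmega.Eichler
open scoped MatrixGroups Matrix
open scoped _root_.Classical
open scoped commutatorElement

section perm

theorem perm4_derived : derivedSeries (Equiv.Perm (Fin 4)) 3 = ⊥ := by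
  let V : Subgroup (Equiv.Perm (Fin 4)) :=
    { carrier := {x | x ^ 2 = 1 ∧ Equiv.Perm.sign x = 1}
      mul_mem' := by
        intro a b
        revert a b
        decide +kernel
      one_mem' := by decide +kernel
      inv_mem' := by
        intro a
        revert a
        decide +kernel }
  have h1 : derivedSeries (Equiv.Perm (Fin 4)) 1 ≤ alternatingGroup (Fin 4) := by
    rw [derivedSeries_succ, derivedSeries_zero, Subgroup.commutator_le]
    intro a _ b _
    rw [Equiv.Perm.mem_alternatingGroup]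
    have key : ∀ a b : Equiv.Perm (Fin 4), Equiv.Perm.sign ⁅a, b⁆ = 1 := by
      decide +kernel
    exact key a b
  have h2 : derivedSeries (Equiv.Perm (Fin 4)) 2 ≤ V := by
    rw [derivedSeries_succ, Subgroup.commutator_le]
    intro a ha b hb
    have ha' := Equiv.Perm.mem_alternatingGroup.1 (h1 ha)
    have hb' := Equiv.Perm.mem_alternatingGroup.1 (h1 hb)
    have key : ∀ a b : Equiv.Perm (Fin 4), Equiv.Perm.sign a = 1 → Equiv.Perm.sign b = 1 →
        (⁅a, b⁆) ^ 2 = 1 ∧ Equiv.Perm.sign ⁅a, b⁆ = 1 := by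
      decide +kernel
    exact key a b ha' hb'
  have h3 : derivedSeries (Equiv.Perm (Fin 4)) 3 ≤ ⊥ := by
    rw [derivedSeries_succ, Subgroup.commutator_le]
    intro a ha b hb
    have ha' := h2 ha
    have hb' := h2 hb
    have key : ∀ a b : Equiv.Perm (Fin 4), a ^ 2 = 1 ∧ Equiv.Perm.sign a = 1 →
        b ^ 2 = 1 ∧ Equiv.Perm.sign b = 1 → ⁅a, b⁆ = 1 := by
      decide +kernel
    exact Subgroup.mem_bot.mpr (key a b ha' hb')
  exact le_bot_iff.1 h3

theorem perm_solvable_le4 (A : Type*) [Finite A] (hA : Nat.card A ≤ 4) : Group.IsSolvable (Equiv.Perm A) := by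
  haveI := Fintype.ofFinite A
  have hc : Fintype.card A ≤ Fintype.card (Fin 4) := by
    simpa [Nat.card_eq_fintype_card] using hA
  obtain ⟨e⟩ := Function.Embedding.nonempty_of_card_le hc
  haveI : Group.IsSolvable (Equiv.Perm (Fin 4)) := ⟨⟨3, perm4_derived⟩⟩
  exact Group.isSolvable_of_isSolvable_injective (Equiv.Perm.viaEmbeddingHom_injective e)

/-- Generators which are commutators of generators act trivially on at most four points. -/
theorem gens_trivial {L A : Type*} [Group L] [Finite A] (hA : Nat.card A ≤ 4) (Φ : L →* Equiv.Perm A)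
    (G : Set L) (h : ∀ g ∈ G, ∃ g₁ ∈ G, ∃ g₂ ∈ G, g = ⁅g₁, g₂⁆) : ∀ g ∈ G, Φ g = 1 := by
  haveI := perm_solvable_le4 A hA
  obtain ⟨n, hn⟩ := (Group.isSolvable_def (Equiv.Perm A)).mp inferInstance
  have key : ∀ k, ∀ g ∈ G, Φ g ∈ derivedSeries (Equiv.Perm A) k := by
    intro k
    induction k with
    | zero => intro g _; exact trivial
    | succ k ih =>
      intro g hg
      obtain ⟨g₁, h₁, g₂, h₂, rfl⟩ := h g hg
      rw [derivedSeries_succ, map_commutatorElement]
      exact Subgroup.commutator_mem_commutator (ih _ h₁) (ih _ h₂)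
  intro g hg
  have := key n g hg
  rw [hn] at this
  exact Subgroup.mem_bot.mp this

theorem perm4_three : ∀ σ τ : Equiv.Perm (Fin 4), σ ^ 3 = 1 → τ ^ 3 = 1 → ⁅σ, τ⁆ ^ 3 = 1 → ⁅σ, τ⁆ = 1 := by
  decide +kernel

/-- Order three elements on at most four points. -/
theorem perm_three {A : Type*} [Finite A] (hA : Nat.card A ≤ 4) (σ τ : Equiv.Perm A) (h1 : σ ^ 3 = 1) (h2 : τ ^ 3 = 1)
    (h3 : ⁅σ, τ⁆ ^ 3 = 1) : ⁅σ, τ⁆ = 1 := by
  haveI := Fintype.ofFinite A
  have hc : Fintype.card A ≤ Fintype.card (Fin 4) := by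
    simpa [Nat.card_eq_fintype_card] using hA
  obtain ⟨e⟩ := Function.Embedding.nonempty_of_card_le hc
  apply Equiv.Perm.viaEmbeddingHom_injective e
  rw [map_one, map_commutatorElement]
  apply perm4_three
  · rw [← map_pow, h1, map_one]
  · rw [← map_pow, h2, map_one]
  · rw [← map_commutatorElement, ← map_pow, h3, map_one]

end perm

variable {ι : Type} [Fintype ι] [DecidableEq ι] {F : Type*} [Field F] [Fintype F] {Q : (ι → F) → F}

section vec
variable (hQ : IsNondegenerateQuadraticForm Q)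
include hQ

/-- Separation from two vectors. -/
theorem Nd.exists_sep2 {R : Submodule F (ι → F)} (hR : Nd Q R) {x y z : ι → F} (hx : x ∈ R) (hy : y ∈ R) (hz : z ∈ R)
    (h : x ∉ Submodule.span F {y, z}) : ∃ f ∈ R, pol Q y f = 0 ∧ pol Q z f = 0 ∧ pol Q x f ≠ 0 := by
  by_contra hcon
  push Not at hcon
  apply h
  have hsy : Submodule.span F {y} ≤ Submodule.span F {y, z} :=
    Submodule.span_mono (by simp)
  by_cases hzy : z ∈ Submodule.span F {y}
  · have h1 : x ∈ Submodule.span F {y} := by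
      apply hR.sep hQ hx hy
      intro f hf hyf
      refine hcon f hf hyf ?_
      obtain ⟨t, rfl⟩ := Submodule.mem_span_singleton.mp hzy
      rw [pol_smul_left hQ, hyf, mul_zero]
    exact hsy h1
  · obtain ⟨g, hg, hyg, hzg⟩ := hR.exists_sep hQ hz hy hzy
    set c := pol Q x g / pol Q z g with hc
    have h1 : x - c • z ∈ Submodule.span F {y} := by
      apply hR.sep hQ (R.sub_mem hx (R.smul_mem _ hz)) hy
      intro f hf hyf
      have h2 := hcon (f - (pol Q z f / pol Q z g) • g) (R.sub_mem hf (R.smul_mem _ hg))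
        (by rw [pol_sub_right hQ, pol_smul_right hQ, hyf, hyg]; ring)
        (by
          rw [pol_sub_right hQ, pol_smul_right hQ]
          field_simp
          ring)
      rw [pol_sub_right hQ, pol_smul_right hQ] at h2
      rw [pol_sub_left hQ, pol_smul_left hQ, hc]
      have h3 : pol Q x f = pol Q z f / pol Q z g * pol Q x g := by linear_combination h2
      rw [h3]
      field_simp
      ring
    have e : x = (x - c • z) + c • z := by abel
    rw [e]
    exact Submodule.add_mem _ (hsy h1) (Submodule.smul_mem _ _ (Submodule.subset_span (by simp)))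

/-- The commutator of two Eichler elements with orthogonal centres. -/
theorem rr_commutator {a b e f : ι → F} (ha : Q a = 0) (hb : Q b = 0) (hbf : pol Q b f = 0) (hae : pol Q a e = 0)
    (haf : pol Q a f = 0) (hab : pol Q a b = 0) :
    ⁅rr hQ b f, rr hQ a e⁆ = rr hQ a (eE Q b f e - e) := by
  have hiso := rr_iso hQ hb hbf
  have h1 : rr hQ b f * rr hQ a e * (rr hQ b f)⁻¹ = rr hQ a (eE Q b f e) := by
    rw [rr_conj hQ hiso ha hae, rr_mulVec hQ hb hbf, rr_mulVec hQ hb hbf, eE_fix hab haf]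
  have h2 : pol Q a (eE Q b f e) = 0 := by
    have := eE_pol hQ hb hbf a e
    rw [eE_fix hab haf, hae] at this
    exact this
  have h3 : pol Q a (eE Q b f e - e) = 0 := by rw [pol_sub_right hQ, h2, hae, sub_zero]
  have h4 : rr hQ a (eE Q b f e) = rr hQ a (eE Q b f e - e) * rr hQ a e := by
    rw [← rr_add hQ ha h3 hae, sub_add_cancel]
  rw [commutatorElement_def, h1, h4, mul_inv_cancel_right]

theorem rr_pow_three (h3 : (3 : F) = 0) {a c : ι → F} (ha : Q a = 0) (hac : pol Q a c = 0) : rr hQ a c ^ 3 = 1 := by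
  have e : c + c + c = 0 := by
    have : c + c + c = (3 : F) • c := by
      rw [show (3 : F) = 1 + 1 + 1 by norm_num, add_smul, add_smul, one_smul]
    rw [this, h3, zero_smul]
  have h1 : rr hQ a (c + c + c) = rr hQ a c * rr hQ a c * rr hQ a c := by
    rw [rr_add hQ ha (by rw [pol_add_right hQ, hac, add_zero]) hac, rr_add hQ ha hac hac]
  rw [e, rr_zero hQ ha] at h1
  rw [h1, pow_succ, pow_two]

end vec

/-- The stabiliser of a hyperbolic pair and a vector. -/
def LL (Q : (ι → F) → F) (v v' u : ι → F) : Subgroup (GL ι F) where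
  carrier := {g | g ∈ omegaGL Q ∧ (g : Matrix ι ι F) *ᵥ v = v ∧ (g : Matrix ι ι F) *ᵥ v' = v' ∧ (g : Matrix ι ι F) *ᵥ u = u}
  mul_mem' := by
    rintro a b ⟨ha, ha1, ha2, ha3⟩ ⟨hb, hb1, hb2, hb3⟩
    refine ⟨Subgroup.mul_mem _ ha hb, ?_, ?_, ?_⟩ <;>
    · rw [Units.val_mul, ← Matrix.mulVec_mulVec]
      simp only [ha1, ha2, ha3, hb1, hb2, hb3]
  one_mem' := by
    refine ⟨Subgroup.one_mem _, ?_, ?_, ?_⟩ <;> simp
  inv_mem' := by
    rintro a ⟨ha, ha1, ha2, ha3⟩
    have key : ∀ x : ι → F, (a : Matrix ι ι F) *ᵥ x = x → ((a⁻¹ : GL ι F) : Matrix ι ι F) *ᵥ x = x := by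
      intro x hx
      conv_lhs => rw [← hx]
      exact inv_mulVec_mulVec a x
    exact ⟨Subgroup.inv_mem _ ha, key _ ha1, key _ ha2, key _ ha3⟩

namespace Ctx

variable {hQ : IsNondegenerateQuadraticForm Q} {X : Type*} [Fintype X] {act : ↥(omegaGL Q) →* Equiv.Perm X}
  {ψ : AddChar F ℂ} {v v' : ι → F} (C : Ctx hQ act ψ v v')

include C

theorem image_LL {u : ι → F} {g : GL ι F} (hg : g ∈ LL Q v v' u) {S : Finset (ι → F)} (hS : S ∈ Sf hQ act ψ v v') :
    S.image (fun x => (g : Matrix ι ι F) *ᵥ x) ∈ Sf hQ act ψ v v' := by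
  obtain ⟨h1, h2, h3, -⟩ := hg
  have hT : Adm Q v v' (Tw g 1) := ⟨g, h1, 1, one_ne_zero, by rw [h2, one_smul], by rw [h3, inv_one, one_smul], rfl⟩
  have e : Tw g 1 = fun x => (g : Matrix ι ι F) *ᵥ x := by
    funext x
    rw [Tw, inv_one, one_smul]
  rw [← e]
  exact C.Adm_Sf hT hS

/-- The action on the members through a vector. -/
noncomputable def PhiEnd (u : ι → F) : ↥(LL Q v v' u) →* Function.End {S : Finset (ι → F) // S ∈ Sf hQ act ψ v v' ∧ u ∈ S} where
  toFun g := fun S => ⟨S.1.image (fun x => (g.1 : Matrix ι ι F) *ᵥ x), C.image_LL g.2 S.2.1,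
    Finset.mem_image.mpr ⟨u, S.2.2, g.2.2.2.2⟩⟩
  map_one' := by
    funext S
    apply Subtype.ext
    change S.1.image (fun x => ((1 : GL ι F) : Matrix ι ι F) *ᵥ x) = S.1
    simp
  map_mul' := by
    intro g h
    funext S
    apply Subtype.ext
    change S.1.image _ = (S.1.image _).image _
    rw [Finset.image_image]
    apply Finset.image_congr
    intro x _
    simp [Matrix.mulVec_mulVec]

/-- The action as a permutation. -/
noncomputable def Phi (u : ι → F) : ↥(LL Q v v' u) →* Equiv.Perm {S : Finset (ι → F) // S ∈ Sf hQ act ψ v v' ∧ u ∈ S} :=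
  (C.PhiEnd u).toHomPerm

theorem Phi_image {u : ι → F} {g : ↥(LL Q v v' u)} (h : C.Phi u g = 1) {S : Finset (ι → F)} (hS : S ∈ Sf hQ act ψ v v')
    (hu : u ∈ S) : S.image (fun x => (g.1 : Matrix ι ι F) *ᵥ x) = S := by
  have h1 := congrArg (fun p : Equiv.Perm {S : Finset (ι → F) // S ∈ Sf hQ act ψ v v' ∧ u ∈ S} => p ⟨S, hS, hu⟩) h
  exact congrArg Subtype.val h1

theorem card_members (u : ι → F) : Nat.card {S : Finset (ι → F) // S ∈ Sf hQ act ψ v v' ∧ u ∈ S} = aa (Sf hQ act ψ v v') u := by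
  rw [aa, Nat.card_eq_fintype_card, Fintype.card_subtype]
  congr 1
  ext S
  simp

/-- Eichler elements inside the stabiliser. -/
theorem rr_LL {a c u : ι → F} (ha : a ∈ WW hQ v v') (hc : c ∈ WW hQ v v') (hQa : Q a = 0) (hac : pol Q a c = 0)
    (hua : pol Q u a = 0) (huc : pol Q u c = 0) : rr hQ a c ∈ LL Q v v' u := by
  have h1 := (mem_WW hQ).mp ha
  have h2 := (mem_WW hQ).mp hc
  refine ⟨rr_mem hQ C.hn hQa hac, ?_, ?_, ?_⟩
  · rw [rr_mulVec hQ hQa hac]
    exact eE_fix h1.1 h2.1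
  · rw [rr_mulVec hQ hQa hac]
    exact eE_fix h1.2 h2.2
  · rw [rr_mulVec hQ hQa hac]
    exact eE_fix hua huc

/-- The image under an element of the Eichler group. -/
theorem eE_image_of_Phi {a c u : ι → F} (hQa : Q a = 0) (hac : pol Q a c = 0) {h : rr hQ a c ∈ LL Q v v' u}
    (hP : C.Phi u ⟨_, h⟩ = 1) {S : Finset (ι → F)} (hS : S ∈ Sf hQ act ψ v v') (hu : u ∈ S) : S.image (eE Q a c) = S := by
  have h1 := C.Phi_image hP hS hu
  simp only [rr_mulVec hQ hQa hac] at h1
  exact h1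

/-- **Characteristic three**: singular Eichler maps centralising `u` fix the members through `u`. -/
theorem eE_stable3 (h3 : (3 : F) = 0) {u : ι → F} (hu : u ∈ WW hQ v v') (hQu : Q u ≠ 0)
    (haa : aa (Sf hQ act ψ v v') u ≤ 4) (hdim : 6 ≤ Module.finrank F (WW hQ v v'))
    {a b : ι → F} (ha : a ∈ WW hQ v v') (hb : b ∈ WW hQ v v') (hQa : Q a = 0) (hQb : Q b = 0) (hab : pol Q a b = 0)
    (hua : pol Q u a = 0) (hub : pol Q u b = 0) {S : Finset (ι → F)} (hS : S ∈ Sf hQ act ψ v v') (huS : u ∈ S) :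
    S.image (eE Q a b) = S := by
  have h2 : (2 : F) ≠ 0 := by
    intro h2
    have : (1 : F) = 0 := by
      have e : (1 : F) = 3 - 2 := by norm_num
      rw [e, h3, h2, sub_zero]
    exact one_ne_zero this
  set W := WW hQ v v' with hW
  set Z := Ort hQ W u with hZ
  have hZnd : Cfsg.Agent.Lib.MinOmega.Nd Q Z := Nd_ort_odd hQ h2 C.Nd hu hQu
  have hmemZ : ∀ x, x ∈ Z ↔ x ∈ W ∧ pol Q u x = 0 := fun x => mem_Ort hQ
  have haZ : a ∈ Z := (hmemZ a).mpr ⟨ha, hua⟩
  have hbZ : b ∈ Z := (hmemZ b).mpr ⟨hb, hub⟩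
  have hd1 : Module.finrank F W ≤ Module.finrank F Z + 1 := finrank_Ort hQ W u
  have hd2 := finrank_Ort hQ Z a
  have hd3 := finrank_Ort hQ (Ort hQ Z a) b
  have hspan : Module.finrank F (Submodule.span F {a, b} : Submodule F (ι → F)) ≤ 2 := by
    have := finrank_span_le_card (R := F) ({a, b} : Set (ι → F))
    refine this.trans ?_
    simpa using Finset.card_le_two (a := a) (b := b)
  obtain ⟨e, he, heab⟩ : ∃ e ∈ Ort hQ (Ort hQ Z a) b, e ∉ Submodule.span F {a, b} := by
    by_contra hcon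
    push Not at hcon
    have hle : Ort hQ (Ort hQ Z a) b ≤ Submodule.span F {a, b} := fun y hy => hcon y hy
    have := Submodule.finrank_mono hle
    omega
  rw [mem_Ort hQ, mem_Ort hQ] at he
  obtain ⟨⟨heZ, hae⟩, hbe⟩ := he
  obtain ⟨f, hf, haf, hbf, hef⟩ := hZnd.exists_sep2 hQ heZ haZ hbZ heab
  obtain ⟨heW, hue⟩ := (hmemZ e).mp heZ
  obtain ⟨hfW, huf⟩ := (hmemZ f).mp hf
  set t := (pol Q e f)⁻¹ with ht
  have hte : pol Q (t • e) f = 1 := by rw [pol_smul_left hQ, ht, inv_mul_cancel₀ hef]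
  have hteW : t • e ∈ W := W.smul_mem _ heW
  have hate : pol Q a (t • e) = 0 := by rw [pol_smul_right hQ, hae, mul_zero]
  have hbte : pol Q b (t • e) = 0 := by rw [pol_smul_right hQ, hbe, mul_zero]
  have hute : pol Q u (t • e) = 0 := by rw [pol_smul_right hQ, hue, mul_zero]
  have hωm : rr hQ a b ∈ LL Q v v' u := C.rr_LL ha hb hQa hab hua hub
  have hσm : rr hQ b f ∈ LL Q v v' u := C.rr_LL hb hfW hQb hbf hub huf
  have hρm : rr hQ a (t • e) ∈ LL Q v v' u := C.rr_LL ha hteW hQa hate hua hute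
  have hcomm : rr hQ a b = ⁅rr hQ b f, rr hQ a (t • e)⁆ := by
    rw [rr_commutator hQ hQa hQb hbf hate haf hab]
    congr 1
    unfold eE
    rw [hte, pol_symm hQ (t • e) b, hbte]
    simp
  have hω : (⟨_, hωm⟩ : ↥(LL Q v v' u)) = ⁅(⟨_, hσm⟩ : ↥(LL Q v v' u)), (⟨_, hρm⟩ : ↥(LL Q v v' u))⁆ := by
    apply Subtype.ext
    exact hcomm
  have hpow : ∀ (c d : ι → F) (hm : rr hQ c d ∈ LL Q v v' u), Q c = 0 → pol Q c d = 0 → (⟨_, hm⟩ : ↥(LL Q v v' u)) ^ 3 = 1 := by
    intro c d hm h4 h5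
    apply Subtype.ext
    rw [Subgroup.coe_pow]
    exact rr_pow_three hQ h3 h4 h5
  have hP : C.Phi u ⟨_, hωm⟩ = 1 := by
    rw [hω, map_commutatorElement]
    apply perm_three
    · rw [C.card_members]
      exact haa
    · rw [← map_pow, hpow _ _ _ hQb hbf, map_one]
    · rw [← map_pow, hpow _ _ _ hQa hate, map_one]
    · rw [← map_commutatorElement, ← hω, ← map_pow, hpow _ _ _ hQa hab, map_one]
  exact C.eE_image_of_Phi hQa hab hP hS huS

/-- All Eichler maps centralising `u`, characteristic three. -/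
theorem eE_stable3' (h3 : (3 : F) = 0) {u : ι → F} (hu : u ∈ WW hQ v v') (hQu : Q u ≠ 0)
    (haa : aa (Sf hQ act ψ v v') u ≤ 4) (hdim : 6 ≤ Module.finrank F (WW hQ v v'))
    {a c : ι → F} (ha : a ∈ WW hQ v v') (hc : c ∈ WW hQ v v') (hQa : Q a = 0) (hac : pol Q a c = 0)
    (hua : pol Q u a = 0) (huc : pol Q u c = 0) {S : Finset (ι → F)} (hS : S ∈ Sf hQ act ψ v v') (huS : u ∈ S) :
    S.image (eE Q a c) = S := by
  have h2 : (2 : F) ≠ 0 := by
    intro h2
    have : (1 : F) = 0 := by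
      have e : (1 : F) = 3 - 2 := by norm_num
      rw [e, h3, h2, sub_zero]
    exact one_ne_zero this
  set W := WW hQ v v' with hW
  by_cases ha0 : a = 0
  · subst ha0
    have : eE Q 0 c = id := by
      funext x
      unfold eE
      rw [pol_zero_right hQ]
      simp
    rw [this, Finset.image_id]
  set Z := Ort hQ W u with hZ
  have hZnd : Cfsg.Agent.Lib.MinOmega.Nd Q Z := Nd_ort_odd hQ h2 C.Nd hu hQu
  have hmemZ : ∀ x, x ∈ Z ↔ x ∈ W ∧ pol Q u x = 0 := fun x => mem_Ort hQ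
  have haZ : a ∈ Z := (hmemZ a).mpr ⟨ha, hua⟩
  have hcZ : c ∈ Z := (hmemZ c).mpr ⟨hc, huc⟩
  obtain ⟨a', ha', haa'⟩ := hZnd.exists_partner hQ haZ ha0 hQa
  set R := Ort hQ (Ort hQ Z a) a' with hR
  have hRnd : Cfsg.Agent.Lib.MinOmega.Nd Q R := Nd_ort2 hQ hZnd haZ ha' haa'
  have hd1 : Module.finrank F W ≤ Module.finrank F Z + 1 := finrank_Ort hQ W u
  have hd2 := finrank_Ort hQ Z a
  have hd3 := finrank_Ort hQ (Ort hQ Z a) a'
  have hRfr : 3 ≤ Module.finrank F R := by rw [hR]; omega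
  obtain ⟨d, hd, hd0, hQd⟩ := exists_singular hQ R hRfr
  obtain ⟨d', hd', hdd'⟩ := hRnd.exists_partner hQ hd hd0 hQd
  have hmemR : ∀ x, x ∈ R → x ∈ W ∧ pol Q u x = 0 ∧ pol Q a x = 0 := by
    intro x hx
    rw [hR, mem_Ort hQ, mem_Ort hQ, hmemZ] at hx
    exact ⟨hx.1.1.1, hx.1.1.2, hx.1.2⟩
  have hspW : ∀ y ∈ Submodule.span F {c | c ∈ R ∧ Q c = 0}, y ∈ R := by
    intro y hy
    have hle : Submodule.span F {c | c ∈ R ∧ Q c = 0} ≤ R := by
      rw [Submodule.span_le]
      exact fun y hy => hy.1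
    exact hle hy
  have key : ∀ y ∈ Submodule.span F {c | c ∈ R ∧ Q c = 0}, ∀ t : F, S.image (eE Q a (t • y)) = S := by
    intro y hy
    induction hy using Submodule.span_induction with
    | mem y hy =>
      intro t
      obtain ⟨h4, h5, h6⟩ := hmemR y hy.1
      exact C.eE_stable3 h3 hu hQu haa hdim ha (W.smul_mem _ h4) hQa (by rw [hQ.smul, hy.2, mul_zero])
        (by rw [pol_smul_right hQ, h6, mul_zero]) hua (by rw [pol_smul_right hQ, h5, mul_zero]) hS huS
    | zero =>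
      intro t
      rw [smul_zero]
      have : eE Q a 0 = id := funext (eE_zero_param hQ)
      rw [this, Finset.image_id]
    | add y₁ y₂ h₁ h₂ hy₁ hy₂ =>
      intro t
      obtain ⟨-, -, h5⟩ := hmemR y₁ (hspW _ h₁)
      obtain ⟨-, -, h6⟩ := hmemR y₂ (hspW _ h₂)
      have e : eE Q a (t • (y₁ + y₂)) = eE Q a (t • y₁) ∘ eE Q a (t • y₂) := by
        funext x
        rw [smul_add, Function.comp, eE_add_param hQ hQa (by rw [pol_smul_right hQ, h5, mul_zero]) (by rw [pol_smul_right hQ, h6, mul_zero])]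
      rw [e, ← Finset.image_image, hy₂ t, hy₁ t]
    | smul s y h₁ hy =>
      intro t
      rw [smul_smul]
      exact hy _
  set c₀ := c - pol Q c a' • a with hc₀
  have hc₀R : c₀ ∈ R := by
    rw [hR, mem_Ort hQ, mem_Ort hQ]
    refine ⟨⟨Z.sub_mem hcZ (Z.smul_mem _ haZ), ?_⟩, ?_⟩
    · rw [hc₀, pol_sub_right hQ, pol_smul_right hQ, hac, pol_singular hQ hQa]
      ring
    · rw [hc₀, pol_sub_right hQ, pol_smul_right hQ, pol_symm hQ a' a, haa'.hab, pol_symm hQ a' c]
      ring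
  have h7 := key c₀ (span_singular hQ hd hd' hdd' hc₀R) 1
  rw [one_smul] at h7
  have e : eE Q a c = eE Q a c₀ := by
    funext x
    have h8 : pol Q a c₀ = 0 := (hmemR _ hc₀R).2.2
    have h9 : pol Q a (pol Q c a' • a) = 0 := by rw [pol_smul_right hQ, pol_singular hQ hQa, mul_zero]
    have e1 : c = c₀ + pol Q c a' • a := by rw [hc₀]; abel
    rw [e1, eE_add_param hQ hQa h8 h9]
    congr 1
    rw [← rr_mulVec hQ hQa h9, rr_self hQ hQa]
    simp
  rw [e]
  exact h7

/-- **Trichotomy in characteristic three.** -/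
theorem tri3 (h3 : (3 : F) = 0) {N : ℕ} (hN : Fintype.card X < N) (hdim : 6 ≤ Module.finrank F (WW hQ v v'))
    (hCl : ∀ u ∈ WW hQ v v', Q u ≠ 0 → N ≤ 5 * (Cl hQ v v' u).card)
    {S : Finset (ι → F)} (hS : S ∈ Sf hQ act ψ v v') :
    (∀ x ∈ WW hQ v v', x ∈ S) ∨ Line S ∨ Ts Q S := by
  by_cases hsing : ∀ x ∈ S, Q x = 0
  · by_cases hl : Line S
    · exact Or.inr (Or.inl hl)
    · exact Or.inr (Or.inr ⟨hsing, hl⟩)
  · push Not at hsing
    obtain ⟨u, huS, hQu⟩ := hsing
    have hmem : ∀ x, x ∈ C.toAdd hS ↔ x ∈ S := fun x => Iff.rfl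
    have key := caseA hQ C.Nd C.finrank_W (fun _ => hdim) (C.toAdd hS) (fun x hx => C.Sf_sub hS ((hmem x).mp hx)) ?_
      (u := u) ((hmem u).mpr huS) hQu
    · rcases key with h1 | h1
      · exact Or.inr (Or.inl ⟨u, fun x hx => h1 x ((hmem x).mpr hx)⟩)
      · exact Or.inl (fun x hx => (hmem x).mp (h1 x hx))
    · intro u₁ hu₁ hQu₁ a c ha hc hQa hac hua huc y hy
      have hu₁S := (hmem u₁).mp hu₁
      have hu₁0 : u₁ ≠ 0 := by
        rintro rfl
        exact hQu₁ (Q_zero hQ)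
      have hu₁W := C.Sf_sub hS hu₁S
      have haa : aa (Sf hQ act ψ v v') u₁ ≤ 4 := by
        have h1 := C.aa_mul_Cl_le_card (Finset.Subset.refl _) C.Sf_inv hu₁W hu₁0
        have h2 := hCl u₁ hu₁W hQu₁
        by_contra hc
        push Not at hc
        have h3 : 5 * (Cl hQ v v' u₁).card ≤ aa (Sf hQ act ψ v v') u₁ * (Cl hQ v v' u₁).card :=
          Nat.mul_le_mul_right _ hc
        omega
      have h1 := C.eE_stable3' h3 hu₁W hQu₁ haa hdim ha hc hQa hac hua huc hS hu₁S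
      rw [hmem] at hy ⊢
      rw [← h1]
      exact Finset.mem_image_of_mem _ hy

end Ctx

end Cfsg.Agent.Lib.MinOmega
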