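/-
The field with two elements: additive subgroups stable under the perfect part of the stabiliser of a non-singular vector.
-/
import Cfsg.Agent.Lib.MinOmega.Small
set_option autoImplicit false

namespace Cfsg.Agent.Lib.MinOmega

open Cfsg Cfsg.Geo Cfsg.Agent.Lib.Geo.Basic Cfsg.Agent.Lib.Geo.QForm Cfsg.Agent.Lib.GeoOmega.Basic
open Cfsg.Agent.Lib.GeoOmega.Eichler
open scoped MatrixGroups Matrix
open scoped _root_.Classical
open scoped commutatorElement

variable {ι : Type} [Fintype ι] [DecidableEq ι] {F : Type*} [Field F] [Fintype F] {Q : (ι → F) → F}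

theorem f2_cases (hF : Fintype.card F = 2) (x : F) : x = 0 ∨ x = 1 := by
  by_contra h
  push Not at h
  have h1 : ({0, 1, x} : Finset F).card ≤ Fintype.card F := Finset.card_le_univ _
  rw [Finset.card_insert_of_notMem, Finset.card_insert_of_notMem, Finset.card_singleton, hF] at h1
  · omega
  · simpa using h.2.symm
  · simp only [Finset.mem_insert, Finset.mem_singleton, not_or]
    exact ⟨zero_ne_one, h.1.symm⟩

theorem f2_two (hF : Fintype.card F = 2) : (2 : F) = 0 := by
  rcases f2_cases hF (2 : F) with h | h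
  · exact h
  · exfalso
    have : (1 : F) = 0 := by linear_combination h
    exact one_ne_zero this

theorem f2_ne (hF : Fintype.card F = 2) {x : F} (h : x ≠ 0) : x = 1 := (f2_cases hF x).resolve_left h

theorem f2_v (hF : Fintype.card F = 2) (x : ι → F) : (2 : F) • x = 0 := by rw [f2_two hF, zero_smul]

/-- The invariance hypothesis. -/
def Gen2 (Q : (ι → F) → F) (W : Submodule F (ι → F)) (S : AddSubgroup (ι → F)) : Prop :=
  ∀ u₁ ∈ S, Q u₁ ≠ 0 → ∀ a b, a ∈ W → b ∈ W → Q a = 0 → Q b = 0 → pol Q u₁ a = 0 → pol Q u₁ b = 0 → pol Q a b = 0 →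
    a ∉ Submodule.span F {b, u₁} → b ∉ Submodule.span F {a, u₁} → ∀ y ∈ S, eE Q a (u₁ + b) y ∈ S

section main

variable (hQ : IsNondegenerateQuadraticForm Q) (hF : Fintype.card F = 2)
include hQ hF

theorem pol_self2 (x : ι → F) : pol Q x x = 0 := by
  rw [pol_self hQ, f2_two hF, zero_mul]

/-- A shift by `u` is singular. -/
theorem exists_shift {u f : ι → F} (hQu : Q u ≠ 0) (huf : pol Q u f = 0) : ∃ t : F, Q (f + t • u) = 0 := by
  rcases f2_cases hF (Q f) with h | h
  · exact ⟨0, by rw [zero_smul, add_zero, h]⟩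
  · refine ⟨1, ?_⟩
    rw [one_smul, Q_add hQ, h, f2_ne hF hQu, pol_symm hQ, huf, add_zero]
    exact f2_two hF |> fun e => by linear_combination e

theorem smul_S2 (S : AddSubgroup (ι → F)) {y : ι → F} (hy : y ∈ S) (t : F) : t • y ∈ S := by
  rcases f2_cases hF t with rfl | rfl
  · rw [zero_smul]
    exact S.zero_mem
  · rwa [one_smul]

/-- `s` is not in the span of `u, a`. -/
theorem snot {u s a : ι → F} (hQu : Q u ≠ 0) (hQs : Q s = 0) (hQa : Q a = 0) (hua : pol Q u a = 0) (hs0 : s ≠ 0)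
    (hind : a ∉ Submodule.span F {s, u}) : s ∉ Submodule.span F {u, a} := by
  intro hm
  obtain ⟨α, β, e⟩ := Submodule.mem_span_pair.mp hm
  have h1 : Q s = α ^ 2 * Q u := by
    rw [← e, Q_add hQ, hQ.smul, hQ.smul, hQa, pol_smul_left hQ, pol_smul_right hQ, hua]
    ring
  rw [hQs] at h1
  have hα : α = 0 := by
    rcases mul_eq_zero.mp h1.symm with h | h
    · exact pow_eq_zero_iff two_ne_zero |>.mp h
    · exact absurd h hQu
  rw [hα, zero_smul, zero_add] at e
  have hβ : β ≠ 0 := by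
    rintro rfl
    apply hs0
    rw [← e, zero_smul]
  apply hind
  have e2 : a = β⁻¹ • s := by rw [← e, smul_smul, inv_mul_cancel₀ hβ, one_smul]
  rw [e2]
  exact Submodule.smul_mem _ _ (Submodule.subset_span (by simp))

variable {W : Submodule F (ι → F)} (hW : Nd Q W) (S : AddSubgroup (ι → F)) (hSW : ∀ x ∈ S, x ∈ W) (hinv : Gen2 Q W S)

include hinv in
/-- The basic relation. -/
theorem star {u₁ a b y : ι → F} (hu₁ : u₁ ∈ S) (hQu₁ : Q u₁ ≠ 0) (ha : a ∈ W) (hb : b ∈ W) (hQa : Q a = 0) (hQb : Q b = 0)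
    (hua : pol Q u₁ a = 0) (hub : pol Q u₁ b = 0) (hab : pol Q a b = 0) (hi1 : a ∉ Submodule.span F {b, u₁})
    (hi2 : b ∉ Submodule.span F {a, u₁}) (hy : y ∈ S) : pol Q y (u₁ + b) • a + pol Q y a • (b + a) ∈ S := by
  have h1 := S.sub_mem (hinv u₁ hu₁ hQu₁ a b ha hb hQa hQb hua hub hab hi1 hi2 y hy) hy
  have h2 := S.add_mem h1 (smul_S2 hQ hF S hu₁ (pol Q y a))
  have hQc : Q (u₁ + b) = 1 := by
    rw [Q_add hQ, hQb, hub, f2_ne hF hQu₁]
    ring
  have e : eE Q a (u₁ + b) y - y + pol Q y a • u₁ = pol Q y (u₁ + b) • a + pol Q y a • (b + a) := by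
    unfold eE
    rw [hQc, one_mul]
    linear_combination (norm := module) (- pol Q y a) • f2_v hF (b + a)
  rwa [e] at h2

include hW hSW hinv in
theorem H_sing {u s a : ι → F} (hu : u ∈ S) (hQu : Q u ≠ 0) (hs : s ∈ S) (hQs : Q s = 0) (hs0 : s ≠ 0)
    (hus : pol Q u s = 0) (haW : a ∈ W) (hQa : Q a = 0) (hua : pol Q u a = 0) (hsa : pol Q s a = 0)
    (hind : a ∉ Submodule.span F {s, u}) : a ∈ S := by
  have hsnot := snot hQ hF hQu hQs hQa hua hs0 hind
  obtain ⟨f, hf, huf, haf, hsf⟩ := hW.exists_sep2 hQ (hSW s hs) (hSW u hu) haW hsnot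
  obtain ⟨t, ht⟩ := exists_shift hQ hF hQu huf
  set b := f + t • u with hb
  have hbW : b ∈ W := W.add_mem hf (W.smul_mem _ (hSW u hu))
  have hub : pol Q u b = 0 := by
    rw [hb, pol_add_right hQ, huf, pol_smul_right hQ, pol_self2 hQ hF]
    ring
  have hab : pol Q a b = 0 := by
    rw [hb, pol_add_right hQ, haf, pol_smul_right hQ, pol_symm hQ a u, hua]
    ring
  have hsb : pol Q s b = 1 := by
    apply f2_ne hF
    rw [hb, pol_add_right hQ, pol_smul_right hQ, pol_symm hQ s u, hus, mul_zero, add_zero]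
    exact hsf
  have hi1 : a ∉ Submodule.span F {b, u} := by
    intro hm
    obtain ⟨α, β, e⟩ := Submodule.mem_span_pair.mp hm
    have h1 := congrArg (pol Q s) e
    rw [pol_add_right hQ, pol_smul_right hQ, pol_smul_right hQ, hsb, pol_symm hQ s u, hus, hsa] at h1
    have hα : α = 0 := by linear_combination h1
    rw [hα, zero_smul, zero_add] at e
    have h2 : Q a = β ^ 2 * Q u := by rw [← e, hQ.smul]
    rw [hQa] at h2
    have hβ : β = 0 := by
      rcases mul_eq_zero.mp h2.symm with h | h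
      · exact pow_eq_zero_iff two_ne_zero |>.mp h
      · exact absurd h hQu
    apply hind
    rw [← e, hβ, zero_smul]
    exact Submodule.zero_mem _
  have hi2 : b ∉ Submodule.span F {a, u} := by
    intro hm
    obtain ⟨α, β, e⟩ := Submodule.mem_span_pair.mp hm
    have h1 := congrArg (pol Q s) e
    rw [pol_add_right hQ, pol_smul_right hQ, pol_smul_right hQ, hsb, pol_symm hQ s u, hus, hsa] at h1
    simp at h1
  have h := star hQ hF S hinv hu hQu haW hbW hQa ht hua hub hab hi1 hi2 hs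
  rw [pol_add_right hQ, pol_symm hQ s u, hus, hsb, hsa, zero_add, one_smul, zero_smul, add_zero] at h
  exact h

include hW hSW hinv in
theorem H_perp {u s x : ι → F} (hu : u ∈ S) (hQu : Q u ≠ 0) (hs : s ∈ S) (hQs : Q s = 0) (hs0 : s ≠ 0)
    (hus : pol Q u s = 0) (hxW : x ∈ W) (hux : pol Q u x = 0) (hsx : pol Q s x = 0) : x ∈ S := by
  by_cases hx : x ∈ Submodule.span F {s, u}
  · obtain ⟨α, β, e⟩ := Submodule.mem_span_pair.mp hx
    rw [← e]
    exact S.add_mem (smul_S2 hQ hF S hs α) (smul_S2 hQ hF S hu β)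
  · obtain ⟨t, ht⟩ := exists_shift hQ hF hQu hux
    have hmem : x + t • u ∈ S := by
      refine H_sing hQ hF hW S hSW hinv hu hQu hs hQs hs0 hus (W.add_mem hxW (W.smul_mem _ (hSW u hu))) ht ?_ ?_ ?_
      · rw [pol_add_right hQ, hux, pol_smul_right hQ, pol_self2 hQ hF]
        ring
      · rw [pol_add_right hQ, hsx, pol_smul_right hQ, pol_symm hQ s u, hus]
        ring
      · intro hm
        apply hx
        have e : x = (x + t • u) - t • u := by abel
        rw [e]
        exact Submodule.sub_mem _ hm (Submodule.smul_mem _ _ (Submodule.subset_span (by simp)))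
    have e : x = (x + t • u) - t • u := by abel
    rw [e]
    exact S.sub_mem hmem (smul_S2 hQ hF S hu t)

include hW hSW hinv in
theorem Z_sub (hdim : 6 ≤ Module.finrank F W) {u s : ι → F} (hu : u ∈ S) (hQu : Q u ≠ 0) (hs : s ∈ S) (hQs : Q s = 0)
    (hs0 : s ≠ 0) (hus : pol Q u s = 0) {x : ι → F} (hxW : x ∈ W) (hux : pol Q u x = 0) : x ∈ S := by
  have hd1 := finrank_Ort hQ W u
  have hd2 := finrank_Ort hQ (Ort hQ W u) s
  have hspan : Module.finrank F (Submodule.span F {s, u} : Submodule F (ι → F)) ≤ 2 := by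
    have := finrank_span_le_card (R := F) ({s, u} : Set (ι → F))
    refine this.trans ?_
    simpa using Finset.card_le_two (a := s) (b := u)
  obtain ⟨y, hy, hys⟩ : ∃ y ∈ Ort hQ (Ort hQ W u) s, y ∉ Submodule.span F {s, u} := by
    by_contra hcon
    push Not at hcon
    have hle : Ort hQ (Ort hQ W u) s ≤ Submodule.span F {s, u} := fun y hy => hcon y hy
    have := Submodule.finrank_mono hle
    omega
  rw [mem_Ort hQ, mem_Ort hQ] at hy
  obtain ⟨⟨hyW, huy⟩, hsy⟩ := hy
  obtain ⟨t, ht⟩ := exists_shift hQ hF hQu huy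
  set a₁ := y + t • u with ha₁
  have ha₁W : a₁ ∈ W := W.add_mem hyW (W.smul_mem _ (hSW u hu))
  have hua₁ : pol Q u a₁ = 0 := by
    rw [ha₁, pol_add_right hQ, huy, pol_smul_right hQ, pol_self2 hQ hF]
    ring
  have hsa₁ : pol Q s a₁ = 0 := by
    rw [ha₁, pol_add_right hQ, hsy, pol_smul_right hQ, pol_symm hQ s u, hus]
    ring
  have hind : a₁ ∉ Submodule.span F {s, u} := by
    intro hm
    apply hys
    have e : y = a₁ - t • u := by rw [ha₁]; abel
    rw [e]
    exact Submodule.sub_mem _ hm (Submodule.smul_mem _ _ (Submodule.subset_span (by simp)))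
  have ha₁S : a₁ ∈ S := H_sing hQ hF hW S hSW hinv hu hQu hs hQs hs0 hus ha₁W ht hua₁ hsa₁ hind
  have ha₁0 : a₁ ≠ 0 := by
    intro h
    apply hind
    rw [h]
    exact Submodule.zero_mem _
  obtain ⟨h, hh, huh, ha₁h, hsh⟩ := hW.exists_sep2 hQ (hSW s hs) (hSW u hu) ha₁W (snot hQ hF hQu hQs ht hua₁ hs0 hind)
  set c := pol Q s x / pol Q s h with hc
  have h1 : c • h ∈ S := by
    refine H_perp hQ hF hW S hSW hinv hu hQu ha₁S ht ha₁0 hua₁ (W.smul_mem _ hh) ?_ ?_
    · rw [pol_smul_right hQ, huh, mul_zero]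
    · rw [pol_smul_right hQ, ha₁h, mul_zero]
  have h2 : x - c • h ∈ S := by
    refine H_perp hQ hF hW S hSW hinv hu hQu hs hQs hs0 hus (W.sub_mem hxW (W.smul_mem _ hh)) ?_ ?_
    · rw [pol_sub_right hQ, pol_smul_right hQ, huh, hux]
      ring
    · rw [pol_sub_right hQ, pol_smul_right hQ, hc]
      field_simp
      ring
  have e : x = (x - c • h) + c • h := by abel
  rw [e]
  exact S.add_mem h2 h1

include hW hSW hinv in
/-- A singular vector of `S` orthogonal to `u`. -/
theorem stepA (hdim : 6 ≤ Module.finrank F W) {u y : ι → F} (hu : u ∈ S) (hQu : Q u ≠ 0) (hy : y ∈ S)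
    (hyu : y ∉ Submodule.span F {u}) : ∃ r ∈ S, Q r = 0 ∧ r ≠ 0 ∧ pol Q u r = 0 := by
  have huW := hSW u hu
  have hyW := hSW y hy
  by_cases huy : pol Q u y = 0
  · obtain ⟨t, ht⟩ := exists_shift hQ hF hQu huy
    refine ⟨y + t • u, S.add_mem hy (smul_S2 hQ hF S hu t), ht, ?_, ?_⟩
    · intro h0
      apply hyu
      have e : y = (-t) • u := by
        rw [neg_smul]
        exact eq_neg_of_add_eq_zero_left h0
      rw [e]
      exact Submodule.smul_mem _ _ (Submodule.mem_span_singleton_self u)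
    · rw [pol_add_right hQ, huy, pol_smul_right hQ, pol_self2 hQ hF]
      ring
  · have hκ : pol Q u y = 1 := f2_ne hF huy
    have hκ' : pol Q y u = 1 := by rw [pol_symm hQ, hκ]
    set Y := Ort hQ (Ort hQ W u) y with hY
    have hYnd : Nd Q Y := by
      intro x hx hx0
      rw [hY, mem_Ort hQ, mem_Ort hQ] at hx
      obtain ⟨⟨hxW, hux⟩, hyx⟩ := hx
      obtain ⟨z, hz, hxz⟩ := hW x hxW hx0
      refine ⟨z - pol Q z y • u - pol Q z u • y, ?_, ?_⟩
      · rw [hY, mem_Ort hQ, mem_Ort hQ]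
        refine ⟨⟨W.sub_mem (W.sub_mem hz (W.smul_mem _ huW)) (W.smul_mem _ hyW), ?_⟩, ?_⟩
        · rw [pol_sub_right hQ, pol_sub_right hQ, pol_smul_right hQ, pol_smul_right hQ, pol_self2 hQ hF, hκ,
            pol_symm hQ u z]
          ring
        · rw [pol_sub_right hQ, pol_sub_right hQ, pol_smul_right hQ, pol_smul_right hQ, pol_self2 hQ hF, hκ',
            pol_symm hQ y z]
          ring
      · rw [pol_sub_right hQ, pol_sub_right hQ, pol_smul_right hQ, pol_smul_right hQ, pol_symm hQ x u, hux, pol_symm hQ x y,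
          hyx]
        simpa using hxz
    have hd1 := finrank_Ort hQ W u
    have hd2 := finrank_Ort hQ (Ort hQ W u) y
    obtain ⟨t₀, ht₀, hQt₀⟩ := exists_nonsingular hQ hYnd (by rw [hY]; omega)
    have hd3 := finrank_Ort hQ Y t₀
    obtain ⟨r, hr, hr0, hQr⟩ := exists_singular hQ (Ort hQ Y t₀) (by rw [hY] at hd3 ⊢; omega)
    have ht₀' := ht₀
    rw [hY, mem_Ort hQ, mem_Ort hQ] at ht₀
    obtain ⟨⟨ht₀W, hut₀⟩, hyt₀⟩ := ht₀
    rw [mem_Ort hQ, hY, mem_Ort hQ, mem_Ort hQ] at hr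
    obtain ⟨⟨⟨hrW, hur⟩, hyr⟩, ht₀r⟩ := hr
    set a := u + t₀ with ha
    have haW : a ∈ W := W.add_mem huW ht₀W
    have hQa : Q a = 0 := by
      rw [ha, Q_add hQ, hut₀, f2_ne hF hQu, f2_ne hF hQt₀]
      linear_combination f2_two hF
    have hua : pol Q u a = 0 := by
      rw [ha, pol_add_right hQ, pol_self2 hQ hF, hut₀, add_zero]
    have har : pol Q a r = 0 := by
      rw [ha, pol_add_left hQ, hur, ht₀r, add_zero]
    have hya : pol Q y a = 1 := by
      rw [ha, pol_add_right hQ, hκ', hyt₀, add_zero]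
    have hi1 : a ∉ Submodule.span F {r, u} := by
      intro hm
      obtain ⟨α, β, e⟩ := Submodule.mem_span_pair.mp hm
      have h1 := congrArg (pol Q y) e
      rw [pol_add_right hQ, pol_smul_right hQ, pol_smul_right hQ, hyr, hκ', hya] at h1
      have hβ : β = 1 := by linear_combination h1
      rw [hβ, one_smul, ha] at e
      have e2 : α • r = t₀ := by
        have := add_right_cancel (a := α • r) (b := u) (c := t₀) (by rw [add_comm t₀ u]; exact e)
        exact this
      have h2 := hQ.smul α r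
      rw [e2, hQr, mul_zero] at h2
      exact hQt₀ h2
    have hi2 : r ∉ Submodule.span F {a, u} := by
      intro hm
      obtain ⟨α, β, e⟩ := Submodule.mem_span_pair.mp hm
      have h1 := congrArg (pol Q y) e
      rw [pol_add_right hQ, pol_smul_right hQ, pol_smul_right hQ, hyr, hκ', hya] at h1
      have hβ : β = -α := by linear_combination h1
      rw [hβ, ha] at e
      have e2 : α • t₀ = r := by
        rw [← e]
        module
      have h2 := hQ.smul α t₀
      rw [e2, hQr] at h2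
      have hα : α = 0 := by
        rcases mul_eq_zero.mp h2.symm with h | h
        · exact pow_eq_zero_iff two_ne_zero |>.mp h
        · exact absurd h hQt₀
      apply hr0
      rw [← e2, hα, zero_smul]
    have h := star hQ hF S hinv hu hQu haW hrW hQa hQr hua hur har hi1 hi2 hy
    rw [pol_add_right hQ, hκ', hyr, add_zero, one_smul, hya, one_smul] at h
    refine ⟨r, ?_, hQr, hr0, hur⟩
    have e : a + (r + a) = r := by
      linear_combination (norm := module) f2_v hF a
    rwa [e] at h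

include hW hSW hinv in
/-- **Case A for the field with two elements**. -/
theorem caseA2 (hdim : 6 ≤ Module.finrank F W) {u : ι → F} (hu : u ∈ S) (hQu : Q u ≠ 0) :
    (∀ x ∈ S, x ∈ Submodule.span F {u}) ∨ ∀ x ∈ W, x ∈ S := by
  by_contra hcon
  push Not at hcon
  obtain ⟨⟨y, hy, hyu⟩, x, hx, hxS⟩ := hcon
  have huW := hSW u hu
  obtain ⟨r, hrS, hQr, hr0, hur⟩ := stepA hQ hF hW S hSW hinv hdim hu hQu hy hyu
  have hZ : ∀ z ∈ W, pol Q u z = 0 → z ∈ S := fun z hz huz =>
    Z_sub hQ hF hW S hSW hinv hdim hu hQu hrS hQr hr0 hur hz huz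
  obtain ⟨a, ha, b, hb, hab⟩ := exists_hyp_ort_ns hQ hW (by omega) huW hQu
  obtain ⟨haW, hua⟩ := (mem_Ort hQ).mp ha
  obtain ⟨hbW, hub⟩ := (mem_Ort hQ).mp hb
  set u₁ := a + b with hu₁
  have hQu₁ : Q u₁ ≠ 0 := by
    rw [hu₁, Q_add hQ, hab.ha, hab.hb, hab.hab]
    simp
  have hu₁W : u₁ ∈ W := W.add_mem haW hbW
  have huu₁ : pol Q u u₁ = 0 := by rw [hu₁, pol_add_right hQ, hua, hub, add_zero]
  have hu₁S : u₁ ∈ S := hZ _ hu₁W huu₁
  have hd1 := finrank_Ort hQ W u
  have hd2 := finrank_Ort hQ (Ort hQ W u) u₁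
  obtain ⟨s, hs, hs0, hQs⟩ := exists_singular hQ (Ort hQ (Ort hQ W u) u₁) (by omega)
  rw [mem_Ort hQ, mem_Ort hQ] at hs
  obtain ⟨⟨hsW, hus⟩, hu₁s⟩ := hs
  have hsS : s ∈ S := hZ s hsW hus
  have hZ₁ : ∀ z ∈ W, pol Q u₁ z = 0 → z ∈ S := fun z hz huz =>
    Z_sub hQ hF hW S hSW hinv hdim hu₁S hQu₁ hsS hQs hs0 hu₁s hz huz
  have hnot : u ∉ Submodule.span F {u₁} := by
    intro hm
    obtain ⟨t, ht⟩ := Submodule.mem_span_singleton.mp hm
    have h1 := congrArg (pol Q a) ht
    rw [pol_smul_right hQ, hu₁, pol_add_right hQ, pol_singular hQ hab.ha, hab.hab, zero_add, mul_one, pol_symm hQ a u,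
      hua] at h1
    rw [h1, zero_smul] at ht
    apply hQu
    rw [← ht, Q_zero hQ]
  obtain ⟨g, hg, hu₁g, hug⟩ := hW.exists_sep hQ huW hu₁W hnot
  apply hxS
  set c := pol Q u x / pol Q u g with hc
  have h1 : c • g ∈ S := hZ₁ _ (W.smul_mem _ hg) (by rw [pol_smul_right hQ, hu₁g, mul_zero])
  have h2 : x - c • g ∈ S := by
    apply hZ _ (W.sub_mem hx (W.smul_mem _ hg))
    rw [pol_sub_right hQ, pol_smul_right hQ, hc]
    field_simp
    ring
  have e : x = (x - c • g) + c • g := by abel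
  rw [e]
  exact S.add_mem h2 h1

end main

namespace Ctx

variable {hQ : IsNondegenerateQuadraticForm Q} {X : Type*} [Fintype X] {act : ↥(omegaGL Q) →* Equiv.Perm X}
  {ψ : AddChar F ℂ} {v v' : ι → F} (C : Ctx hQ act ψ v v')

include C

/-- **The field with two elements**: the perfect part of the stabiliser fixes the members through `u`. -/
theorem eE_stable2 (hF : Fintype.card F = 2) {u : ι → F} (hu : u ∈ WW hQ v v') (hQu : Q u ≠ 0)
    (haa : aa (Sf hQ act ψ v v') u ≤ 4)
    {a b : ι → F} (ha : a ∈ WW hQ v v') (hb : b ∈ WW hQ v v') (hQa : Q a = 0) (hQb : Q b = 0)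
    (hua : pol Q u a = 0) (hub : pol Q u b = 0) (hab : pol Q a b = 0) (hi1 : a ∉ Submodule.span F {b, u})
    (hi2 : b ∉ Submodule.span F {a, u}) {S : Finset (ι → F)} (hS : S ∈ Sf hQ act ψ v v') (huS : u ∈ S) :
    S.image (eE Q a (u + b)) = S := by
  set W := WW hQ v v' with hW
  have hpc : ∀ {a b : ι → F}, pol Q u a = 0 → pol Q a b = 0 → pol Q a (u + b) = 0 := by
    intro a b h1 h2
    rw [pol_add_right hQ, pol_symm hQ a u, h1, h2, add_zero]
  have hmem : ∀ {a b : ι → F}, a ∈ W → b ∈ W → Q a = 0 → pol Q u a = 0 → pol Q u b = 0 → pol Q a b = 0 →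
      rr hQ a (u + b) ∈ LL Q v v' u := by
    intro a b h1 h2 h3 h4 h5 h6
    refine C.rr_LL h1 (W.add_mem hu h2) h3 (hpc h4 h6) h4 ?_
    rw [pol_add_right hQ, pol_self2 hQ hF, h5, add_zero]
  let G : Set ↥(LL Q v v' u) := {g | ∃ a b, a ∈ W ∧ b ∈ W ∧ Q a = 0 ∧ Q b = 0 ∧ pol Q u a = 0 ∧ pol Q u b = 0 ∧ pol Q a b = 0 ∧
    a ∉ Submodule.span F {b, u} ∧ b ∉ Submodule.span F {a, u} ∧ g.1 = rr hQ a (u + b)}
  have hmain := gens_trivial (L := ↥(LL Q v v' u)) (by rw [C.card_members]; exact haa) (C.Phi u) G ?_ ⟨_, hmem ha hb hQa hua hub hab⟩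
    ⟨a, b, ha, hb, hQa, hQb, hua, hub, hab, hi1, hi2, rfl⟩
  · exact C.eE_image_of_Phi hQa (hpc hua hab) hmain hS huS
  · rintro g ⟨a, b, ha, hb, hQa, hQb, hua, hub, hab, hi1, hi2, hg⟩
    have hsnot : b ∉ Submodule.span F {u, a} := by
      intro hm
      apply hi2
      rw [Set.pair_comm]
      exact hm
    obtain ⟨f, hf, huf, haf, hbf⟩ := C.Nd.exists_sep2 hQ hb hu ha hsnot
    obtain ⟨t, ht⟩ := exists_shift hQ hF hQu huf
    set d := f + t • u with hd
    have hdW : d ∈ W := W.add_mem hf (W.smul_mem _ hu)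
    have hud : pol Q u d = 0 := by
      rw [hd, pol_add_right hQ, huf, pol_smul_right hQ, pol_self2 hQ hF]
      ring
    have had : pol Q a d = 0 := by
      rw [hd, pol_add_right hQ, haf, pol_smul_right hQ, pol_symm hQ a u, hua]
      ring
    have hbd : pol Q b d = 1 := by
      apply f2_ne hF
      rw [hd, pol_add_right hQ, pol_smul_right hQ, pol_symm hQ b u, hub, mul_zero, add_zero]
      exact hbf
    have ha0 : a ≠ 0 := by
      rintro rfl
      exact hi1 (Submodule.zero_mem _)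
    have hba : pol Q b a = 0 := by rw [pol_symm hQ, hab]
    refine ⟨⟨_, hmem hb ha hQb hub hua hba⟩, ⟨b, a, hb, ha, hQb, hQa, hub, hua, hba, hi2, hi1, rfl⟩,
      ⟨_, hmem ha hdW hQa hua hud had⟩, ⟨a, d, ha, hdW, hQa, ht, hua, hud, had, ?_, ?_, rfl⟩, ?_⟩
    · intro hm
      obtain ⟨α, β, e⟩ := Submodule.mem_span_pair.mp hm
      have h1 := congrArg (pol Q b) e
      rw [pol_add_right hQ, pol_smul_right hQ, pol_smul_right hQ, hbd, pol_symm hQ b u, hub, hba] at h1
      have hα : α = 0 := by linear_combination h1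
      rw [hα, zero_smul, zero_add] at e
      have h2 : Q a = β ^ 2 * Q u := by rw [← e, hQ.smul]
      rw [hQa] at h2
      have hβ : β = 0 := by
        rcases mul_eq_zero.mp h2.symm with h | h
        · exact pow_eq_zero_iff two_ne_zero |>.mp h
        · exact absurd h hQu
      apply ha0
      rw [← e, hβ, zero_smul]
    · intro hm
      obtain ⟨α, β, e⟩ := Submodule.mem_span_pair.mp hm
      have h1 := congrArg (pol Q b) e
      rw [pol_add_right hQ, pol_smul_right hQ, pol_smul_right hQ, hbd, pol_symm hQ b u, hub, hba] at h1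
      simp at h1
    · apply Subtype.ext
      have hc := rr_commutator hQ (a := a) (b := b) (e := u + d) (f := u + a) hQa hQb (hpc hub hba) (hpc hua had)
        (hpc hua (pol_singular hQ hQa)) hab
      refine hg.trans (Eq.trans ?_ hc.symm)
      have hp1 : pol Q (u + d) (u + a) = 0 := by
        rw [pol_add_left hQ, pol_add_right hQ, pol_add_right hQ, pol_self2 hQ hF, hua, pol_symm hQ d u, hud,
          pol_symm hQ d a, had]
        ring
      have hp2 : pol Q (u + d) b = 1 := by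
        rw [pol_add_left hQ, hub, pol_symm hQ d b, hbd, zero_add]
      have hQc : Q (u + a) = 1 := by
        rw [Q_add hQ, hQa, hua, f2_ne hF hQu]
        ring
      have e1 : eE Q b (u + a) (u + d) - (u + d) = (u + b) + (1 : F) • a := by
        unfold eE
        rw [hp1, hp2, hQc]
        linear_combination (norm := module) (-1 : F) • f2_v hF (u + b + a)
      rw [e1, rr_add hQ hQa (hpc hua hab) (by rw [pol_smul_right hQ, pol_singular hQ hQa, mul_zero]), rr_self hQ hQa, mul_one]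

/-- **Trichotomy for the field with two elements.** -/
theorem tri2 (hF : Fintype.card F = 2) {N : ℕ} (hN : Fintype.card X < N) (hdim : 6 ≤ Module.finrank F (WW hQ v v'))
    (hCl : ∀ u ∈ WW hQ v v', Q u ≠ 0 → N ≤ 5 * (Cl hQ v v' u).card)
    {S : Finset (ι → F)} (hS : S ∈ Sf hQ act ψ v v') :
    (∀ x ∈ WW hQ v v', x ∈ S) ∨ Line S ∨ Ts Q S := by
  by_cases hsing : ∀ x ∈ S, Q x = 0
  · by_cases hl : Line S
    · exact Or.inr (Or.inl hl)
    · exact Or.inr (Or.inr ⟨hsing, hl⟩)
  · push Not at hsing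
    obtain ⟨u, huS, hQu⟩ := hsing
    have hmem : ∀ x, x ∈ C.toAdd hS ↔ x ∈ S := fun x => Iff.rfl
    have key := caseA2 hQ hF C.Nd (C.toAdd hS) (fun x hx => C.Sf_sub hS ((hmem x).mp hx)) ?_ hdim
      (u := u) ((hmem u).mpr huS) hQu
    · rcases key with h1 | h1
      · exact Or.inr (Or.inl ⟨u, fun x hx => h1 x ((hmem x).mpr hx)⟩)
      · exact Or.inl (fun x hx => (hmem x).mp (h1 x hx))
    · intro u₁ hu₁ hQu₁ a b ha hb hQa hQb hua hub hab hi1 hi2 y hy
      have hu₁S := (hmem u₁).mp hu₁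
      have hu₁0 : u₁ ≠ 0 := by
        rintro rfl
        exact hQu₁ (Q_zero hQ)
      have hu₁W := C.Sf_sub hS hu₁S
      have haa : aa (Sf hQ act ψ v v') u₁ ≤ 4 := by
        have h1 := C.aa_mul_Cl_le_card (Finset.Subset.refl _) C.Sf_inv hu₁W hu₁0
        have h2 := hCl u₁ hu₁W hQu₁
        by_contra hc
        push Not at hc
        have h3 : 5 * (Cl hQ v v' u₁).card ≤ aa (Sf hQ act ψ v v') u₁ * (Cl hQ v v' u₁).card :=
          Nat.mul_le_mul_right _ hc
        omega
      have h1 := C.eE_stable2 hF hu₁W hQu₁ haa ha hb hQa hQb hua hub hab hi1 hi2 hS hu₁S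
      rw [hmem] at hy ⊢
      rw [← h1]
      exact Finset.mem_image_of_mem _ hy

end Ctx

end Cfsg.Agent.Lib.MinOmega
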