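/-
The regular world for small fields: reduction to the non-existence of a regular action.
-/
import Cfsg.Agent.Lib.MinOmega.Small2
set_option autoImplicit false

namespace Cfsg.Agent.Lib.MinOmega

open Cfsg Cfsg.Geo Cfsg.Agent.Lib.Geo.Basic Cfsg.Agent.Lib.Geo.QForm Cfsg.Agent.Lib.GeoOmega.Basic
open Cfsg.Agent.Lib.GeoOmega.Eichler
open scoped MatrixGroups Matrix
open scoped _root_.Classical

variable {ι : Type} [Fintype ι] [DecidableEq ι] {F : Type*} [Field F] [Fintype F] {Q : (ι → F) → F}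

/-- Numerical data for the core argument over small fields. -/
structure Num2 (hQ : IsNondegenerateQuadraticForm Q) (D Pw N₀ Ns : ℕ) : Prop where
  hn : 7 ≤ Fintype.card ι
  hD : ∀ a a' : ι → F, Hyp Q a a' → (WF (WW hQ a a')).card = Fintype.card F ^ D
  hs : ∀ a a' : ι → F, Hyp Q a a' → (Sg Q (WW hQ a a')).card = (Fintype.card F - 1) * Pw
  hsV : (Sg Q (⊤ : Submodule F (ι → F))).card = (Fintype.card F - 1) * N₀
  hN₀ : N₀ = 1 + Fintype.card F ^ D + Fintype.card F * Pw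
  hNs : Ns ≤ N₀
  h2 : Ns ≤ 2 * Fintype.card F ^ D
  hCl : ∀ a a' : ι → F, Hyp Q a a' → ∀ u ∈ WW hQ a a', Q u ≠ 0 →
    (Fintype.card F - 1) * (Ns - 1 - Fintype.card F ^ D) < Fintype.card F * (Cl hQ a a' u).card
  hPw : ∃ k, Pw = 1 + Fintype.card F * k
  hD2 : 2 ≤ D

variable {hQ : IsNondegenerateQuadraticForm Q} {X : Type*} [Fintype X] {act : ↥(omegaGL Q) →* Equiv.Perm X}
  {ψ : AddChar F ℂ}

namespace Ctx

variable {v v' : ι → F} (C : Ctx hQ act ψ v v')

include C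

/-- Only two members in the regular world. -/
theorem reg_two2 {D Pw N₀ Ns : ℕ} (N : Num2 hQ D Pw N₀ Ns) (hN : Fintype.card X < Ns)
    (htr : ∀ x y : X, ∃ g ∈ omegaGL Q, AA act g x = y)
    (hLW : ∀ S ∈ Sf hQ act ψ v v', S = WF (WW hQ v v') ∨ Line S)
    (hreg : ∃ x, RegAt hQ act v x) {S : Finset (ι → F)} (hS : S ∈ Sf hQ act ψ v v') :
    S = WF (WW hQ v v') ∨ S = {0} := by
  obtain ⟨x₀, hx₀⟩ := hreg
  set W := WW hQ v v' with hW
  have hWF : WF W ∈ Sf hQ act ψ v v' := by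
    rw [← C.WF_of_reg hx₀]
    exact Finset.mem_image_of_mem _ (Finset.mem_univ _)
  have hq : 2 ≤ Fintype.card F := Fintype.one_lt_card
  have hD := N.hD v v' C.h
  have hXs : (Xs hQ act ψ v v' (WF W)).card = Fintype.card F ^ D := by
    rcases C.Xs_dich' hWF with h | h
    · rw [h, hD]
    · exfalso
      have h1 : (Xs hQ act ψ v v' (WF W)).card ≤ Fintype.card X := Finset.card_le_univ _
      have h2 := N.h2
      rw [hD] at h
      omega
  set 𝓞 := (Sf hQ act ψ v v').erase (WF W) with h𝓞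
  have hsub : 𝓞 ⊆ Sf hQ act ψ v v' := Finset.erase_subset _ _
  have hinv : Inv Q v v' 𝓞 := by
    intro T hT S hS
    rw [h𝓞, Finset.mem_erase] at hS ⊢
    refine ⟨?_, C.Adm_Sf hT hS.2⟩
    intro he
    apply hS.1
    obtain ⟨T', hT', h1, -⟩ := hT.inv
    have h2 : (S.image T).image T' = S := by
      rw [Finset.image_image]
      have : T' ∘ T = id := funext h1
      rw [this, Finset.image_id]
    rw [← h2, he]
    exact C.image_WF hT'
  have hsum : Fintype.card F ^ D + ∑ S ∈ 𝓞, (Xs hQ act ψ v v' S).card = Fintype.card X := by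
    rw [← C.sum_Xs_eq, ← Finset.add_sum_erase _ _ hWF, hXs]
  by_contra hcon
  push Not at hcon
  have hS𝓞 : S ∈ 𝓞 := Finset.mem_erase.mpr ⟨hcon.1, hS⟩
  obtain ⟨u, hu, hu0⟩ : ∃ u ∈ S, u ≠ 0 := by
    by_contra hc
    push Not at hc
    apply hcon.2
    ext y
    rw [Finset.mem_singleton]
    exact ⟨hc y, fun h => h ▸ C.Sf_zero hS⟩
  have huW := C.Sf_sub hS hu
  have h1 := C.aa_mul_Cl_le hsub hinv huW hu0
  have haa : 1 ≤ aa 𝓞 u := Finset.card_pos.mpr ⟨S, Finset.mem_filter.mpr ⟨hS𝓞, hu⟩⟩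
  have h2 : (Cl hQ v v' u).card ≤ ∑ S ∈ 𝓞, (S.card - 1) := (Nat.le_mul_of_pos_left _ haa).trans h1
  set 𝓟 := 𝓞.filter fun S => S ≠ {0} with h𝓟
  have hsumP : ∑ S ∈ 𝓟, (S.card - 1) = ∑ S ∈ 𝓞, (S.card - 1) := by
    rw [h𝓟]
    apply Finset.sum_filter_of_ne
    intro S _ hne h0
    exact hne (by simp [h0])
  have hcardle : ∀ S ∈ 𝓟, S.card ≤ Fintype.card F := by
    intro S hS
    rw [h𝓟, Finset.mem_filter, h𝓞, Finset.mem_erase] at hS
    rcases hLW S hS.1.2 with h | h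
    · exact absurd h hS.1.1
    · exact h.card_le
  have hpt : ∀ S ∈ 𝓟, Fintype.card F * (S.card - 1) ≤ (Fintype.card F - 1) * (Xs hQ act ψ v v' S).card := by
    intro S hS
    have h3 := hcardle S hS
    have h4 : 1 ≤ S.card := Finset.card_pos.mpr ⟨0, C.Sf_zero (hsub (Finset.mem_filter.mp hS).1)⟩
    have h5 := C.card_le_Xs' (hsub (Finset.mem_filter.mp hS).1)
    refine le_trans ?_ (Nat.mul_le_mul_left _ h5)
    obtain ⟨q, hq'⟩ : ∃ q, Fintype.card F = q + 1 := ⟨Fintype.card F - 1, by omega⟩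
    obtain ⟨s, hs⟩ : ∃ s, S.card = s + 1 := ⟨S.card - 1, by omega⟩
    rw [hq', hs]
    simp only [Nat.add_sub_cancel]
    rw [hq', hs] at h3
    nlinarith
  have hP4 : ∑ S ∈ 𝓟, (Xs hQ act ψ v v' S).card ≤ ∑ S ∈ 𝓞, (Xs hQ act ψ v v' S).card :=
    Finset.sum_le_sum_of_subset (Finset.filter_subset _ _)
  have hmain : Fintype.card F * (Cl hQ v v' u).card ≤ (Fintype.card F - 1) * (Fintype.card X - Fintype.card F ^ D) := by
    calc Fintype.card F * (Cl hQ v v' u).card ≤ Fintype.card F * ∑ S ∈ 𝓞, (S.card - 1) := Nat.mul_le_mul_left _ h2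
      _ = Fintype.card F * ∑ S ∈ 𝓟, (S.card - 1) := by rw [hsumP]
      _ = ∑ S ∈ 𝓟, Fintype.card F * (S.card - 1) := by rw [Finset.mul_sum]
      _ ≤ ∑ S ∈ 𝓟, (Fintype.card F - 1) * (Xs hQ act ψ v v' S).card := Finset.sum_le_sum hpt
      _ = (Fintype.card F - 1) * ∑ S ∈ 𝓟, (Xs hQ act ψ v v' S).card := by rw [Finset.mul_sum]
      _ ≤ (Fintype.card F - 1) * (Fintype.card X - Fintype.card F ^ D) := by
        apply Nat.mul_le_mul_left
        omega
  by_cases hQu : Q u = 0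
  · -- singular
    have hCl := C.Cl_singular hQu
    rw [hCl, N.hs v v' C.h] at hmain
    have hq1 : 0 < Fintype.card F - 1 := by omega
    have h6 : Fintype.card F * Pw ≤ Fintype.card X - Fintype.card F ^ D := by
      apply Nat.le_of_mul_le_mul_left _ hq1
      calc (Fintype.card F - 1) * (Fintype.card F * Pw) = Fintype.card F * ((Fintype.card F - 1) * Pw) := by ring
        _ ≤ _ := hmain
    have hNs := N.hNs
    have hN₀ := N.hN₀
    have hX : Fintype.card X = Fintype.card F ^ D + Fintype.card F * Pw := by omega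
    have hv0 : v ≠ 0 := by
      rintro h0
      have := C.h.hab
      rw [h0, pol_zero_left hQ] at this
      exact zero_ne_one this
    obtain ⟨α, hα⟩ := double_count (hQ := hQ) (act := act) C.hn htr (RegAt hQ act)
      (fun g hg v x hv => RegAt_move C.hn hg hv x) (fun t ht v x hv => RegAt_smul ht hv x) hv0 C.h.ha x₀
    have e : (Finset.univ.filter fun x => RegAt hQ act v x) = Xs hQ act ψ v v' (WF W) := by
      ext x
      simp only [Xs, Finset.mem_filter, Finset.mem_univ, true_and]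
      exact ⟨C.WF_of_reg, C.reg_of_WF⟩
    rw [e, hXs, N.hsV, hX] at hα
    obtain ⟨k, hk⟩ := N.hPw
    have h5 : (Fintype.card F ^ D + Fintype.card F * Pw) * α =
        (1 + (Fintype.card F ^ D + Fintype.card F * Pw)) * Fintype.card F ^ D := by
      apply Nat.eq_of_mul_eq_mul_left (show 0 < Fintype.card F - 1 by omega)
      rw [hN₀] at hα
      rw [show (1 + (Fintype.card F ^ D + Fintype.card F * Pw)) = 1 + Fintype.card F ^ D + Fintype.card F * Pw by ring]
      calc (Fintype.card F - 1) * ((Fintype.card F ^ D + Fintype.card F * Pw) * α)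
          = (Fintype.card F ^ D + Fintype.card F * Pw) * ((Fintype.card F - 1) * α) := by ring
        _ = _ := by rw [hα]; ring
    exact nat_reg hq N.hD2 hk h5
  · -- non-singular
    have h3 := N.hCl v v' C.h u huW hQu
    have h4 : (Fintype.card F - 1) * (Fintype.card X - Fintype.card F ^ D) ≤
        (Fintype.card F - 1) * (Ns - 1 - Fintype.card F ^ D) := by
      apply Nat.mul_le_mul_left
      omega
    omega

end Ctx

/-- The regular world reduces to a purely regular action. -/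
theorem reg_all {D Pw N₀ Ns : ℕ} (N : Num2 hQ D Pw N₀ Ns) (hψ : ∀ c : F, c ≠ 0 → ∃ t : F, ψ (t * c) ≠ 1)
    (hN : Fintype.card X < Ns) (htr : ∀ x y : X, ∃ g ∈ omegaGL Q, AA act g x = y)
    (hLW : ∀ a a' : ι → F, Hyp Q a a' → ∀ S ∈ Sf hQ act ψ a a', S = WF (WW hQ a a') ∨ Line S)
    {v v' : ι → F} (hvv' : Hyp Q v v') {x₀ : X} (hx₀ : RegAt hQ act v x₀) :
    ∀ a : ι → F, a ≠ 0 → Q a = 0 → ∀ x, RegAt hQ act a x := by
  have hn := N.hn
  have hpart : ∀ a : ι → F, a ≠ 0 → Q a = 0 → ∃ a', Hyp Q a a' := by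
    intro a ha0 hQa
    obtain ⟨a', -, h⟩ := (Nd_top hQ).exists_partner hQ (a := a) trivial ha0 hQa
    exact ⟨a', h⟩
  have hne : ∀ {a a' : ι → F}, Hyp Q a a' → a ≠ 0 := by
    rintro a a' h rfl
    have := h.hab
    rw [pol_zero_left hQ] at this
    exact zero_ne_one this
  have hregAll : ∀ a : ι → F, a ≠ 0 → Q a = 0 → ∃ x, RegAt hQ act a x := by
    intro a ha0 hQa
    obtain ⟨g, hg, hga⟩ := exists_omega_move hQ hn (hne hvv') ha0 (by rw [hvv'.ha, hQa])
    refine ⟨AA act g x₀, ?_⟩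
    rw [← hga]
    exact (RegAt_move hn hg hvv'.ha x₀).mpr hx₀
  have hdich : ∀ a : ι → F, a ≠ 0 → Q a = 0 → ∀ x, RegAt hQ act a x ∨ FixAt hQ act a x := by
    intro a ha0 hQa x
    obtain ⟨a', h⟩ := hpart a ha0 hQa
    have C : Ctx hQ act ψ a a' := ⟨hn, hψ, h⟩
    rcases C.reg_two2 N hN htr (hLW a a' h) (hregAll a ha0 hQa) (Finset.mem_image_of_mem _ (Finset.mem_univ x)) with h1 | h1
    · exact Or.inl (C.reg_of_WF h1)
    · exact Or.inr ((C.Ss_zero_iff x).mp h1)
  have hW5 : ∀ {a a' : ι → F}, Hyp Q a a' → 5 ≤ Module.finrank F (WW hQ a a') := by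
    intro a a' _
    have := finrank_WW hQ a a'
    omega
  -- no fixed centres
  have hnofix : ∀ c : ι → F, c ≠ 0 → Q c = 0 → ∀ x, ¬ FixAt hQ act c x := by
    intro c hc0 hQc x hF
    obtain ⟨c', hcc'⟩ := hpart c hc0 hQc
    obtain ⟨c₁, hc₁, hc₁0, hQc₁⟩ := exists_singular hQ (WW hQ c c') (by have := hW5 hcc'; omega)
    have hc₁W := (mem_WW hQ).mp hc₁
    have hF1 : FixAt hQ act c₁ x := by
      refine fix_spread hQc hQc₁ (by rw [pol_symm hQ]; exact hc₁W.1) ?_ (hdich c₁ hc₁0 hQc₁ x) hF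
      intro hm
      obtain ⟨t, rfl⟩ := Submodule.mem_span_singleton.mp hm
      have h1 := hcc'.hab
      rw [pol_smul_left hQ, pol_symm hQ c₁ c', hc₁W.2, mul_zero] at h1
      exact zero_ne_one h1
    have hc'0 : c' ≠ 0 := by
      rintro rfl
      have := hcc'.hab
      rw [pol_zero_right hQ] at this
      exact zero_ne_one this
    have hF2 : FixAt hQ act c' x := by
      refine fix_spread hQc₁ hcc'.hb (by exact hc₁W.2) ?_ (hdich c' hc'0 hcc'.hb x) hF1
      intro hm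
      obtain ⟨t, rfl⟩ := Submodule.mem_span_singleton.mp hm
      have h1 := hc₁W.1
      rw [pol_smul_right hQ, hcc'.hab, mul_one] at h1
      apply hc₁0
      rw [h1, zero_smul]
    have hall : ∀ g ∈ omegaGL Q, AA act g x = x := fun g hg => fix_all (hQ := hQ) hcc' hn hF hF2 hg
    -- then `x₀ = x`
    obtain ⟨g, hg, hgx⟩ := htr x x₀
    rw [hall g hg] at hgx
    subst hgx
    obtain ⟨b, hb, hb0, -⟩ := exists_singular hQ (WW hQ v v') (by have := hW5 hvv'; omega)
    have hbW := (mem_WW hQ).mp hb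
    have h1 := hx₀ b hbW.1 (hall _ (rr_mem hQ hn hvv'.ha hbW.1))
    obtain ⟨t, rfl⟩ := Submodule.mem_span_singleton.mp h1
    have h2 := hbW.2
    rw [pol_smul_right hQ, pol_symm hQ v' v, hvv'.hab, mul_one] at h2
    apply hb0
    rw [h2, zero_smul]
  intro a ha0 hQa x
  rcases hdich a ha0 hQa x with h | h
  · exact h
  · exact absurd h (hnofix a ha0 hQa x)

/-- **Core theorem for small fields**. -/
theorem core2 {D Pw N₀ Ns : ℕ} (N : Num2 hQ D Pw N₀ Ns) (hψ : ∀ c : F, c ≠ 0 → ∃ t : F, ψ (t * c) ≠ 1)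
    (hN : Fintype.card X < Ns) (htr : ∀ x y : X, ∃ g ∈ omegaGL Q, AA act g x = y)
    (hLW : ∀ a a' : ι → F, Hyp Q a a' → ∀ S ∈ Sf hQ act ψ a a', S = WF (WW hQ a a') ∨ Line S)
    (hno : ¬ ∀ a : ι → F, a ≠ 0 → Q a = 0 → ∀ x, RegAt hQ act a x)
    {v v' : ι → F} (hvv' : Hyp Q v v') (x : X) {g : GL ι F} (hg : g ∈ omegaGL Q) : AA act g x = x := by
  have hn := N.hn
  refine line_world (hQ := hQ) (ψ := ψ) hn hψ ?_ hvv' x hg
  intro a a' haa' S hS
  rcases hLW a a' haa' S hS with h | h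
  · exfalso
    have C : Ctx hQ act ψ a a' := ⟨hn, hψ, haa'⟩
    obtain ⟨y, -, hy⟩ := Finset.mem_image.mp hS
    have hreg := C.reg_of_WF (x := y) (by rw [hy, h])
    exact hno (reg_all N hψ hN htr hLW haa' hreg)
  · exact h

end Cfsg.Agent.Lib.MinOmega
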