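/-
A regular action on a single orbit of an Eichler group does not exist: a cocycle argument.
-/
import Cfsg.Agent.Lib.MinOmega.Core2
set_option autoImplicit false

namespace Cfsg.Agent.Lib.MinOmega

open Cfsg Cfsg.Geo Cfsg.Agent.Lib.Geo.Basic Cfsg.Agent.Lib.Geo.QForm Cfsg.Agent.Lib.GeoOmega.Basic
open Cfsg.Agent.Lib.GeoOmega.Eichler
open scoped MatrixGroups Matrix
open scoped _root_.Classical

variable {ι : Type} [Fintype ι] [DecidableEq ι] {F : Type*} [Field F] [Fintype F] {Q : (ι → F) → F}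

/-- Elements of `Ω` fixing the hyperbolic pair. -/
def Levi (Q : (ι → F) → F) (v v' : ι → F) (g : GL ι F) : Prop :=
  g ∈ omegaGL Q ∧ (g : Matrix ι ι F) *ᵥ v = v ∧ (g : Matrix ι ι F) *ᵥ v' = v'

section vecs

variable (hQ : IsNondegenerateQuadraticForm Q)
include hQ

theorem levi_W {v v' b : ι → F} {g : GL ι F} (hg : Levi Q v v' g) (hb : b ∈ WW hQ v v') :
    (g : Matrix ι ι F) *ᵥ b ∈ WW hQ v v' :=
  g_mem_WW (μ := 1) hg.1 one_ne_zero (by rw [hg.2.1, one_smul]) (by rw [hg.2.2, inv_one, one_smul]) hb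

theorem rr_levi (hn : 7 ≤ Fintype.card ι) {v v' b f : ι → F} (hb : b ∈ WW hQ v v') (hf : f ∈ WW hQ v v') (hQb : Q b = 0)
    (hbf : pol Q b f = 0) : Levi Q v v' (rr hQ b f) := by
  have h1 := (mem_WW hQ).mp hb
  have h2 := (mem_WW hQ).mp hf
  refine ⟨rr_mem hQ hn hQb hbf, ?_, ?_⟩
  · rw [rr_mulVec hQ hQb hbf]
    exact eE_fix h1.1 h2.1
  · rw [rr_mulVec hQ hQb hbf]
    exact eE_fix h1.2 h2.2

theorem comm_of_fix {z : GL ι F} (hz : z ∈ isometryGroup F Q) {a c : ι → F} (hQa : Q a = 0) (hac : pol Q a c = 0)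
    (h1 : (z : Matrix ι ι F) *ᵥ a = a) (h2 : (z : Matrix ι ι F) *ᵥ c = c) : z * rr hQ a c = rr hQ a c * z := by
  have h := rr_conj hQ hz hQa hac
  rw [h1, h2] at h
  exact mul_inv_eq_iff_eq_mul.mp h

/-- The product identity. -/
theorem rr_v_mul {v a c : ι → F} (hv : Q v = 0) (ha : Q a = 0) (hac : pol Q a c = 0) (hva : pol Q v a = 0)
    (hvc : pol Q v c = 0) (α β : F) :
    rr hQ v (α • a + β • c) * rr hQ a c = rr hQ (a + β • v) (c + (Q c * β - α) • v) := by
  have h1 : pol Q v (α • a + β • c) = 0 := by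
    rw [pol_add_right hQ, pol_smul_right hQ, pol_smul_right hQ, hva, hvc]
    ring
  have hQp : Q (a + β • v) = 0 := by
    rw [Q_add hQ, hQ.smul, ha, hv, pol_smul_right hQ, pol_symm hQ a v, hva]
    ring
  have hpf : pol Q (a + β • v) (c + (Q c * β - α) • v) = 0 := by
    simp only [pol_add_left hQ, pol_add_right hQ, pol_smul_left hQ, pol_smul_right hQ, hac, pol_symm hQ a v, hva, hvc,
      pol_singular hQ hv]
    ring
  apply gl_ext_mulVec
  intro x
  rw [Units.val_mul, ← Matrix.mulVec_mulVec, rr_mulVec hQ ha hac, rr_mulVec hQ hv h1, rr_mulVec hQ hQp hpf]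
  have e1 : Q (α • a + β • c) = β ^ 2 * Q c := by
    rw [Q_add hQ, hQ.smul, hQ.smul, ha, pol_smul_left hQ, pol_smul_right hQ, hac]
    ring
  have e2 : Q (c + (Q c * β - α) • v) = Q c := by
    rw [Q_add hQ, hQ.smul, hv, pol_smul_right hQ, pol_symm hQ c v, hvc]
    ring
  set y := eE Q a c x with hy
  have y_pol : ∀ z, pol Q y z = pol Q x z + pol Q x c * pol Q a z - pol Q x a * pol Q c z - (Q c * pol Q x a) * pol Q a z := by
    intro z
    rw [hy]
    unfold eE
    rw [pol_sub_left hQ, pol_sub_left hQ, pol_add_left hQ, pol_smul_left hQ, pol_smul_left hQ, pol_smul_left hQ]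
  have ya : pol Q y a = pol Q x a := by
    rw [y_pol, pol_singular hQ ha, pol_symm hQ c a, hac]
    ring
  have yc : pol Q y c = pol Q x c - pol Q x a * (2 * Q c) := by
    rw [y_pol, hac, pol_self hQ]
    ring
  have yv : pol Q y v = pol Q x v := by
    rw [y_pol, pol_symm hQ a v, hva, pol_symm hQ c v, hvc]
    ring
  unfold eE at hy ⊢
  rw [e1, e2, yv, pol_add_right hQ, pol_smul_right hQ, pol_smul_right hQ, ya, yc, pol_add_right hQ, pol_smul_right hQ,
    pol_add_right hQ, pol_smul_right hQ, hy]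
  module

end vecs

namespace Ctx

variable {hQ : IsNondegenerateQuadraticForm Q} {X : Type*} [Fintype X] {act : ↥(omegaGL Q) →* Equiv.Perm X}
  {ψ : AddChar F ℂ} {v v' : ι → F} (C : Ctx hQ act ψ v v')

include C

theorem AA_levi {g : GL ι F} (hg : Levi Q v v' g) {b : ι → F} (hb : b ∈ WW hQ v v') (x : X) :
    AA act g (AA act (rr hQ v b) x) = AA act (rr hQ v ((g : Matrix ι ι F) *ᵥ b)) (AA act g x) := by
  have := AA_conj (act := act) (hQ := hQ) C.h C.hn hg.1 one_ne_zero (by rw [hg.2.1, one_smul]) (by rw [hg.2.2, inv_one, one_smul]) hb x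
  rwa [one_smul] at this

/-- Injectivity of the orbit map in the regular world. -/
theorem rho_inj (hR : ∀ x, RegAt hQ act v x) (x₀ : X) {A B : ι → F} (hA : A ∈ WW hQ v v') (hB : B ∈ WW hQ v v')
    (h : AA act (rr hQ v A) x₀ = AA act (rr hQ v B) x₀) : A = B := by
  have hAB : A - B ∈ WW hQ v v' := Submodule.sub_mem _ hA hB
  have h1 : AA act (rr hQ v (A - B)) (AA act (rr hQ v B) x₀) = AA act (rr hQ v B) x₀ := by
    rw [← AA_rr_add C.h C.hn hAB hB, sub_add_cancel, h]
  have h2 := hR _ (A - B) ((mem_WW hQ).mp hAB).1 h1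
  obtain ⟨t, ht⟩ := Submodule.mem_span_singleton.mp h2
  have h3 := ((mem_WW hQ).mp hAB).2
  rw [← ht, pol_smul_right hQ, pol_symm hQ v' v, C.h.hab, mul_one] at h3
  rw [h3, zero_smul] at ht
  exact sub_eq_zero.mp ht.symm

/-- **The cocycle relation.** -/
theorem coc (hR : ∀ x, RegAt hQ act v x) (x₀ : X) {g h : GL ι F} (hg : Levi Q v v' g) (hh : Levi Q v v' h)
    (hgh : g * h = h * g) {cg ch : ι → F} (hcg : cg ∈ WW hQ v v') (hch : ch ∈ WW hQ v v')
    (h1 : AA act g x₀ = AA act (rr hQ v cg) x₀) (h2 : AA act h x₀ = AA act (rr hQ v ch) x₀) :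
    (h : Matrix ι ι F) *ᵥ cg - cg = (g : Matrix ι ι F) *ᵥ ch - ch := by
  have hm1 := levi_W hQ hg hch
  have hm2 := levi_W hQ hh hcg
  have e1 : AA act g (AA act h x₀) = AA act (rr hQ v ((g : Matrix ι ι F) *ᵥ ch + cg)) x₀ := by
    rw [h2, C.AA_levi hg hch, h1, AA_rr_add C.h C.hn hm1 hcg]
  have e2 : AA act h (AA act g x₀) = AA act (rr hQ v ((h : Matrix ι ι F) *ᵥ cg + ch)) x₀ := by
    rw [h1, C.AA_levi hh hcg, h2, AA_rr_add C.h C.hn hm2 hch]
  have e3 : AA act g (AA act h x₀) = AA act h (AA act g x₀) := by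
    have := congrArg (AA act) hgh
    rw [AA_mul act hg.1 hh.1, AA_mul act hh.1 hg.1] at this
    exact DFunLike.congr_fun this x₀
  rw [e1, e2] at e3
  have h3 := C.rho_inj hR x₀ (Submodule.add_mem _ hm1 hcg) (Submodule.add_mem _ hm2 hch) e3
  have e4 : (h : Matrix ι ι F) *ᵥ cg - cg = ((h : Matrix ι ι F) *ᵥ cg + ch) - cg - ch := by abel
  rw [e4, ← h3]
  abel

/-- The Eichler group acts transitively in the regular world. -/
theorem Q_trans (hR : ∀ x, RegAt hQ act v x) (hcard : Fintype.card X < 2 * (WF (WW hQ v v')).card) (x₀ y : X) :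
    ∃ b ∈ WW hQ v v', AA act (rr hQ v b) x₀ = y := by
  have hWF : WF (WW hQ v v') ∈ Sf hQ act ψ v v' := by
    rw [← C.WF_of_reg (hR x₀)]
    exact Finset.mem_image_of_mem _ (Finset.mem_univ _)
  have hXuniv : Xs hQ act ψ v v' (WF (WW hQ v v')) = Finset.univ := by
    ext x
    simp only [Xs, Finset.mem_filter, Finset.mem_univ, true_and, iff_true]
    exact C.WF_of_reg (hR x)
  have hXcard : (Xs hQ act ψ v v' (WF (WW hQ v v'))).card = (WF (WW hQ v v')).card := by
    rcases C.Xs_dich' hWF with h | h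
    · exact h
    · exfalso
      have h1 : (Xs hQ act ψ v v' (WF (WW hQ v v'))).card ≤ Fintype.card X := Finset.card_le_univ _
      omega
  have h1 := C.Xs_eq_Orb hXcard (x := x₀) (by rw [hXuniv]; exact Finset.mem_univ _)
  rw [hXuniv] at h1
  have h2 : y ∈ Orb hQ act v v' x₀ := by rw [← h1]; exact Finset.mem_univ _
  obtain ⟨b, hb, rfl⟩ := Finset.mem_image.mp h2
  exact ⟨b, mem_WF.mp hb, rfl⟩

/-- **The reduction**: it suffices to force the cocycle into the plane of the centre and the parameter. -/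
theorem no_reg_of_force (hR : ∀ a : ι → F, a ≠ 0 → Q a = 0 → ∀ x, RegAt hQ act a x)
    (hcard : Fintype.card X < 2 * (WF (WW hQ v v')).card) (x₀ : X) {a c : ι → F} (ha : a ∈ WW hQ v v')
    (hc : c ∈ WW hQ v v') (ha0 : a ≠ 0) (hQa : Q a = 0) (hac : pol Q a c = 0) (hca : c ∉ Submodule.span F {a})
    (hforce : ∀ d ∈ WW hQ v v', ((2 : F) = 0 → eE Q a c d = d) → (∀ h, Levi Q v v' h → h * rr hQ a c = rr hQ a c * h →
      (h : Matrix ι ι F) *ᵥ d - d ∈ Submodule.span F {a, c}) → d ∈ Submodule.span F {a, c}) : False := by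
  have hv0 : v ≠ 0 := by
    rintro h0
    have := C.h.hab
    rw [h0, pol_zero_left hQ] at this
    exact zero_ne_one this
  have hRv := hR v hv0 C.h.ha
  have htr := C.Q_trans hRv hcard x₀
  have hgL := rr_levi hQ C.hn ha hc hQa hac
  obtain ⟨d, hd, hAd⟩ := htr (AA act (rr hQ a c) x₀)
  have hspan := hforce d hd ?_ ?_
  · have hnd : -d ∈ Submodule.span F {a, c} := Submodule.neg_mem _ hspan
    obtain ⟨α, β, e⟩ := Submodule.mem_span_pair.mp hnd
    have hndW : -d ∈ WW hQ v v' := Submodule.neg_mem _ hd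
    have ha1 := (mem_WW hQ).mp ha
    have hc1 := (mem_WW hQ).mp hc
    have hid := rr_v_mul hQ C.h.ha hQa hac ha1.1 hc1.1 α β
    rw [e] at hid
    have hfix : AA act (rr hQ (a + β • v) (c + (Q c * β - α) • v)) x₀ = x₀ := by
      rw [← hid, AA_mul act (rr_v_mem C.h C.hn hndW) hgL.1]
      change AA act (rr hQ v (-d)) (AA act (rr hQ a c) x₀) = x₀
      rw [← hAd]
      exact AA_rr_neg C.h C.hn hd _ _ rfl
    have hQp : Q (a + β • v) = 0 := by
      rw [Q_add hQ, hQ.smul, hQa, C.h.ha, pol_smul_right hQ, pol_symm hQ a v, ha1.1]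
      ring
    have hpf : pol Q (a + β • v) (c + (Q c * β - α) • v) = 0 := by
      simp only [pol_add_left hQ, pol_add_right hQ, pol_smul_left hQ, pol_smul_right hQ, hac, pol_symm hQ a v, ha1.1, hc1.1,
        pol_singular hQ C.h.ha]
      ring
    have hp0 : a + β • v ≠ 0 := by
      intro h0
      have h1 := congrArg (pol Q v') h0
      rw [pol_add_right hQ, ha1.2, pol_smul_right hQ, pol_symm hQ v' v, C.h.hab, pol_zero_right hQ, zero_add, mul_one] at h1
      rw [h1, zero_smul, add_zero] at h0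
      exact ha0 h0
    have h3 := hR _ hp0 hQp x₀ _ hpf hfix
    obtain ⟨t, ht⟩ := Submodule.mem_span_singleton.mp h3
    apply hca
    have h4 := congrArg (pol Q v') ht
    rw [pol_smul_right hQ, pol_add_right hQ, pol_add_right hQ, ha1.2, hc1.2, pol_smul_right hQ, pol_smul_right hQ,
      pol_symm hQ v' v, C.h.hab] at h4
    have e5 : t * β = Q c * β - α := by linear_combination h4
    have e6 : t • a = c := by
      have h5 : t • a + (t * β) • v = c + (Q c * β - α) • v := by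
        rw [← ht]
        module
      rw [e5] at h5
      exact add_right_cancel h5
    rw [← e6]
    exact Submodule.smul_mem _ _ (Submodule.mem_span_singleton_self a)
  · intro h2
    have hm1 := levi_W hQ hgL hd
    have e1 : AA act (rr hQ a c) (AA act (rr hQ a c) x₀) = AA act (rr hQ v ((rr hQ a c : Matrix ι ι F) *ᵥ d + d)) x₀ := by
      rw [← hAd, C.AA_levi hgL hd, ← hAd, AA_rr_add C.h C.hn hm1 hd]
    have e2 : AA act (rr hQ a c) (AA act (rr hQ a c) x₀) = AA act (rr hQ v 0) x₀ := by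
      have e3 : rr hQ a c * rr hQ a c = 1 := by
        rw [← rr_add hQ hQa hac hac]
        have : c + c = (2 : F) • c := by rw [two_smul]
        rw [this, h2, zero_smul, rr_zero hQ hQa]
      have e4 := congrArg (AA act) e3
      rw [AA_mul act hgL.1 hgL.1, AA_one] at e4
      have e5 := DFunLike.congr_fun e4 x₀
      rw [rr_zero hQ C.h.ha, AA_one]
      exact e5
    rw [e1] at e2
    have h3 := C.rho_inj hRv x₀ (Submodule.add_mem _ hm1 hd) (Submodule.zero_mem _) e2
    rw [rr_mulVec hQ hQa hac] at h3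
    have e6 : eE Q a c d = -d := eq_neg_of_add_eq_zero_left h3
    rw [e6]
    have : d + d = (2 : F) • d := by rw [two_smul]
    have h4 : d + d = 0 := by rw [this, h2, zero_smul]
    exact eq_neg_of_add_eq_zero_left h4 |>.symm
  · intro h hh hcomm
    obtain ⟨ch, hch, hAch⟩ := htr (AA act h x₀)
    have h3 := C.coc hRv x₀ hgL hh hcomm.symm hd hch hAd.symm hAch.symm
    rw [h3, rr_mulVec hQ hQa hac]
    have e : eE Q a c ch - ch = (pol Q ch c - Q c * pol Q ch a) • a - pol Q ch a • c := by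
      unfold eE
      module
    rw [e]
    exact Submodule.sub_mem _ (Submodule.smul_mem _ _ (Submodule.subset_span (by simp)))
      (Submodule.smul_mem _ _ (Submodule.subset_span (by simp)))

end Ctx

section force

variable (hQ : IsNondegenerateQuadraticForm Q)

/-- The configuration for the forcing argument. -/
structure Frame (Q : (ι → F) → F) (hQ : IsNondegenerateQuadraticForm Q) (W : Submodule F (ι → F)) (a a' c c' : ι → F) : Prop where
  ha : a ∈ W
  ha' : a' ∈ W
  haa : Hyp Q a a'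
  hc : c ∈ Ort hQ (Ort hQ W a) a'
  hc' : c' ∈ Ort hQ (Ort hQ W a) a'
  hcc : Hyp Q c c'

variable {hQ} {W : Submodule F (ι → F)} {a a' c c' : ι → F}

/-- The complement. -/
noncomputable def W3 (hQ : IsNondegenerateQuadraticForm Q) (W : Submodule F (ι → F)) (a a' c c' : ι → F) : Submodule F (ι → F) :=
  Ort hQ (Ort hQ (Ort hQ (Ort hQ W a) a') c) c'

theorem mem_W3 {y : ι → F} : y ∈ W3 hQ W a a' c c' ↔ y ∈ W ∧ pol Q a y = 0 ∧ pol Q a' y = 0 ∧ pol Q c y = 0 ∧ pol Q c' y = 0 := by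
  rw [W3, mem_Ort hQ, mem_Ort hQ, mem_Ort hQ, mem_Ort hQ]
  tauto

namespace Frame

variable (Fr : Frame Q hQ W a a' c c')
include Fr

theorem cW : c ∈ W := by
  have := Fr.hc
  rw [mem_Ort hQ, mem_Ort hQ] at this
  exact this.1.1

theorem c'W : c' ∈ W := by
  have := Fr.hc'
  rw [mem_Ort hQ, mem_Ort hQ] at this
  exact this.1.1

theorem perp : pol Q a c = 0 ∧ pol Q a' c = 0 ∧ pol Q a c' = 0 ∧ pol Q a' c' = 0 := by
  have h1 := Fr.hc
  have h2 := Fr.hc'
  rw [mem_Ort hQ, mem_Ort hQ] at h1 h2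
  exact ⟨h1.1.2, h1.2, h2.1.2, h2.2⟩

theorem Nd3 (hW : Nd Q W) : Nd Q (W3 hQ W a a' c c') :=
  Nd_ort2 hQ (Nd_ort2 hQ hW Fr.ha Fr.ha' Fr.haa) Fr.hc Fr.hc' Fr.hcc

theorem a_ne : a ≠ 0 := by
  rintro rfl
  have := Fr.haa.hab
  rw [pol_zero_left hQ] at this
  exact zero_ne_one this

theorem c_not : c ∉ Submodule.span F {a} := by
  intro hm
  obtain ⟨t, rfl⟩ := Submodule.mem_span_singleton.mp hm
  have h1 := Fr.perp.2.1
  rw [pol_smul_right hQ, pol_symm hQ a' a, Fr.haa.hab, mul_one] at h1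
  have h2 := Fr.hcc.hab
  rw [h1, zero_smul, pol_zero_left hQ] at h2
  exact zero_ne_one h2

/-- Vectors of the plane are orthogonal to `W₃`. -/
theorem span_perp {y δ : ι → F} (hy : y ∈ W3 hQ W a a' c c') (hδ : δ ∈ Submodule.span F {a, c}) : pol Q y δ = 0 := by
  obtain ⟨α, β, rfl⟩ := Submodule.mem_span_pair.mp hδ
  obtain ⟨-, h1, -, h3, -⟩ := mem_W3.mp hy
  rw [pol_add_right hQ, pol_smul_right hQ, pol_smul_right hQ, pol_symm hQ y a, pol_symm hQ y c, h1, h3]
  ring

/-- The plane meets `W₃` trivially. -/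
theorem span_inter {δ : ι → F} (hδ : δ ∈ Submodule.span F {a, c}) (hy : δ ∈ W3 hQ W a a' c c') : δ = 0 := by
  obtain ⟨α, β, rfl⟩ := Submodule.mem_span_pair.mp hδ
  obtain ⟨-, -, h2, -, h4⟩ := mem_W3.mp hy
  obtain ⟨h5, h6, h7, h8⟩ := Fr.perp
  rw [pol_add_right hQ, pol_smul_right hQ, pol_smul_right hQ, pol_symm hQ a' a, Fr.haa.hab, h6] at h2
  rw [pol_add_right hQ, pol_smul_right hQ, pol_smul_right hQ, pol_symm hQ c' c, Fr.hcc.hab, pol_symm hQ c' a, h7] at h4
  have hα : α = 0 := by linear_combination h2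
  have hβ : β = 0 := by linear_combination h4
  rw [hα, hβ, zero_smul, zero_smul, add_zero]

/-- The final step of the forcing argument. -/
theorem force_of_perp (hW : Nd Q W) {d : ι → F} (hd : d ∈ W) (hda : pol Q d a = 0) (hdc : pol Q d c = 0)
    (hd3 : ∀ y ∈ W3 hQ W a a' c c', pol Q d y = 0) : d ∈ Submodule.span F {a, c} := by
  obtain ⟨h5, h6, h7, h8⟩ := Fr.perp
  have hcW := Fr.cW
  have hc'W := Fr.c'W
  set d₃ := d - pol Q d a' • a - pol Q d c' • c with hd₃
  have hac := Fr.haa.hab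
  have hcc := Fr.hcc.hab
  have hpa : pol Q a d = 0 := by rw [pol_symm hQ, hda]
  have hpc : pol Q c d = 0 := by rw [pol_symm hQ, hdc]
  have hmem : d₃ ∈ W3 hQ W a a' c c' := by
    rw [mem_W3]
    refine ⟨W.sub_mem (W.sub_mem hd (W.smul_mem _ Fr.ha)) (W.smul_mem _ hcW), ?_, ?_, ?_, ?_⟩
    · rw [hd₃, pol_sub_right hQ, pol_sub_right hQ, pol_smul_right hQ, pol_smul_right hQ, pol_singular hQ Fr.haa.ha, h5, hpa]
      ring
    · rw [hd₃, pol_sub_right hQ, pol_sub_right hQ, pol_smul_right hQ, pol_smul_right hQ, pol_symm hQ a' a, hac, h6,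
        pol_symm hQ a' d]
      ring
    · rw [hd₃, pol_sub_right hQ, pol_sub_right hQ, pol_smul_right hQ, pol_smul_right hQ, pol_singular hQ Fr.hcc.ha, pol_symm hQ c a, h5, hpc]
      ring
    · rw [hd₃, pol_sub_right hQ, pol_sub_right hQ, pol_smul_right hQ, pol_smul_right hQ, pol_symm hQ c' c, hcc, pol_symm hQ c' a, h7,
        pol_symm hQ c' d]
      ring
  have h0 : d₃ = 0 := by
    by_contra hne
    obtain ⟨y, hy, hy0⟩ := Fr.Nd3 hW d₃ hmem hne
    apply hy0
    obtain ⟨-, h1, -, h3, -⟩ := mem_W3.mp hy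
    rw [hd₃, pol_sub_left hQ, pol_sub_left hQ, pol_smul_left hQ, pol_smul_left hQ, hd3 y hy, h1, h3]
    ring
  have e : d = pol Q d a' • a + pol Q d c' • c := by
    have h1 : d - pol Q d a' • a - pol Q d c' • c = 0 := h0
    linear_combination (norm := module) h1
  rw [e]
  exact Submodule.add_mem _ (Submodule.smul_mem _ _ (Submodule.subset_span (by simp)))
    (Submodule.smul_mem _ _ (Submodule.subset_span (by simp)))

/-- Orthogonality to `a` from the Eichler group of `a`. -/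
theorem perp_of_rr {p d f f' : ι → F} (hp : p ∈ Submodule.span F {a, c}) (hf : f ∈ W3 hQ W a a' c c')
    (hf' : f' ∈ W3 hQ W a a' c c') (hff' : pol Q f f' ≠ 0)
    (h : eE Q p f d - d ∈ Submodule.span F {a, c}) : pol Q d p = 0 := by
  have h1 := Fr.span_perp hf' h
  have h2 := Fr.span_perp hf' hp
  have e : eE Q p f d - d = pol Q d f • p - pol Q d p • f - (Q f * pol Q d p) • p := by
    unfold eE
    module
  rw [e, pol_sub_right hQ, pol_sub_right hQ, pol_smul_right hQ, pol_smul_right hQ, pol_smul_right hQ, h2, pol_symm hQ f' f] at h1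
  have h3 : pol Q d p * pol Q f f' = 0 := by linear_combination -h1
  exact (mul_eq_zero.mp h3).resolve_right hff'

end Frame

/-- Forcing in large dimension. -/
theorem force_gen {v v' : ι → F} (hn : 7 ≤ Fintype.card ι) (Fr : Frame Q hQ (WW hQ v v') a a' c c') (hW : Nd Q (WW hQ v v'))
    (hdim : 3 ≤ Module.finrank F (W3 hQ (WW hQ v v') a a' c c')) {d : ι → F} (hd : d ∈ WW hQ v v')
    (H : ∀ h, Levi Q v v' h → h * rr hQ a c = rr hQ a c * h → (h : Matrix ι ι F) *ᵥ d - d ∈ Submodule.span F {a, c}) :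
    d ∈ Submodule.span F {a, c} := by
  set W := WW hQ v v' with hWdef
  set Y := W3 hQ W a a' c c' with hY
  have hYnd : Nd Q Y := Fr.Nd3 hW
  obtain ⟨h5, h6, h7, h8⟩ := Fr.perp
  have hYW : ∀ {y}, y ∈ Y → y ∈ W := fun hy => (mem_W3.mp hy).1
  obtain ⟨b, hb, hb0, hQb⟩ := exists_singular hQ Y hdim
  obtain ⟨b', hb', hbb'⟩ := hYnd.exists_partner hQ hb hb0 hQb
  have hbb1 : pol Q b b' ≠ 0 := by rw [hbb'.hab]; exact one_ne_zero
  have hab := mem_W3.mp hb
  have hQc := Fr.hcc.ha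
  have hQa := Fr.haa.ha
  have hp : ∀ {p : ι → F}, p ∈ W → Q p = 0 → ∀ {f : ι → F}, f ∈ W → pol Q p f = 0 → (rr hQ p f : GL ι F) * rr hQ a c = rr hQ a c * rr hQ p f →
      eE Q p f d - d ∈ Submodule.span F {a, c} := by
    intro p hpW hQp f hf hpf hcomm
    have := H _ (rr_levi hQ hn hpW hf hQp hpf) hcomm
    rwa [rr_mulVec hQ hQp hpf] at this
  have hda : pol Q d a = 0 := by
    refine Fr.perp_of_rr (Submodule.subset_span (by simp)) hb hb' hbb1 (hp Fr.ha hQa (hYW hb) hab.2.1 ?_)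
    rw [← rr_add hQ hQa hab.2.1 h5, ← rr_add hQ hQa h5 hab.2.1, add_comm]
  have hdc : pol Q d c = 0 := by
    refine Fr.perp_of_rr (Submodule.subset_span (by simp)) hb hb' hbb1 (hp Fr.cW hQc (hYW hb) hab.2.2.2.1 ?_)
    rw [rr_swap hQa hQc h5]
    refine rr_comm hQ hQc hab.2.2.2.1 ?_
    rw [pol_neg_right hQ, pol_symm hQ, h5, neg_zero]
  refine Fr.force_of_perp hW hd hda hdc ?_
  -- orthogonality to the singular vectors of `W₃`
  have hsing : ∀ y ∈ Y, Q y = 0 → pol Q d y = 0 := by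
    intro y hy hQy
    by_cases hy0 : y = 0
    · rw [hy0, pol_zero_right hQ]
    have hfr := finrank_Ort hQ Y y
    have hfy : Module.finrank F (Submodule.span F {y}) ≤ 1 := by
      simpa using finrank_span_le_card (R := F) ({y} : Set (ι → F))
    obtain ⟨f, hf, hfy'⟩ : ∃ f ∈ Ort hQ Y y, f ∉ Submodule.span F {y} := by
      by_contra hcon
      push Not at hcon
      have hle : Ort hQ Y y ≤ Submodule.span F {y} := fun z hz => hcon z hz
      have := Submodule.finrank_mono hle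
      omega
    rw [mem_Ort hQ] at hf
    obtain ⟨hfY, hyf⟩ := hf
    have h1 := mem_W3.mp hy
    have h2 := mem_W3.mp hfY
    have hcomm : rr hQ y f * rr hQ a c = rr hQ a c * rr hQ y f := by
      refine comm_of_fix hQ (rr_iso hQ hQy hyf) hQa h5 ?_ ?_
      · rw [rr_mulVec hQ hQy hyf]
        exact eE_fix h1.2.1 h2.2.1
      · rw [rr_mulVec hQ hQy hyf]
        exact eE_fix h1.2.2.2.1 h2.2.2.2.1
    have h3 := hp (hYW hy) hQy (hYW hfY) hyf hcomm
    have h4 : eE Q y f d - d ∈ Y := by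
      have e : eE Q y f d - d = pol Q d f • y - pol Q d y • f - (Q f * pol Q d y) • y := by
        unfold eE
        module
      rw [e]
      exact Y.sub_mem (Y.sub_mem (Y.smul_mem _ hy) (Y.smul_mem _ hfY)) (Y.smul_mem _ hy)
    have h5 := Fr.span_inter h3 h4
    by_contra hne
    apply hfy'
    have e : eE Q y f d - d = pol Q d f • y - pol Q d y • f - (Q f * pol Q d y) • y := by
      unfold eE
      module
    rw [e] at h5
    have e2 : f = ((pol Q d y)⁻¹ * (pol Q d f - Q f * pol Q d y)) • y := by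
      have h6 : pol Q d y • f = (pol Q d f - Q f * pol Q d y) • y := by
        linear_combination (norm := module) -h5
      have := congrArg (fun z => (pol Q d y)⁻¹ • z) h6
      simp only [smul_smul, inv_mul_cancel₀ hne, one_smul] at this
      exact this
    rw [e2]
    exact Submodule.smul_mem _ _ (Submodule.mem_span_singleton_self y)
  intro y hy
  have hs := span_singular hQ hb hb' hbb' hy
  clear hy
  induction hs using Submodule.span_induction with
  | mem z hz => exact hsing z hz.1 hz.2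
  | zero => exact pol_zero_right hQ _
  | add x z _ _ hx hz => rw [pol_add_right hQ, hx, hz, add_zero]
  | smul t x _ hx => rw [pol_smul_right hQ, hx, mul_zero]

end force

/-- Existence of a frame. -/
theorem exists_frame (hQ : IsNondegenerateQuadraticForm Q) {W : Submodule F (ι → F)} (hW : Nd Q W) (hdim : 5 ≤ Module.finrank F W) :
    ∃ a a' c c', Frame Q hQ W a a' c c' := by
  obtain ⟨a, ha, ha0, hQa⟩ := exists_singular hQ W (by omega)
  obtain ⟨a', ha', haa'⟩ := hW.exists_partner hQ ha ha0 hQa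
  have hW₂ := Nd_ort2 hQ hW ha ha' haa'
  have hd1 := finrank_Ort hQ W a
  have hd2 := finrank_Ort hQ (Ort hQ W a) a'
  obtain ⟨c, hc, hc0, hQc⟩ := exists_singular hQ (Ort hQ (Ort hQ W a) a') (by omega)
  obtain ⟨c', hc', hcc'⟩ := hW₂.exists_partner hQ hc hc0 hQc
  exact ⟨a, a', c, c', ha, ha', haa', hc, hc', hcc'⟩

theorem Frame.finrank3 {hQ : IsNondegenerateQuadraticForm Q} {W : Submodule F (ι → F)} {a a' c c' : ι → F} :
    Module.finrank F W ≤ Module.finrank F (W3 hQ W a a' c c') + 4 := by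
  have hd1 := finrank_Ort hQ W a
  have hd2 := finrank_Ort hQ (Ort hQ W a) a'
  have hd3 := finrank_Ort hQ (Ort hQ (Ort hQ W a) a') c
  have hd4 := finrank_Ort hQ (Ort hQ (Ort hQ (Ort hQ W a) a') c) c'
  rw [W3]
  omega

/-- **A regular action does not exist in large dimension.** -/
theorem no_reg_large {X : Type*} [Fintype X] {hQ : IsNondegenerateQuadraticForm Q} {act : ↥(omegaGL Q) →* Equiv.Perm X} {v v' : ι → F}
    (h : Hyp Q v v') (hn : 7 ≤ Fintype.card ι) (hψ : ∃ ψ : AddChar F ℂ, ∀ c : F, c ≠ 0 → ∃ t : F, ψ (t * c) ≠ 1)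
    (hdim : 7 ≤ Module.finrank F (WW hQ v v')) (hcard : Fintype.card X < 2 * (WF (WW hQ v v')).card) (x₀ : X)
    (hR : ∀ a : ι → F, a ≠ 0 → Q a = 0 → ∀ x, RegAt hQ act a x) : False := by
  obtain ⟨ψ, hψ⟩ := hψ
  have C : Ctx hQ act ψ v v' := ⟨hn, hψ, h⟩
  have hW := Nd_WW hQ h
  obtain ⟨a, a', c, c', Fr⟩ := exists_frame hQ hW (by omega)
  have hfr := Frame.finrank3 (hQ := hQ) (W := WW hQ v v') (a := a) (a' := a') (c := c) (c' := c')
  exact C.no_reg_of_force hR hcard x₀ Fr.ha Fr.cW Fr.a_ne Fr.haa.ha Fr.perp.1 Fr.c_not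
    (fun d hd _ H => force_gen hn Fr hW (by omega) hd H)

end Cfsg.Agent.Lib.MinOmega
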