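/-
Subgroups of `PΩ` stabilising a non-singular point.
-/
import Cfsg.Agent.Lib.MinOmega.Wrap
set_option autoImplicit false

namespace Cfsg.Agent.Lib.MinOmega

open Cfsg Cfsg.Geo Cfsg.Agent.Lib.Geo.Basic Cfsg.Agent.Lib.Geo.QForm Cfsg.Agent.Lib.GeoOmega.Basic
open Cfsg.Agent.Lib.GeoOmega.Eichler
open scoped MatrixGroups Matrix
open scoped _root_.Classical

universe u

variable {ι : Type} [Fintype ι] [DecidableEq ι] {F : Type u} [Field F] [Fintype F] {Q : (ι → F) → F}

variable (hQ : IsNondegenerateQuadraticForm Q)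
include hQ

/-- A central element of `Ω` acts as a scalar. -/
theorem center_scalar (hn : 7 ≤ Fintype.card ι) {v v' : ι → F} (h : Hyp Q v v') {z : GL ι F}
    (hz : ∀ g ∈ omegaGL Q, z * g = g * z) : ∃ l : F, ∀ x, (z : Matrix ι ι F) *ᵥ x = l • x := by
  have hline : ∀ w : ι → F, w ≠ 0 → Q w = 0 → ∃ t : F, (z : Matrix ι ι F) *ᵥ w = t • w := by
    intro w hw hQw
    obtain ⟨w', -, hww'⟩ := (Nd_top hQ).exists_partner hQ (a := w) trivial hw hQw
    obtain ⟨t, ht⟩ := Submodule.mem_span_singleton.mp (center_line hQ hn hww' hz)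
    exact ⟨t, ht.symm⟩
  have hv0 : v ≠ 0 := by
    rintro rfl
    have := h.hab
    rw [pol_zero_left hQ] at this
    exact zero_ne_one this
  -- two orthogonal independent singular vectors have the same scalar
  have hsame : ∀ w₁ w₂ : ι → F, w₁ ≠ 0 → Q w₁ = 0 → Q w₂ = 0 → pol Q w₁ w₂ = 0 → w₂ ∉ Submodule.span F {w₁} →
      ∀ t₁ t₂ : F, (z : Matrix ι ι F) *ᵥ w₁ = t₁ • w₁ → (z : Matrix ι ι F) *ᵥ w₂ = t₂ • w₂ → t₂ = t₁ := by
    intro w₁ w₂ hw₁ hQ₁ hQ₂ h12 hnot t₁ t₂ h₁ h₂
    have hsum : w₁ + w₂ ≠ 0 := by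
      intro h0
      apply hnot
      have e : w₂ = (-1 : F) • w₁ := by
        rw [neg_one_smul]
        exact eq_neg_of_add_eq_zero_right h0
      rw [e]
      exact Submodule.smul_mem _ _ (Submodule.mem_span_singleton_self _)
    obtain ⟨s, hs⟩ := hline _ hsum (by rw [Q_add hQ, hQ₁, hQ₂, h12]; ring)
    rw [Matrix.mulVec_add, h₁, h₂] at hs
    by_contra hne
    apply hnot
    have e : (t₂ - s) • w₂ = (s - t₁) • w₁ := by
      linear_combination (norm := module) hs
    have h3 : t₂ - s ≠ 0 ∨ s - t₁ ≠ 0 := by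
      by_contra hc
      push Not at hc
      apply hne
      linear_combination hc.1 + hc.2
    have h4 : t₂ - s ≠ 0 := by
      rintro h5
      rw [h5, zero_smul] at e
      rcases smul_eq_zero.mp e.symm with h6 | h6
      · rcases h3 with h7 | h7
        · exact h7 h5
        · exact h7 h6
      · exact hw₁ h6
    have e2 : w₂ = ((t₂ - s)⁻¹ * (s - t₁)) • w₁ := by
      rw [← smul_smul, ← e, smul_smul, inv_mul_cancel₀ h4, one_smul]
    rw [e2]
    exact Submodule.smul_mem _ _ (Submodule.mem_span_singleton_self _)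
  obtain ⟨l, hl⟩ := hline v hv0 h.ha
  refine ⟨l, ?_⟩
  have hsing : ∀ w : ι → F, Q w = 0 → (z : Matrix ι ι F) *ᵥ w = l • w := by
    intro w hQw
    by_cases hw0 : w = 0
    · rw [hw0, Matrix.mulVec_zero, smul_zero]
    obtain ⟨t, ht⟩ := hline w hw0 hQw
    by_cases hwv : w ∈ Submodule.span F {v}
    · obtain ⟨s, rfl⟩ := Submodule.mem_span_singleton.mp hwv
      rw [Matrix.mulVec_smul, hl, smul_comm]
    by_cases hp : pol Q v w = 0
    · rw [ht, hsame v w hv0 h.ha hQw hp hwv l t hl ht]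
    · have hd1 := finrank_Ort hQ ⊤ v
      have hd2 := finrank_Ort hQ (Ort hQ ⊤ v) w
      have hd3 : Module.finrank F (⊤ : Submodule F (ι → F)) = Fintype.card ι := by simp
      obtain ⟨y, hy, hy0, hQy⟩ := exists_singular hQ (Ort hQ (Ort hQ ⊤ v) w) (by omega)
      rw [mem_Ort hQ, mem_Ort hQ] at hy
      obtain ⟨⟨-, hvy⟩, hwy⟩ := hy
      have hyv : y ∉ Submodule.span F {v} := by
        intro hm
        obtain ⟨s, rfl⟩ := Submodule.mem_span_singleton.mp hm
        rw [pol_smul_right hQ, pol_symm hQ w v] at hwy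
        rcases mul_eq_zero.mp hwy with h5 | h5
        · apply hy0
          rw [h5, zero_smul]
        · exact hp h5
      obtain ⟨t', ht'⟩ := hline y hy0 hQy
      have e1 := hsame v y hv0 h.ha hQy hvy hyv l t' hl ht'
      rw [e1] at ht'
      have hwy' : w ∉ Submodule.span F {y} := by
        intro hm
        obtain ⟨s, rfl⟩ := Submodule.mem_span_singleton.mp hm
        apply hp
        rw [pol_smul_right hQ, hvy, mul_zero]
      rw [ht, hsame y w hy0 hQy hQw (by rw [pol_symm hQ]; exact hwy) hwy' l t ht' ht]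
  intro x
  have hs := span_singular hQ (T := ⊤) (a := v) (b := v') trivial trivial h (x := x) trivial
  induction hs using Submodule.span_induction with
  | mem w hw => exact hsing w hw.2
  | zero => rw [Matrix.mulVec_zero, smul_zero]
  | add x y _ _ hx hy => rw [Matrix.mulVec_add, hx, hy, smul_add]
  | smul t x _ hx => rw [Matrix.mulVec_smul, hx, smul_comm]

/-- **Existence of a subgroup of given index: non-singular points over small fields.** -/
theorem exists_index_ns (hn : 7 ≤ Fintype.card ι) {v v' : ι → F} (h : Hyp Q v v') (hsq : ∀ t : F, t ≠ 0 → t ^ 2 = 1) {u₀ : ι → F}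
    (hu₀ : u₀ ≠ 0) {N₀ : ℕ}
    (hZ : (Finset.univ.filter fun y : ι → F => y ≠ 0 ∧ Q y = Q u₀).card = (Fintype.card F - 1) * N₀) :
    ∃ H : Subgroup (POmega F Q), H.index = N₀ := by
  have hq : 2 ≤ Fintype.card F := Fintype.one_lt_card
  -- the stabiliser
  let K : Subgroup (Omega F Q) :=
    { carrier := {g | ∃ t : F, t ≠ 0 ∧ ((g.1.1 : GL ι F) : Matrix ι ι F) *ᵥ u₀ = t • u₀}
      mul_mem' := by
        rintro a b ⟨s, hs, h1⟩ ⟨t, ht, h2⟩
        refine ⟨s * t, mul_ne_zero hs ht, ?_⟩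
        change (((a.1.1 * b.1.1 : GL ι F) : Matrix ι ι F)) *ᵥ u₀ = _
        rw [Units.val_mul, ← Matrix.mulVec_mulVec, h2, Matrix.mulVec_smul, h1, smul_smul, mul_comm]
      one_mem' := by
        refine ⟨1, one_ne_zero, ?_⟩
        change (((1 : GL ι F) : Matrix ι ι F)) *ᵥ u₀ = _
        simp
      inv_mem' := by
        rintro a ⟨s, hs, h1⟩
        refine ⟨s⁻¹, inv_ne_zero hs, ?_⟩
        change (((a.1.1⁻¹ : GL ι F) : Matrix ι ι F)) *ᵥ u₀ = _
        have := inv_mulVec_mulVec a.1.1 u₀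
        rw [h1, Matrix.mulVec_smul] at this
        conv_rhs => rw [← this]
        rw [smul_smul, inv_mul_cancel₀ hs, one_smul]
        }
  have hKmem : ∀ g : Omega F Q, g ∈ K ↔ ∃ t : F, t ≠ 0 ∧ ((g.1.1 : GL ι F) : Matrix ι ι F) *ᵥ u₀ = t • u₀ := fun _ => Iff.rfl
  have hcen : Subgroup.center (Omega F Q) ≤ K := by
    intro z hz
    rw [hKmem]
    obtain ⟨t, ht⟩ := center_scalar hQ hn h (z := z.1.1) (by
      rintro g ⟨x, hx, rfl⟩
      have h2 := (Subgroup.mem_center_iff.mp hz) ⟨x, hx⟩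
      have h3 := congrArg (fun y : Omega F Q => (y.1.1 : GL ι F)) h2
      exact h3.symm)
    refine ⟨t, ?_, ht u₀⟩
    rintro rfl
    have h2 : ((z.1.1 : GL ι F) : Matrix ι ι F) *ᵥ u₀ = 0 := by rw [ht, zero_smul]
    apply hu₀
    have := inv_mulVec_mulVec z.1.1 u₀
    rw [h2, Matrix.mulVec_zero] at this
    exact this.symm
  let H : Subgroup (POmega F Q) := K.map (QuotientGroup.mk' _)
  have hH : H.index = K.index := by
    rw [Subgroup.index_map]
    rw [QuotientGroup.ker_mk', sup_eq_left.mpr hcen, (MonoidHom.range_eq_top.mpr (QuotientGroup.mk'_surjective _)),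
      Subgroup.index_top, mul_one]
  refine ⟨H, hH.trans ?_⟩
  -- the lines
  set Y := Finset.univ.filter fun y : ι → F => y ≠ 0 ∧ Q y = Q u₀ with hY
  have hYmem : ∀ y, y ∈ Y ↔ y ≠ 0 ∧ Q y = Q u₀ := by
    intro y
    simp [hY]
  set Λ := Y.image (fun y => Submodule.span F {y}) with hΛ
  have hY0 : ∀ x ∈ Y, x ≠ 0 := fun x hx => ((hYmem x).mp hx).1
  have hYs : ∀ x ∈ Y, ∀ t : F, t ≠ 0 → t • x ∈ Y := by
    intro x hx t ht
    rw [hYmem] at hx ⊢
    exact ⟨smul_ne_zero ht hx.1, by rw [hQ.smul, hsq t ht, one_mul, hx.2]⟩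
  have hΛc : Λ.card = N₀ := by
    have h1 := card_lines hY0 hYs
    rw [hZ, mul_comm] at h1
    exact (Nat.eq_of_mul_eq_mul_right (by omega) h1).symm
  rw [← hΛc, Subgroup.index]
  have hfmem : ∀ g : Omega F Q, Submodule.span F {((g.1.1 : GL ι F) : Matrix ι ι F) *ᵥ u₀} ∈ Λ := by
    intro g
    refine Finset.mem_image_of_mem _ ?_
    rw [hYmem]
    have hI : g.1.1 ∈ isometryGroup F Q := g.1.2
    refine ⟨?_, (mem_isometryGroup_iff Q _).mp hI u₀⟩
    intro h0
    apply hu₀
    have := inv_mulVec_mulVec g.1.1 u₀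
    rw [h0, Matrix.mulVec_zero] at this
    exact this.symm
  let f : Omega F Q → Λ := fun g => ⟨_, hfmem g⟩
  have hf : ∀ a b : Omega F Q, f a = f b ↔ a⁻¹ * b ∈ K := by
    intro a b
    constructor
    · intro hab
      have h1 : Submodule.span F {((a.1.1 : GL ι F) : Matrix ι ι F) *ᵥ u₀} = Submodule.span F {((b.1.1 : GL ι F) : Matrix ι ι F) *ᵥ u₀} :=
        congrArg Subtype.val hab
      have h2 : ((b.1.1 : GL ι F) : Matrix ι ι F) *ᵥ u₀ ∈ Submodule.span F {((a.1.1 : GL ι F) : Matrix ι ι F) *ᵥ u₀} := by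
        rw [h1]
        exact Submodule.mem_span_singleton_self _
      obtain ⟨t, ht⟩ := Submodule.mem_span_singleton.mp h2
      rw [hKmem]
      refine ⟨t, ?_, ?_⟩
      · rintro rfl
        rw [zero_smul] at ht
        apply hu₀
        have := inv_mulVec_mulVec b.1.1 u₀
        rw [← ht, Matrix.mulVec_zero] at this
        exact this.symm
      · change (((a.1.1⁻¹ * b.1.1 : GL ι F) : Matrix ι ι F)) *ᵥ u₀ = _
        rw [Units.val_mul, ← Matrix.mulVec_mulVec, ← ht, Matrix.mulVec_smul, inv_mulVec_mulVec]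
    · intro hab
      obtain ⟨t, ht0, ht⟩ := (hKmem _).mp hab
      apply Subtype.ext
      change Submodule.span F {((a.1.1 : GL ι F) : Matrix ι ι F) *ᵥ u₀} = Submodule.span F {((b.1.1 : GL ι F) : Matrix ι ι F) *ᵥ u₀}
      have h1 : (((a.1.1⁻¹ * b.1.1 : GL ι F) : Matrix ι ι F)) *ᵥ u₀ = t • u₀ := ht
      rw [Units.val_mul, ← Matrix.mulVec_mulVec] at h1
      have h2 := congrArg (fun y => ((a.1.1 : GL ι F) : Matrix ι ι F) *ᵥ y) h1
      simp only [mulVec_inv_mulVec, Matrix.mulVec_smul] at h2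
      rw [h2]
      exact (Submodule.span_singleton_smul_eq (Ne.isUnit ht0) _).symm
  have hsurj : Function.Surjective f := by
    rintro ⟨L, hL⟩
    obtain ⟨y, hy, rfl⟩ := Finset.mem_image.mp hL
    obtain ⟨hy0, hQy⟩ := (hYmem y).mp hy
    obtain ⟨g, ⟨x, hx, rfl⟩, hgy⟩ := exists_omega_move hQ hn hu₀ hy0 hQy.symm
    refine ⟨⟨x, hx⟩, Subtype.ext ?_⟩
    change Submodule.span F {((x.1 : GL ι F) : Matrix ι ι F) *ᵥ u₀} = _
    rw [show ((x.1 : GL ι F) : Matrix ι ι F) *ᵥ u₀ = y from hgy]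
  have hcard : Nat.card (Omega F Q ⧸ K) = Nat.card Λ := by
    refine Nat.card_congr (Equiv.ofBijective (Quotient.lift f ?_) ⟨?_, ?_⟩)
    · intro a b hab
      exact (hf a b).mpr (QuotientGroup.leftRel_apply.mp hab)
    · intro a b
      induction a using QuotientGroup.induction_on with | _ a => ?_
      induction b using QuotientGroup.induction_on with | _ b => ?_
      intro hab
      exact QuotientGroup.eq.mpr ((hf a b).mp hab)
    · intro y
      obtain ⟨g, hg⟩ := hsurj y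
      exact ⟨QuotientGroup.mk g, hg⟩
  rw [hcard, Nat.card_eq_fintype_card, Fintype.card_coe]

end Cfsg.Agent.Lib.MinOmega
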