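/-
Numerical facts for the minus type (generated with certificates).
-/
import Cfsg.Agent.Lib.MinOmega.NumP
set_option autoImplicit false
set_option maxRecDepth 4000
set_option linter.unusedSimpArgs false

namespace Cfsg.Agent.Lib.MinOmega.NumM

open NumP

def mP2 (a g : ℕ) : ℕ := pg2 a g * ((a + 1) * (a + 1) * px a g + 1)
def mPw (a g : ℕ) : ℕ := pg1 a g * ((a + 1) * (a + 1) * (a + 1) * px a g + 1)
def mN0 (a g : ℕ) : ℕ := pg0 a g * ((a + 1) * (a + 1) * (a + 1) * (a + 1) * px a g + 1)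
def mn (a g : ℕ) : ℕ := (a + 1) * (a + 1) * px a g * ((a + 1) * (a + 1) * (a + 1) * px a g + 1)


theorem M1 (a g : ℕ) : mN0 a g = 1 + (a + 1) ^ 6 * (px a g) ^ 2 + (a + 1) * mPw a g := by
  simp only [px, pg2, pg1, pg0, mP2, mPw, mN0, mn]
  ring

theorem M2 (a g : ℕ) : mPw a g = 1 + (a + 1) ^ 4 * (px a g) ^ 2 + (a + 1) * mP2 a g := by
  simp only [px, pg2, pg1, pg0, mP2, mPw, mN0, mn]
  ring

theorem M3 (a g : ℕ) : a * mN0 a g = (a * pg0 a g) * ((a + 1) ^ 4 * px a g + 1) := by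
  simp only [px, pg2, pg1, pg0, mP2, mPw, mN0, mn]
  ring

theorem M5 (a g : ℕ) : a * (a + 1) ^ 6 * (px a g) ^ 2 + (a + 1) * mn a g = (a + 1) ^ 3 * px a g * ((a + 1) ^ 4 * px a g + 1) := by
  simp only [px, pg2, pg1, pg0, mP2, mPw, mN0, mn]
  ring

theorem M6 (a g : ℕ) : a * mP2 a g = (a * pg2 a g) * ((a + 1) * (a + 1) * px a g + 1) := by
  simp only [px, pg2, pg1, pg0, mP2, mPw, mN0, mn]
  ring

theorem K1 {a g : ℕ} (ha : 1 ≤ a) : mN0 a g ≤ 2 * (a + 1) ^ 6 * (px a g) ^ 2 := by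
  obtain ⟨A, rfl⟩ : ∃ A, a = A + 1 := ⟨a - 1, by omega⟩
  simp only [px, pg2, pg1, pg0, mP2, mPw, mN0, mn]
  refine Nat.le.intro (k := A^8*g^2 + 13*A^7*g^2 + 72*A^6*g^2 + 2*A^7*g + 220*A^5*g^2 + 24*A^6*g + 400*A^4*g^2 + 120*A^5*g + A^6 + 432*A^3*g^2 + 321*A^4*g + 11*A^5 + 256*A^2*g^2 + 487*A^3*g + 49*A^4 + 64*A*g^2 + 402*A^2*g + 112*A^3 + 148*A*g + 135*A^2 + 75*A + 8*g + 9) ?_
  ring

theorem K2e {a g : ℕ} (ha : 3 ≤ a) : (a + 1) * mPw a g < a * mn a g := by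
  obtain ⟨A, rfl⟩ : ∃ A, a = A + 3 := ⟨a - 3, by omega⟩
  simp only [px, pg2, pg1, pg0, mP2, mPw, mN0, mn]
  refine Nat.lt_of_add_one_le (Nat.le.intro (k := A^8*g^2 + 28*A^7*g^2 + 340*A^6*g^2 + 2*A^7*g + 2335*A^5*g^2 + 50*A^6*g + 9900*A^4*g^2 + 530*A^5*g + A^6 + 26464*A^3*g^2 + 3082*A^4*g + 22*A^5 + 43392*A^2*g^2 + 10589*A^3*g + 199*A^4 + 39680*A*g^2 + 21405*A^2*g + 945*A^3 + 23416*A*g + 2474*A^2 + 15360*g^2 + 3359*A + 10576*g + 1819) ?_)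
  ring

theorem K3e {a g : ℕ} (ha : 3 ≤ a) : mN0 a g ≤ 2 * (a * mn a g) := by
  obtain ⟨A, rfl⟩ : ∃ A, a = A + 3 := ⟨a - 3, by omega⟩
  simp only [px, pg2, pg1, pg0, mP2, mPw, mN0, mn]
  refine Nat.le.intro (k := A^8*g^2 + 27*A^7*g^2 + 314*A^6*g^2 + 2*A^7*g + 2046*A^5*g^2 + 48*A^6*g + 8120*A^4*g^2 + 484*A^5*g + A^6 + 19904*A^3*g^2 + 2643*A^4*g + 21*A^5 + 28928*A^2*g^2 + 8363*A^3*g + 179*A^4 + 22016*A*g^2 + 15078*A^2*g + 786*A^3 + 13856*A*g + 1845*A^2 + 6144*g^2 + 2119*A + 4576*g + 843) ?_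
  ring

theorem K2o {a g : ℕ} (ha : 4 ≤ a) : 2 * ((a + 1) * mPw a g) < a * mn a g := by
  obtain ⟨A, rfl⟩ : ∃ A, a = A + 4 := ⟨a - 4, by omega⟩
  simp only [px, pg2, pg1, pg0, mP2, mPw, mN0, mn]
  refine Nat.lt_of_add_one_le (Nat.le.intro (k := A^8*g^2 + 35*A^7*g^2 + 530*A^6*g^2 + 2*A^7*g + 4524*A^5*g^2 + 62*A^6*g + 23725*A^4*g^2 + 812*A^5*g + A^6 + 77875*A^3*g^2 + 5803*A^4*g + 27*A^5 + 155000*A^2*g^2 + 24306*A^3*g + 298*A^4 + 168750*A*g^2 + 59141*A^2*g + 1711*A^3 + 76210*A*g + 5337*A^2 + 75000*g^2 + 8418*A + 38900*g + 5039) ?_)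
  ring

theorem K3o3 {a g : ℕ} (ha : 8 ≤ a) : 2 * mN0 a g ≤ 3 * (a * mn a g) := by
  obtain ⟨A, rfl⟩ : ∃ A, a = A + 8 := ⟨a - 8, by omega⟩
  simp only [px, pg2, pg1, pg0, mP2, mPw, mN0, mn]
  refine Nat.le.intro (k := A^8*g^2 + 65*A^7*g^2 + 1836*A^6*g^2 + 2*A^7*g + 29400*A^5*g^2 + 114*A^6*g + 291465*A^4*g^2 + 2760*A^5*g + A^6 + 1828089*A^3*g^2 + 36725*A^4*g + 49*A^5 + 7064010*A^2*g^2 + 289342*A^3*g + 988*A^4 + 15313374*A*g^2 + 1345035*A^2*g + 10461*A^3 + 3398166*A*g + 61069*A^2 + 14171760*g^2 + 185074*A + 3570156*g + 224836) ?_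
  ring

theorem K3o5 {g : ℕ} : 2 * mN0 4 g ≤ 5 * (4 * mn 4 g) := by
  simp only [px, pg2, pg1, pg0, mP2, mPw, mN0, mn]
  refine Nat.le.intro (k := 375000*g^2 + 190500*g + 24188) ?_
  ring

theorem K3o7 {g : ℕ} : 2 * mN0 6 g ≤ 7 * (6 * mn 6 g) := by
  simp only [px, pg2, pg1, pg0, mP2, mPw, mN0, mn]
  refine Nat.le.intro (k := 15529668*g^2 + 5193020*g + 434124) ?_
  ring

theorem Kgen {a g : ℕ} (ha : 1 ≤ a) : mN0 a g ≤ a * mPw a g * ((a + 1) * (a + 1) * px a g + 1) := by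
  obtain ⟨A, rfl⟩ : ∃ A, a = A + 1 := ⟨a - 1, by omega⟩
  simp only [px, pg2, pg1, pg0, mP2, mPw, mN0, mn]
  refine Nat.le.intro (k := A^10*g^3 + 17*A^9*g^3 + 129*A^8*g^3 + 3*A^9*g^2 + 575*A^7*g^3 + 47*A^8*g^2 + 1666*A^6*g^3 + 324*A^7*g^2 + 3*A^8*g + 3276*A^5*g^3 + 1289*A^6*g^2 + 43*A^7*g + 4424*A^4*g^3 + 3258*A^5*g^2 + 266*A^6*g + A^7 + 4048*A^3*g^3 + 5417*A^4*g^2 + 926*A^5*g + 13*A^6 + 2400*A^2*g^3 + 5912*A^3*g^2 + 1978*A^4*g + 71*A^5 + 832*A*g^3 + 4072*A^2*g^2 + 2640*A^3*g + 210*A^4 + 1600*A*g^2 + 2128*A^2*g + 359*A^3 + 128*g^3 + 928*A*g + 345*A^2 + 272*g^2 + 159*A + 160*g + 16) ?_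
  ring

theorem S1a {g : ℕ} : 1 * mPw 1 g < mn 1 g := by
  simp only [px, pg2, pg1, pg0, mP2, mPw, mN0, mn]
  refine Nat.lt_of_add_one_le (Nat.le.intro (k := 8*g + 8) ?_)
  ring

theorem S1b {g : ℕ} : 2 * mPw 2 g < mn 2 g := by
  simp only [px, pg2, pg1, pg0, mP2, mPw, mN0, mn]
  refine Nat.lt_of_add_one_le (Nat.le.intro (k := 54*g + 27) ?_)
  ring

theorem S5a {g : ℕ} : mN0 1 g ≤ 5 * mn 1 g := by
  simp only [px, pg2, pg1, pg0, mP2, mPw, mN0, mn]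
  refine Nat.le.intro (k := 32*g^2 + 92*g + 61) ?_
  ring

theorem S5b {g : ℕ} : mN0 2 g ≤ 5 * mn 2 g := by
  simp only [px, pg2, pg1, pg0, mP2, mPw, mN0, mn]
  refine Nat.le.intro (k := 486*g^2 + 630*g + 194) ?_
  ring

end Cfsg.Agent.Lib.MinOmega.NumM
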