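/-
Rotations in low dimension, and the non-existence of regular actions in dimension eight.
-/
import Cfsg.Agent.Lib.MinOmega.Coc
import Cfsg.Agent.Lib.Geo.Om2
import Cfsg.Agent.Lib.MinOmega.PlusFam
set_option autoImplicit false

namespace Cfsg.Agent.Lib.MinOmega

open Cfsg Cfsg.Geo Cfsg.Agent.Lib.Geo.Basic Cfsg.Agent.Lib.Geo.QForm Cfsg.Agent.Lib.GeoOmega.Basic
open Cfsg.Agent.Lib.GeoOmega.Eichler
open Cfsg.Agent.Lib.GeoOmega.Levi (rf rf_mulVec rf_mem rf_inv)
open Cfsg.Agent.Lib.Geo.Om2 (comm_mem_omega rf_mul_mem_omega_sq)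
open scoped MatrixGroups Matrix
open scoped _root_.Classical

variable {ι : Type} [Fintype ι] [DecidableEq ι] {F : Type*} [Field F] [Fintype F] {Q : (ι → F) → F}

section rot
variable (hQ : IsNondegenerateQuadraticForm Q)
include hQ

/-- The product of two orthogonal reflections of the same norm, characteristic three. -/
theorem exists_rot3 (hn : 7 ≤ Fintype.card ι) {y₁ y₂ : ι → F} (h1 : Q y₁ ≠ 0) (h2 : Q y₂ ≠ 0) (h12 : pol Q y₁ y₂ = 0)
    (he : Q y₁ = Q y₂) : ∃ z ∈ omegaGL Q, ∀ x, (z : Matrix ι ι F) *ᵥ x = x - ((Q y₂)⁻¹ * pol Q x y₂) • y₂ - ((Q y₁)⁻¹ * pol Q x y₁) • y₁ := by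
  refine ⟨rf hQ y₁ * rf hQ y₂, rf_mul_mem_omega_sq hQ hn h1 h2 ⟨Q y₁, by rw [← he]⟩, fun x => ?_⟩
  rw [Units.val_mul, ← Matrix.mulVec_mulVec, rf_mulVec, rf_mulVec, pol_sub_left hQ, pol_smul_left hQ, pol_symm hQ y₂ y₁, h12]
  simp

/-- The commutator of two reflections, the field with two elements. -/
theorem exists_rot2 (hF : Fintype.card F = 2) {y₁ y₂ : ι → F} (h1 : Q y₁ ≠ 0) (h2 : Q y₂ ≠ 0) (h12 : pol Q y₁ y₂ ≠ 0) :
    ∃ z ∈ omegaGL Q, ∀ x, (z : Matrix ι ι F) *ᵥ x = x + pol Q x y₁ • y₁ + (pol Q x y₁ + pol Q x y₂) • y₂ := by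
  have h1' : Q y₁ = 1 := f2_ne hF h1
  have h2' : Q y₂ = 1 := f2_ne hF h2
  have h12' : pol Q y₁ y₂ = 1 := f2_ne hF h12
  have h21' : pol Q y₂ y₁ = 1 := by rw [pol_symm hQ, h12']
  have ht : ∀ s : F, s + s = 0 := by
    intro s
    have : s + s = 2 * s := by ring
    rw [this, f2_two hF, zero_mul]
  have hneg : ∀ s : F, -s = s := fun s => (eq_neg_of_add_eq_zero_left (ht s)).symm
  have hr : ∀ y x : ι → F, Q y = 1 → ((rf hQ y : GL ι F) : Matrix ι ι F) *ᵥ x = x + pol Q x y • y := by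
    intro y x hy
    rw [rf_mulVec, hy, inv_one, one_mul, sub_eq_add_neg, ← neg_smul, hneg]
  refine ⟨rf hQ y₁ * rf hQ y₂ * (rf hQ y₁)⁻¹ * (rf hQ y₂)⁻¹, comm_mem_omega (rf_mem hQ _) (rf_mem hQ _), fun x => ?_⟩
  rw [rf_inv, rf_inv]
  simp only [Units.val_mul, ← Matrix.mulVec_mulVec]
  rw [hr y₂ x h2', hr y₁ _ h1', hr y₂ _ h2', hr y₁ _ h1']
  simp only [pol_add_left hQ, pol_smul_left hQ, pol_self2 hQ hF, h12', h21']
  set A := pol Q x y₁
  set B := pol Q x y₂
  have hvv : ∀ v : ι → F, (2 : F) • v = 0 := f2_v hF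
  simp only [mul_one, mul_zero, add_zero, zero_add]
  linear_combination (norm := module) (A + 2 * B) • hvv y₁ + B • hvv y₂

theorem finrank_Ort_lt {R : Submodule F (ι → F)} {x y : ι → F} (hy : y ∈ R) (hxy : pol Q x y ≠ 0) :
    Module.finrank F (Ort hQ R x) + 1 ≤ Module.finrank F R := by
  have hlt : Ort hQ R x < R := by
    refine lt_of_le_of_ne (fun z hz => ((mem_Ort hQ).mp hz).1) ?_
    intro he
    have : y ∈ Ort hQ R x := by rw [he]; exact hy
    exact hxy ((mem_Ort hQ).mp this).2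
  exact Submodule.finrank_lt_finrank_of_lt hlt

end rot

theorem f3_cases (hF : Fintype.card F = 3) (x : F) : x = 0 ∨ x = 1 ∨ x = -1 := by
  by_contra h
  push Not at h
  have h2 : (1 : F) ≠ -1 := by
    intro h1
    have h3 : (2 : F) = 0 := by linear_combination h1
    have h4 : ringChar F = 2 := ringChar_two h3
    have h5 := ringChar_dvd (F := F)
    rw [h4, hF] at h5
    omega
  have h1 : ({0, 1, -1, x} : Finset F).card ≤ Fintype.card F := Finset.card_le_univ _
  rw [Finset.card_insert_of_notMem, Finset.card_insert_of_notMem, Finset.card_insert_of_notMem, Finset.card_singleton, hF] at h1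
  · omega
  · simpa using h.2.2.symm
  · simp only [Finset.mem_insert, Finset.mem_singleton, not_or]
    exact ⟨h2, h.2.1.symm⟩
  · simp only [Finset.mem_insert, Finset.mem_singleton, not_or]
    refine ⟨zero_ne_one, ?_, h.1.symm⟩
    simp

theorem f3_three (hF : Fintype.card F = 3) : (3 : F) = 0 := by
  have h5 := ringChar_dvd (F := F)
  rw [hF] at h5
  have hp := CharP.char_is_prime F (ringChar F)
  have h6 : ringChar F = 3 := (Nat.prime_dvd_prime_iff_eq hp (by norm_num)).mp h5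
  have := (ringChar.spec F 3).mpr (by rw [h6])
  exact_mod_cast this

theorem span_pair_all {Y : Submodule F (ι → F)} (hY : Module.finrank F Y ≤ 2) {y₁ y₂ y : ι → F} (h1 : y₁ ∈ Y) (h2 : y₂ ∈ Y)
    (h10 : y₁ ≠ 0) (h21 : y₂ ∉ Submodule.span F {y₁}) (hy : y ∈ Y) : y ∈ Submodule.span F {y₁, y₂} := by
  set T := Submodule.span F {y₁, y₂} with hT
  have hle : T ≤ Y := by
    rw [hT, Submodule.span_le]
    rintro z (rfl | rfl)
    · exact h1
    · exact h2
  have hs : Submodule.span F {y₁} < T := by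
    refine lt_of_le_of_ne (Submodule.span_mono (by simp)) ?_
    intro he
    apply h21
    rw [he]
    exact Submodule.subset_span (by simp)
  have h3 := Submodule.finrank_lt_finrank_of_lt hs
  rw [finrank_span_singleton h10] at h3
  have h4 : T = Y := Submodule.eq_of_le_of_finrank_le hle (by omega)
  rw [h4]
  exact hy

section dim8

variable {hQ : IsNondegenerateQuadraticForm Q}

namespace Frame

variable {W : Submodule F (ι → F)} {a a' c c' : ι → F} (Fr : Frame Q hQ W a a' c c')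
include Fr

theorem finrank3_le : Module.finrank F (W3 hQ W a a' c c') + 4 ≤ Module.finrank F W := by
  have hcW := Fr.cW
  have hc'W := Fr.c'W
  have h1 := finrank_Ort_lt hQ Fr.ha' (x := a) (y := a') (by rw [Fr.haa.hab]; exact one_ne_zero)
  have h2 := finrank_Ort_lt hQ (R := Ort hQ W a) (x := a') (y := a) ((mem_Ort hQ).mpr ⟨Fr.ha, pol_singular hQ Fr.haa.ha⟩)
    (by rw [pol_symm hQ, Fr.haa.hab]; exact one_ne_zero)
  have h3 := finrank_Ort_lt hQ Fr.hc' (x := c) (y := c') (by rw [Fr.hcc.hab]; exact one_ne_zero)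
  have h4 := finrank_Ort_lt hQ (R := Ort hQ (Ort hQ (Ort hQ W a) a') c) (x := c') (y := c)
    ((mem_Ort hQ).mpr ⟨Fr.hc, pol_singular hQ Fr.hcc.ha⟩) (by rw [pol_symm hQ, Fr.hcc.hab]; exact one_ne_zero)
  rw [W3]
  omega

end Frame

/-- Orthogonality to the centre and the parameter. -/
theorem Frame.perp_ac {v v' : ι → F} (hn : 7 ≤ Fintype.card ι) {a a' c c' : ι → F} (Fr : Frame Q hQ (WW hQ v v') a a' c c')
    (hW : Nd Q (WW hQ v v')) {f : ι → F} (hf : f ∈ W3 hQ (WW hQ v v') a a' c c') (hf0 : f ≠ 0) {d : ι → F}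
    (H : ∀ h, Levi Q v v' h → h * rr hQ a c = rr hQ a c * h → (h : Matrix ι ι F) *ᵥ d - d ∈ Submodule.span F {a, c}) :
    pol Q d a = 0 ∧ pol Q d c = 0 := by
  obtain ⟨f', hf', hff'⟩ := Fr.Nd3 hW f hf hf0
  obtain ⟨h5, h6, h7, h8⟩ := Fr.perp
  have hab := mem_W3.mp hf
  have hQc := Fr.hcc.ha
  have hQa := Fr.haa.ha
  have hp : ∀ {p : ι → F}, p ∈ WW hQ v v' → Q p = 0 → ∀ {f : ι → F}, f ∈ WW hQ v v' → pol Q p f = 0 → (rr hQ p f : GL ι F) * rr hQ a c = rr hQ a c * rr hQ p f →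
      eE Q p f d - d ∈ Submodule.span F {a, c} := by
    intro p hpW hQp f hf hpf hcomm
    have := H _ (rr_levi hQ hn hpW hf hQp hpf) hcomm
    rwa [rr_mulVec hQ hQp hpf] at this
  constructor
  · refine Fr.perp_of_rr (Submodule.subset_span (by simp)) hf hf' hff' (hp Fr.ha hQa hab.1 hab.2.1 ?_)
    rw [← rr_add hQ hQa hab.2.1 h5, ← rr_add hQ hQa h5 hab.2.1, add_comm]
  · refine Fr.perp_of_rr (Submodule.subset_span (by simp)) hf hf' hff' (hp Fr.cW hQc hab.1 hab.2.2.2.1 ?_)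
    rw [rr_swap hQa hQc h5]
    refine rr_comm hQ hQc hab.2.2.2.1 ?_
    rw [pol_neg_right hQ, pol_symm hQ, h5, neg_zero]

/-- The rotation as a Levi element commuting with the Eichler element. -/
theorem levi_of_fix {v v' : ι → F} {z : GL ι F} (hz : z ∈ omegaGL Q) {y₁ y₂ : ι → F}
    (hfix : ∀ x, pol Q x y₁ = 0 → pol Q x y₂ = 0 → (z : Matrix ι ι F) *ᵥ x = x) (h1 : y₁ ∈ WW hQ v v') (h2 : y₂ ∈ WW hQ v v') :
    Levi Q v v' z := by
  have e1 := (mem_WW hQ).mp h1
  have e2 := (mem_WW hQ).mp h2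
  exact ⟨hz, hfix v e1.1 e2.1, hfix v' e1.2 e2.2⟩

/-- **No regular action on the minus type in dimension eight.** -/
theorem no_reg_minus8 {X : Type*} [Fintype X] {act : ↥(omegaGL Q) →* Equiv.Perm X} {v v' : ι → F}
    (h : Hyp Q v v') (hn : Fintype.card ι = 8) (hψ : ∃ ψ : AddChar F ℂ, ∀ c : F, c ≠ 0 → ∃ t : F, ψ (t * c) ≠ 1)
    (hw : ∀ T : Submodule F (ι → F), (∀ x ∈ T, Q x = 0) → Module.finrank F T ≤ 3)
    (hq : Fintype.card F = 2 ∨ Fintype.card F = 3)
    (hcard : Fintype.card X < 2 * (WF (WW hQ v v')).card) (x₀ : X)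
    (hR : ∀ a : ι → F, a ≠ 0 → Q a = 0 → ∀ x, RegAt hQ act a x) : False := by
  obtain ⟨ψ, hψ⟩ := hψ
  have hn7 : 7 ≤ Fintype.card ι := by omega
  have C : Ctx hQ act ψ v v' := ⟨hn7, hψ, h⟩
  have hW := Nd_WW hQ h
  have hd0 := finrank_WW hQ v v'
  have hd1 : Module.finrank F (WW hQ v v') + 2 ≤ 8 := by
    have h1 := finrank_Ort_lt hQ (R := ⊤) (x := v) (y := v') trivial (by rw [h.hab]; exact one_ne_zero)
    have h2 := finrank_Ort_lt hQ (R := Ort hQ ⊤ v) (x := v') (y := v) ((mem_Ort hQ).mpr ⟨trivial, pol_singular hQ h.ha⟩)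
      (by rw [pol_symm hQ, h.hab]; exact one_ne_zero)
    have h3 : Module.finrank F (⊤ : Submodule F (ι → F)) = Fintype.card ι := by simp
    rw [WW]
    omega
  obtain ⟨a, a', c, c', Fr⟩ := exists_frame hQ hW (by omega)
  have hfr := Frame.finrank3 (hQ := hQ) (W := WW hQ v v') (a := a) (a' := a') (c := c) (c' := c')
  have hfr' := Fr.finrank3_le
  refine C.no_reg_of_force hR hcard x₀ Fr.ha Fr.cW Fr.a_ne Fr.haa.ha Fr.perp.1 Fr.c_not (fun d hd _ H => ?_)
  set Y := W3 hQ (WW hQ v v') a a' c c' with hY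
  have hYnd : Nd Q Y := Fr.Nd3 hW
  have hY2 : Module.finrank F Y = 2 := by omega
  -- the anisotropy
  have hwW : ∀ T : Submodule F (ι → F), T ≤ WW hQ v v' → (∀ x ∈ T, Q x = 0) → Module.finrank F T ≤ 1 + 1 := by
    intro T hT hT'
    exact witt_step hQ (w := 1 + 1) (R := ⊤) (fun T _ hT' => hw T hT') trivial h T hT hT'
  have hw2 : ∀ T : Submodule F (ι → F), T ≤ Ort hQ (Ort hQ (WW hQ v v') a) a' → (∀ x ∈ T, Q x = 0) → Module.finrank F T ≤ 0 + 1 :=
    witt_step hQ hwW Fr.ha Fr.haa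
  have hw3 : ∀ T : Submodule F (ι → F), T ≤ Y → (∀ x ∈ T, Q x = 0) → Module.finrank F T ≤ 0 :=
    witt_step hQ hw2 Fr.hc Fr.hcc
  have haniso : ∀ y ∈ Y, y ≠ 0 → Q y ≠ 0 := by
    intro y hy hy0 hQy
    have h1 := hw3 (Submodule.span F {y}) (by rw [Submodule.span_singleton_le_iff_mem]; exact hy) (by
      intro x hx
      obtain ⟨t, rfl⟩ := Submodule.mem_span_singleton.mp hx
      rw [hQ.smul, hQy, mul_zero])
    rw [finrank_span_singleton hy0] at h1
    omega
  -- two vectors of `Y`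
  obtain ⟨y₁, hy₁, hy₁0⟩ : ∃ y₁ ∈ Y, y₁ ≠ 0 := by
    apply Submodule.exists_mem_ne_zero_of_ne_bot
    rintro he
    rw [he] at hY2
    simp at hY2
  have hYW : ∀ {y}, y ∈ Y → y ∈ WW hQ v v' := fun hy => (mem_W3.mp hy).1
  have hac := Fr.perp_ac hn7 hW hy₁ hy₁0 H
  have hQy₁ := haniso y₁ hy₁ hy₁0
  have hzH : ∀ (z : GL ι F) (y₂ : ι → F), y₂ ∈ Y → z ∈ omegaGL Q →
      (∀ x, pol Q x y₁ = 0 → pol Q x y₂ = 0 → (z : Matrix ι ι F) *ᵥ x = x) →
      ((z : Matrix ι ι F) *ᵥ d - d ∈ Y) → (z : Matrix ι ι F) *ᵥ d = d := by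
    intro z y₂ hy₂ hz hfix hdY
    have hL := levi_of_fix hz hfix (hYW hy₁) (hYW hy₂)
    have h1 := mem_W3.mp hy₁
    have h2 := mem_W3.mp hy₂
    have hcomm : z * rr hQ a c = rr hQ a c * z :=
      comm_of_fix hQ (omega_iso hz) Fr.haa.ha Fr.perp.1 (hfix a h1.2.1 h2.2.1) (hfix c h1.2.2.2.1 h2.2.2.2.1)
    have h3 := Fr.span_inter (H z hL hcomm) hdY
    exact sub_eq_zero.mp h3
  have hfinal : ∀ y₂ ∈ Y, y₂ ∉ Submodule.span F {y₁} → pol Q d y₁ = 0 → pol Q d y₂ = 0 → d ∈ Submodule.span F {a, c} := by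
    intro y₂ hy₂ hnot h1 h2
    refine Fr.force_of_perp hW hd hac.1 hac.2 ?_
    intro y hy
    obtain ⟨α, β, rfl⟩ := Submodule.mem_span_pair.mp (span_pair_all hY2.le hy₁ hy₂ hy₁0 hnot hy)
    rw [pol_add_right hQ, pol_smul_right hQ, pol_smul_right hQ, h1, h2]
    ring
  rcases hq with hF | hF
  · -- the field with two elements
    obtain ⟨y₂, hy₂, hnot⟩ : ∃ y₂ ∈ Y, y₂ ∉ Submodule.span F {y₁} := by
      by_contra hcon
      push Not at hcon
      have hle : Y ≤ Submodule.span F {y₁} := fun z hz => hcon z hz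
      have h1 := Submodule.finrank_mono hle
      rw [finrank_span_singleton hy₁0] at h1
      omega
    have hy₂0 : y₂ ≠ 0 := by
      rintro rfl
      exact hnot (Submodule.zero_mem _)
    have hQy₂ := haniso y₂ hy₂ hy₂0
    have hsum0 : y₁ + y₂ ≠ 0 := by
      intro h0
      apply hnot
      have e : y₂ = (-1 : F) • y₁ := by
        rw [neg_one_smul]
        exact (eq_neg_of_add_eq_zero_right h0)
      rw [e]
      exact Submodule.smul_mem _ _ (Submodule.mem_span_singleton_self _)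
    have hQsum := haniso _ (Y.add_mem hy₁ hy₂) hsum0
    have hp12 : pol Q y₁ y₂ ≠ 0 := by
      intro h0
      rw [Q_add hQ, h0, f2_ne hF hQy₁, f2_ne hF hQy₂, add_zero] at hQsum
      apply hQsum
      linear_combination f2_two hF
    obtain ⟨z, hz, hzf⟩ := exists_rot2 hQ hF hQy₁ hQy₂ hp12
    have hfix : ∀ x, pol Q x y₁ = 0 → pol Q x y₂ = 0 → (z : Matrix ι ι F) *ᵥ x = x := by
      intro x h1 h2
      rw [hzf, h1, h2]
      simp
    have hdiff : (z : Matrix ι ι F) *ᵥ d - d = pol Q d y₁ • y₁ + (pol Q d y₁ + pol Q d y₂) • y₂ := by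
      rw [hzf]
      abel
    have h1 := hzH z y₂ hy₂ hz hfix (by rw [hdiff]; exact Y.add_mem (Y.smul_mem _ hy₁) (Y.smul_mem _ hy₂))
    have h2 : pol Q d y₁ • y₁ + (pol Q d y₁ + pol Q d y₂) • y₂ = 0 := by
      rw [← hdiff, h1, sub_self]
    have h3 := congrArg (pol Q y₂) h2
    rw [pol_add_right hQ, pol_smul_right hQ, pol_smul_right hQ, pol_self2 hQ hF, pol_symm hQ y₂ y₁, pol_zero_right hQ,
      f2_ne hF hp12] at h3
    have hA : pol Q d y₁ = 0 := by linear_combination h3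
    have h4 := congrArg (pol Q y₁) h2
    rw [pol_add_right hQ, pol_smul_right hQ, pol_smul_right hQ, pol_self2 hQ hF, pol_zero_right hQ, f2_ne hF hp12, hA] at h4
    have hB : pol Q d y₂ = 0 := by linear_combination h4
    exact hfinal y₂ hy₂ hnot hA hB
  · -- the field with three elements
    have h2F : (2 : F) ≠ 0 := by
      intro h2
      have := ringChar_two h2
      have h5 := ringChar_dvd (F := F)
      rw [this, hF] at h5
      omega
    have hOrt := finrank_Ort hQ Y y₁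
    obtain ⟨y₂, hy₂, hy₂0⟩ : ∃ y₂ ∈ Ort hQ Y y₁, y₂ ≠ 0 := by
      apply Submodule.exists_mem_ne_zero_of_ne_bot
      rintro he
      rw [he] at hOrt
      simp at hOrt
      omega
    obtain ⟨hy₂Y, hp12⟩ := (mem_Ort hQ).mp hy₂
    have hQy₂ := haniso y₂ hy₂Y hy₂0
    have hnot : y₂ ∉ Submodule.span F {y₁} := by
      intro hm
      obtain ⟨t, ht⟩ := Submodule.mem_span_singleton.mp hm
      have h1 := hp12
      rw [← ht, pol_smul_right hQ, pol_self hQ] at h1
      have ht0 : t = 0 := by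
        rcases mul_eq_zero.mp h1 with h | h
        · exact h
        · exact absurd h (mul_ne_zero h2F hQy₁)
      apply hy₂0
      rw [← ht, ht0, zero_smul]
    have heq : Q y₁ = Q y₂ := by
      by_contra hne
      have hs : Q y₁ + Q y₂ = 0 := by
        rcases f3_cases hF (Q y₁) with h1 | h1 | h1 <;> rcases f3_cases hF (Q y₂) with h2 | h2 | h2
        all_goals first
          | exact absurd h1 hQy₁
          | exact absurd h2 hQy₂
          | exact absurd (h1.trans h2.symm) hne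
          | (rw [h1, h2]; ring)
      have hsum0 : y₁ + y₂ ≠ 0 := by
        intro h0
        apply hnot
        have e : y₂ = (-1 : F) • y₁ := by
          rw [neg_one_smul]
          exact (eq_neg_of_add_eq_zero_right h0)
        rw [e]
        exact Submodule.smul_mem _ _ (Submodule.mem_span_singleton_self _)
      apply haniso _ (Y.add_mem hy₁ hy₂Y) hsum0
      rw [Q_add hQ, hp12, add_zero, hs]
    obtain ⟨z, hz, hzf⟩ := exists_rot3 hQ hn7 hQy₁ hQy₂ hp12 heq
    have hfix : ∀ x, pol Q x y₁ = 0 → pol Q x y₂ = 0 → (z : Matrix ι ι F) *ᵥ x = x := by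
      intro x h1 h2
      rw [hzf, h1, h2]
      simp
    have hdiff : (z : Matrix ι ι F) *ᵥ d - d = -(((Q y₂)⁻¹ * pol Q d y₂) • y₂ + ((Q y₁)⁻¹ * pol Q d y₁) • y₁) := by
      rw [hzf]
      abel
    have h1 := hzH z y₂ hy₂Y hz hfix (by
      rw [hdiff]
      exact Y.neg_mem (Y.add_mem (Y.smul_mem _ hy₂Y) (Y.smul_mem _ hy₁)))
    have h2 : ((Q y₂)⁻¹ * pol Q d y₂) • y₂ + ((Q y₁)⁻¹ * pol Q d y₁) • y₁ = 0 := by
      have := hdiff
      rw [h1, sub_self] at this
      exact neg_eq_zero.mp this.symm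
    have h3 := congrArg (pol Q y₁) h2
    rw [pol_add_right hQ, pol_smul_right hQ, pol_smul_right hQ, hp12, pol_self hQ, pol_zero_right hQ, mul_zero, zero_add] at h3
    have hA : pol Q d y₁ = 0 := by
      rcases mul_eq_zero.mp h3 with h | h
      · rcases mul_eq_zero.mp h with h | h
        · exact absurd h (inv_ne_zero hQy₁)
        · exact h
      · exact absurd h (mul_ne_zero h2F hQy₁)
    have h4 := congrArg (pol Q y₂) h2
    rw [pol_add_right hQ, pol_smul_right hQ, pol_smul_right hQ, pol_symm hQ y₂ y₁, hp12, pol_self hQ, pol_zero_right hQ, mul_zero, add_zero] at h4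
    have hB : pol Q d y₂ = 0 := by
      rcases mul_eq_zero.mp h4 with h | h
      · rcases mul_eq_zero.mp h with h | h
        · exact absurd h (inv_ne_zero hQy₂)
        · exact h
      · exact absurd h (mul_ne_zero h2F hQy₂)
    exact hfinal y₂ hy₂Y hnot hA hB

end dim8

end Cfsg.Agent.Lib.MinOmega
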