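/-
Assembly for the fields with two and three elements.
-/
import Cfsg.Agent.Lib.MinOmega.Rot
set_option autoImplicit false

namespace Cfsg.Agent.Lib.MinOmega

open Cfsg Cfsg.Geo Cfsg.Agent.Lib.Geo.Basic Cfsg.Agent.Lib.Geo.QForm Cfsg.Agent.Lib.GeoOmega.Basic
open Cfsg.Agent.Lib.GeoOmega.Eichler
open scoped MatrixGroups Matrix
open scoped _root_.Classical

variable {ι : Type} [Fintype ι] [DecidableEq ι] {F : Type*} [Field F] [Fintype F] {Q : (ι → F) → F}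
variable {hQ : IsNondegenerateQuadraticForm Q} {X : Type*} [Fintype X] {act : ↥(omegaGL Q) →* Equiv.Perm X}
  {ψ : AddChar F ℂ}

/-- The counting inequality behind the exclusion of totally singular members. -/
theorem ts_arith {M s κ A c₀ c Ns Xc : ℕ} (hM : 2 ≤ M) (hs1 : 1 ≤ s) (hsM : s ≤ M) (h1 : κ * (s - 1) = c * A) (hc : c₀ ≤ c)
    (h2 : κ * s ≤ Xc) (hgen : Ns * (M - 1) ≤ A * c₀ * M) : Ns ≤ Xc := by
  obtain ⟨K, rfl⟩ : ∃ K, M = K + 1 := ⟨M - 1, by omega⟩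
  obtain ⟨t, rfl⟩ : ∃ t, s = t + 1 := ⟨s - 1, by omega⟩
  simp only [Nat.add_sub_cancel] at h1 hgen
  have hK : 0 < K := by omega
  apply Nat.le_of_mul_le_mul_right _ hK
  calc Ns * K ≤ A * c₀ * (K + 1) := hgen
    _ ≤ A * c * (K + 1) := by gcongr
    _ = κ * t * (K + 1) := by rw [h1]; ring
    _ = κ * (t * (K + 1)) := by ring
    _ ≤ κ * ((t + 1) * K) := by
      apply Nat.mul_le_mul_left
      have : t ≤ K := by omega
      nlinarith
    _ = (κ * (t + 1)) * K := by ring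
    _ ≤ Xc * K := Nat.mul_le_mul_right _ h2

namespace Ctx

variable {v v' : ι → F} (C : Ctx hQ act ψ v v')
include C

/-- **No totally singular members**, sharp form. -/
theorem no_ts2 {Ns : ℕ} (hN : Fintype.card X < Ns) {w : ℕ}
    (hw : ∀ T : Submodule F (ι → F), (∀ x ∈ T, Q x = 0) → Module.finrank F T ≤ w + 2)
    {s' : ℕ} (hs' : ∀ u u' : ι → F, u ∈ WW hQ v v' → u' ∈ WW hQ v v' → Hyp Q u u' →
      s' ≤ (Sg Q (Ort hQ (Ort hQ (WW hQ v v') u) u')).card) {c₀ : ℕ}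
    (hc₀ : ∀ c, s' ≤ c * (Fintype.card F ^ w - 1) → c₀ ≤ c)
    (hgen : Ns * (Fintype.card F ^ (w + 1) - 1) ≤ (Sg Q (WW hQ v v')).card * c₀ * Fintype.card F ^ (w + 1))
    {S : Finset (ι → F)} (hS : S ∈ Sf hQ act ψ v v') : ¬ Ts Q S := by
  intro hTs
  obtain ⟨κ, c, hκ, h1, h2, h3⟩ := C.ts_numbers hS hTs hw hs'
  have h4 := hc₀ c h3
  have h5 := C.card_le_Xs' hS
  have hq : 2 ≤ Fintype.card F := Fintype.one_lt_card
  have hM : 2 ≤ Fintype.card F ^ (w + 1) := by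
    calc 2 ≤ Fintype.card F := hq
      _ = Fintype.card F ^ 1 := (pow_one _).symm
      _ ≤ _ := Nat.pow_le_pow_right (by omega) (by omega)
  have hsM : S.card ≤ Fintype.card F ^ (w + 1) := by
    rcases C.ts_span_card hw hS hTs with h | h
    · exact h.2.le
    · omega
  have hs1 : 1 ≤ S.card := Finset.card_pos.mpr ⟨0, C.Sf_zero hS⟩
  have h6 : κ * S.card ≤ Fintype.card X := (Nat.mul_le_mul_left _ h5).trans h2
  have := ts_arith hM hs1 hsM h1 h4 h6 hgen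
  omega

end Ctx

/-- **Small-orbit theorem for the fields with two and three elements.** -/
theorem main_small {D Pw N₀ Ns w s' c₀ : ℕ} (N : Num2 hQ D Pw N₀ Ns) (hq : Fintype.card F = 2 ∨ Fintype.card F = 3)
    (hψ : ∀ c : F, c ≠ 0 → ∃ t : F, ψ (t * c) ≠ 1) (hN : Fintype.card X < Ns)
    (htr : ∀ x y : X, ∃ g ∈ omegaGL Q, AA act g x = y)
    (hdim : ∀ a a' : ι → F, Hyp Q a a' → 6 ≤ Module.finrank F (WW hQ a a'))
    (hCl5 : ∀ a a' : ι → F, Hyp Q a a' → ∀ u ∈ WW hQ a a', Q u ≠ 0 → Ns ≤ 5 * (Cl hQ a a' u).card)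
    (hw : ∀ T : Submodule F (ι → F), (∀ x ∈ T, Q x = 0) → Module.finrank F T ≤ w + 2)
    (hs' : ∀ a a' : ι → F, Hyp Q a a' → ∀ u u' : ι → F, u ∈ WW hQ a a' → u' ∈ WW hQ a a' → Hyp Q u u' →
      s' ≤ (Sg Q (Ort hQ (Ort hQ (WW hQ a a') u) u')).card)
    (hc₀ : ∀ c, s' ≤ c * (Fintype.card F ^ w - 1) → c₀ ≤ c)
    (hgen : Ns * (Fintype.card F ^ (w + 1) - 1) ≤ (Fintype.card F - 1) * Pw * c₀ * Fintype.card F ^ (w + 1))
    (hno : ¬ ∀ a : ι → F, a ≠ 0 → Q a = 0 → ∀ x, RegAt hQ act a x)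
    {v v' : ι → F} (hvv' : Hyp Q v v') (x : X) {g : GL ι F} (hg : g ∈ omegaGL Q) : AA act g x = x := by
  refine core2 N hψ hN htr ?_ hno hvv' x hg
  intro a a' haa' S hS
  have C : Ctx hQ act ψ a a' := ⟨N.hn, hψ, haa'⟩
  have ht : (∀ x ∈ WW hQ a a', x ∈ S) ∨ Line S ∨ Ts Q S := by
    rcases hq with hF | hF
    · exact C.tri2 hF hN (hdim a a' haa') (hCl5 a a' haa') hS
    · exact C.tri3 (f3_three hF) hN (hdim a a' haa') (hCl5 a a' haa') hS
  rcases ht with h | h | h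
  · left
    ext y
    rw [mem_WF]
    exact ⟨fun hy => C.Sf_sub hS hy, h y⟩
  · exact Or.inr h
  · exfalso
    refine C.no_ts2 hN hw (hs' a a' haa') hc₀ ?_ hS h
    rw [N.hs a a' haa']
    exact hgen

end Cfsg.Agent.Lib.MinOmega
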