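/-
The minus type: assembling the numbers.
-/
import Cfsg.Agent.Lib.MinOmega.SmallMain
import Cfsg.Agent.Lib.MinOmega.NumM
import Cfsg.Agent.Lib.MinDeg.Minus
set_option autoImplicit false

namespace Cfsg.Agent.Lib.MinOmega

open Cfsg Cfsg.Geo Cfsg.Agent.Lib.Geo.Basic Cfsg.Agent.Lib.Geo.QForm Cfsg.Agent.Lib.GeoOmega.Basic
open Cfsg.Agent.Lib.GeoOmega.Eichler NumP NumM
open Cfsg.Agent.Lib.MinDeg.Minus (nd_minus pol_minus NN_ne NN_zero NL NS)
open Cfsg.Agent.Lib.MinDeg.Count (NN)
open scoped MatrixGroups Matrix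
open scoped _root_.Classical

universe u

variable {F : Type u} [Field F] [Fintype F]

section witt

variable {ι : Type} [Fintype ι] [DecidableEq ι] {Q : (ι → F) → F} (hQ : IsNondegenerateQuadraticForm Q)
include hQ

/-- The Witt bound across a hyperbolic pair. -/
theorem witt_up {w : ℕ} {R : Submodule F (ι → F)} {a b : ι → F}
    (hw : ∀ T : Submodule F (ι → F), T ≤ Ort hQ (Ort hQ R a) b → (∀ x ∈ T, Q x = 0) → Module.finrank F T ≤ w)
    (ha : a ∈ R) (h : Hyp Q a b) (T : Submodule F (ι → F)) (hT : T ≤ R) (hTs : ∀ x ∈ T, Q x = 0) :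
    Module.finrank F T ≤ w + 1 := by
  have hpolT : ∀ x ∈ T, ∀ y ∈ T, pol Q x y = 0 := by
    intro x hx y hy
    have h1 := Q_add hQ x y
    rw [hTs _ (T.add_mem hx hy), hTs x hx, hTs y hy] at h1
    linear_combination -h1
  by_cases haT : a ∈ T
  · have h1 := finrank_Ort hQ T b
    have h2 := hw (Ort hQ T b) ?_ (fun x hx => hTs x ((mem_Ort hQ).mp hx).1)
    · omega
    · intro x hx
      rw [mem_Ort hQ] at hx
      rw [mem_Ort hQ, mem_Ort hQ]
      exact ⟨⟨hT hx.1, hpolT a haT x hx.1⟩, hx.2⟩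
  · set T₁ := Ort hQ T a with hT₁
    have hT₁mem : ∀ x, x ∈ T₁ ↔ x ∈ T ∧ pol Q a x = 0 := fun x => mem_Ort hQ
    have h1 : Module.finrank F T ≤ Module.finrank F T₁ + 1 := finrank_Ort hQ T a
    have haT₁ : a ∉ T₁ := fun hm => haT ((hT₁mem a).mp hm).1
    have hT₃s := ts_sup hQ (T := T₁) (a := a) (fun x hx => hTs x ((hT₁mem x).mp hx).1) h.ha (fun x hx => by
      rw [pol_symm hQ]
      exact ((hT₁mem x).mp hx).2)
    have h2 := finrank_sup_singleton (T := T₁) haT₁
    set T₃ := T₁ ⊔ Submodule.span F {a} with hT₃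
    have h3 := finrank_Ort hQ T₃ b
    have h4 := hw (Ort hQ T₃ b) ?_ (fun x hx => hT₃s x ((mem_Ort hQ).mp hx).1)
    · omega
    · intro x hx
      rw [mem_Ort hQ] at hx
      rw [mem_Ort hQ, mem_Ort hQ]
      refine ⟨?_, hx.2⟩
      obtain ⟨y, hy, z, hz, rfl⟩ := Submodule.mem_sup.mp hx.1
      obtain ⟨t, rfl⟩ := Submodule.mem_span_singleton.mp hz
      obtain ⟨hy1, hy2⟩ := (hT₁mem y).mp hy
      refine ⟨R.add_mem (hT hy1) (R.smul_mem _ ha), ?_⟩
      rw [pol_add_right hQ, pol_smul_right hQ, hy2, pol_singular hQ h.ha]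
      ring

end witt

section minus

variable {c d : F} {j a : ℕ}

theorem minus_witt (hab : Cfsg.Agent.Lib.MinDeg.Minus.Aniso c d) (k : ℕ) (T : Submodule F ((Fin k ⊕ Fin k) ⊕ Fin 2 → F))
    (hT : ∀ x ∈ T, quadFormMinus k F c d x = 0) : Module.finrank F T ≤ k := by
  set hQ := nd_minus (m := k) hab with hQdef
  -- subspaces with prescribed support
  let R : Finset (Fin k) → Submodule F ((Fin k ⊕ Fin k) ⊕ Fin 2 → F) := fun J =>
    { carrier := {x | ∀ i, i ∉ J → x (Sum.inl (Sum.inl i)) = 0 ∧ x (Sum.inl (Sum.inr i)) = 0}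
      add_mem' := by
        intro x y hx hy i hi
        simp [(hx i hi).1, (hx i hi).2, (hy i hi).1, (hy i hi).2]
      zero_mem' := by
        intro i _
        simp
      smul_mem' := by
        intro t x hx i hi
        simp [(hx i hi).1, (hx i hi).2] }
  have hR : ∀ J x, x ∈ R J ↔ ∀ i, i ∉ J → x (Sum.inl (Sum.inl i)) = 0 ∧ x (Sum.inl (Sum.inr i)) = 0 := fun _ _ => Iff.rfl
  have hpol1 : ∀ (i : Fin k) y, pol (quadFormMinus k F c d) (Pi.single (Sum.inl (Sum.inl i)) 1) y = y (Sum.inl (Sum.inr i)) := by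
    intro i y
    rw [pol_minus]
    simp [Pi.single_apply]
  have hpol2 : ∀ (i : Fin k) y, pol (quadFormMinus k F c d) (Pi.single (Sum.inl (Sum.inr i)) 1) y = y (Sum.inl (Sum.inl i)) := by
    intro i y
    rw [pol_minus]
    simp [Pi.single_apply]
  have hQ1 : ∀ i : Fin k, quadFormMinus k F c d (Pi.single (Sum.inl (Sum.inl i)) 1) = 0 := by
    intro i
    simp [quadFormMinus, Pi.single_apply]
  have hQ2 : ∀ i : Fin k, quadFormMinus k F c d (Pi.single (Sum.inl (Sum.inr i)) 1) = 0 := by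
    intro i
    simp [quadFormMinus, Pi.single_apply]
  have key : ∀ J : Finset (Fin k), ∀ T : Submodule F ((Fin k ⊕ Fin k) ⊕ Fin 2 → F), T ≤ R J →
      (∀ x ∈ T, quadFormMinus k F c d x = 0) → Module.finrank F T ≤ J.card := by
    intro J
    induction J using Finset.induction_on with
    | empty =>
      intro T hTR hT
      have : T = ⊥ := by
        rw [Submodule.eq_bot_iff]
        intro x hx
        have h1 := (hR _ x).mp (hTR hx)
        have h2 := hT x hx
        have h3 : (∑ i : Fin k, x (Sum.inl (Sum.inl i)) * x (Sum.inl (Sum.inr i))) = 0 := by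
          apply Finset.sum_eq_zero
          intro i _
          rw [(h1 i (by simp)).1, zero_mul]
        rw [quadFormMinus, h3, zero_add] at h2
        obtain ⟨h4, h5⟩ := hab _ _ h2
        funext y
        rcases y with (i | i) | i
        · exact (h1 i (by simp)).1
        · exact (h1 i (by simp)).2
        · fin_cases i
          · exact h4
          · exact h5
      rw [this]
      simp
    | insert i J hi ih =>
      intro T hTR hT
      rw [Finset.card_insert_of_notMem hi]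
      refine witt_up hQ (R := R (insert i J)) (a := Pi.single (Sum.inl (Sum.inl i)) 1) (b := Pi.single (Sum.inl (Sum.inr i)) 1)
        ?_ ?_ ⟨hQ1 i, hQ2 i, ?_⟩ T hTR hT
      · intro T' hT' hT's
        refine ih T' ?_ hT's
        intro x hx
        have h1 := hT' hx
        rw [mem_Ort hQ, mem_Ort hQ, hpol1, hpol2] at h1
        rw [hR]
        intro i' hi'
        by_cases he : i' = i
        · rw [he]
          exact ⟨h1.2, h1.1.2⟩
        · exact (hR _ x).mp h1.1.1 i' (by simp [he, hi'])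
      · rw [hR]
        intro i' hi'
        have he : i' ≠ i := by
          rintro rfl
          simp at hi'
        simp [Pi.single_apply, he]
      · rw [hpol1]
        simp
  have h1 := key Finset.univ T (by
    intro x _
    rw [hR]
    intro i hi
    simp at hi) hT
  simpa using h1

theorem NR_top_NN {ι : Type} [Fintype ι] [DecidableEq ι] (Q : (ι → F) → F) (t : F) : NR Q ⊤ t = NN Q t := by
  rw [NR, NN]
  congr 1
  ext v
  simp [WF]

variable (hab : Cfsg.Agent.Lib.MinDeg.Minus.Aniso c d) (ha : Fintype.card F = a + 1)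

include ha hab

theorem minus_NR {t : F} (ht : t ≠ 0) :
    NR (quadFormMinus (j + 3) F c d) ⊤ t = (a + 1) ^ 3 * px a (GG (Fintype.card F) j) * ((a + 1) ^ 4 * px a (GG (Fintype.card F) j) + 1) := by
  rw [NR_top_NN, NN_ne hab ht, NL, px_eq ha, ha]
  ring

theorem minus_Sg :
    (Sg (quadFormMinus (j + 3) F c d) (⊤ : Submodule F ((Fin (j + 3) ⊕ Fin (j + 3)) ⊕ Fin 2 → F))).card =
      (Fintype.card F - 1) * mN0 a (GG (Fintype.card F) j) := by
  have h1 := card_Sg_add_one (nd_minus (m := j + 3) hab) (R := ⊤)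
  rw [NR_top_NN, NN_zero hab, NS] at h1
  have h2 : (Sg (quadFormMinus (j + 3) F c d) (⊤ : Submodule F ((Fin (j + 3) ⊕ Fin (j + 3)) ⊕ Fin 2 → F))).card =
      (Fintype.card F ^ (j + 3 + 1) + 1) * (Fintype.card F ^ (j + 3) - 1) := by omega
  rw [h2, ha, Nat.add_sub_cancel, M3]
  have h3 : a * pg0 a (GG (a + 1) j) + 1 = (a + 1) ^ (j + 3) := by
    rw [E3, px, GG_mul, pow_add]
    ring
  rw [← ha] at h3 ⊢
  rw [← h3, Nat.add_sub_cancel, px_eq ha, ha]
  ring

theorem minus_base : Base (nd_minus (m := j + 3) hab) (2 * j + 6) (mP2 a (GG (Fintype.card F) j))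
    (mPw a (GG (Fintype.card F) j)) (mN0 a (GG (Fintype.card F) j)) := by
  have hx := px_eq (k := j) ha
  refine ⟨?_, by omega, minus_Sg hab ha, ?_, ?_⟩
  · simp
    ring
  · rw [M1, ha, show (a + 1) ^ (2 * j + 6) = (a + 1) ^ 6 * ((a + 1) ^ j) ^ 2 by ring, ← ha, hx, ha]
  · rw [M2, ha, show 2 * j + 6 - 2 = 2 * j + 4 by omega, show (a + 1) ^ (2 * j + 4) = (a + 1) ^ 4 * ((a + 1) ^ j) ^ 2 by ring, ← ha, hx, ha]

theorem minus_hnV {t : F} (ht : t ≠ 0) : (Fintype.card F - 1) * Fintype.card F ^ (2 * j + 6) +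
    Fintype.card F * mn a (GG (Fintype.card F) j) ≤ NR (quadFormMinus (j + 3) F c d) ⊤ t := by
  have hx := px_eq (k := j) ha
  rw [minus_NR hab ha ht, ← M5]
  apply le_of_eq
  rw [ha, Nat.add_sub_cancel, show (a + 1) ^ (2 * j + 6) = (a + 1) ^ 6 * ((a + 1) ^ j) ^ 2 by ring, ← ha, hx, ha]
  ring

/-- The fine data. -/
theorem minus_fine (h3 : 3 ≤ a) : ∃ e, Fine (nd_minus (m := j + 3) hab) (2 * j + 6) (mP2 a (GG (Fintype.card F) j))
    (mPw a (GG (Fintype.card F) j)) (mN0 a (GG (Fintype.card F) j)) (mn a (GG (Fintype.card F) j)) e := by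
  set g := GG (Fintype.card F) j with hg
  have hx := px_eq (k := j) ha
  rw [← hg] at hx
  have hA : Fintype.card F - 1 = a := by rw [ha, Nat.add_sub_cancel]
  have hbase := minus_base (j := j) hab ha
  rw [← hg] at hbase
  have hqD : (a + 1) ^ (2 * j + 6) = (a + 1) ^ 6 * (px a g) ^ 2 := by
    rw [hx]
    ring
  have h2' : mN0 a g ≤ 2 * Fintype.card F ^ (2 * j + 6) := by
    rw [ha, hqD, ← mul_assoc]
    exact K1 (by omega)
  by_cases h2 : (2 : F) = 0
  · refine ⟨1, hbase, h2', fun t ht => minus_hnV hab ha ht, fun t _ => he_even h2 t, le_refl _, by rw [hA]; omega, ?_, ?_, fun _ => by omega⟩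
    · rw [hA, ha, one_mul]
      exact K2e h3
    · rw [hA, ringChar_two h2, one_mul]
      exact K3e h3
  · have hodd := odd_card_of h2
    have hq5 : 5 ≤ a + 1 := by
      rw [← ha] at *
      omega
    have hA4 : 4 ≤ a := by omega
    refine ⟨2, hbase, h2', fun t ht => minus_hnV hab ha ht, fun t _ => he_odd t, by omega, by rw [hA]; omega, ?_, ?_, fun h => absurd h h2⟩
    · rw [hA, ha]
      exact K2o hA4
    · rw [hA]
      have hp3 := ringChar_three h2
      have hdvd := ringChar_dvd (F := F)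
      have hp := CharP.char_is_prime F (ringChar F)
      by_cases h8 : 8 ≤ a
      · calc 2 * mN0 a g ≤ 3 * (a * mn a g) := K3o3 h8
          _ ≤ _ := Nat.mul_le_mul_right _ hp3
      · have ha46 : a = 4 ∨ a = 6 := by
          rw [ha] at hodd
          omega
        rcases ha46 with rfl | rfl
        · have h5 : ringChar F = 5 := by
            rw [ha] at hdvd
            exact (Nat.prime_dvd_prime_iff_eq hp (by norm_num)).mp hdvd
          rw [h5]
          exact K3o5
        · have h5 : ringChar F = 7 := by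
            rw [ha] at hdvd
            exact (Nat.prime_dvd_prime_iff_eq hp (by norm_num)).mp hdvd
          rw [h5]
          exact K3o7

omit hab in
theorem minus_c₀ {c' : ℕ} (hc : (Fintype.card F - 1) * mP2 a (GG (Fintype.card F) j) ≤ c' * (Fintype.card F ^ (j + 1) - 1))
    (ha1 : 1 ≤ a) : (a + 1) * (a + 1) * px a (GG (Fintype.card F) j) + 1 ≤ c' := by
  set G := GG (Fintype.card F) j with hG
  have hx := px_eq (k := j) ha
  rw [← hG] at hx
  have hA : Fintype.card F - 1 = a := by rw [ha, Nat.add_sub_cancel]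
  have h6 := E6 a G
  have h8 : (a + 1) ^ (j + 1) - 1 = a * pg2 a G := by
    rw [pow_succ, mul_comm, ← hx, ← h6, Nat.add_sub_cancel]
  rw [hA, ha, h8, M6, mul_comm c'] at hc
  exact Nat.le_of_mul_le_mul_left hc (Nat.mul_pos (by omega) (by rw [pg2]; omega))

end minus

/-- The small-orbit theorem for the minus type, large fields. -/
theorem minus_small {c d : F} {j a : ℕ} (hab : Cfsg.Agent.Lib.MinDeg.Minus.Aniso c d) (ha : Fintype.card F = a + 1) (h3 : 3 ≤ a)
    (X : Type u) [Fintype X] (act : omegaGL (quadFormMinus (j + 3) F c d) →* Equiv.Perm X)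
    (hN : Fintype.card X < mN0 a (GG (Fintype.card F) j))
    (htr : ∀ x y : X, ∃ g ∈ omegaGL (quadFormMinus (j + 3) F c d), AA act g x = y) :
    ∀ (x : X), ∀ g ∈ omegaGL (quadFormMinus (j + 3) F c d), AA act g x = x := by
  intro x g hg
  obtain ⟨e, hF⟩ := minus_fine (j := j) hab ha h3
  set hQ := nd_minus (m := j + 3) hab
  obtain ⟨ψ, hψ⟩ := exists_psi (F := F)
  obtain ⟨p, hp, hp0, hQp⟩ := exists_singular hQ (⊤ : Submodule F ((Fin (j + 3) ⊕ Fin (j + 3)) ⊕ Fin 2 → F)) (by simp; omega)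
  obtain ⟨p', -, hpp'⟩ := (Nd_top hQ).exists_partner hQ hp hp0 hQp
  have hA : Fintype.card F - 1 = a := by rw [ha, Nat.add_sub_cancel]
  refine hF.main_gen (c₀ := (a + 1) * (a + 1) * px a (GG (Fintype.card F) j) + 1) (w := j + 1) hψ hN htr
    (fun T hT => minus_witt hab (j + 3) T hT) (fun c hc => minus_c₀ ha hc (by omega)) ?_ hpp' x hg
  rw [hA]
  exact Kgen (by omega)

/-- The small-orbit theorem for the minus type, fields with two or three elements. -/
theorem minus_small2 {c d : F} {j a : ℕ} (hab : Cfsg.Agent.Lib.MinDeg.Minus.Aniso c d) (ha : Fintype.card F = a + 1) (h12 : a = 1 ∨ a = 2)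
    (X : Type u) [Fintype X] (act : omegaGL (quadFormMinus (j + 3) F c d) →* Equiv.Perm X)
    (hN : Fintype.card X < mN0 a (GG (Fintype.card F) j))
    (htr : ∀ x y : X, ∃ g ∈ omegaGL (quadFormMinus (j + 3) F c d), AA act g x = y) :
    ∀ (x : X), ∀ g ∈ omegaGL (quadFormMinus (j + 3) F c d), AA act g x = x := by
  intro x g hg
  have hB := minus_base (j := j) hab ha
  set hQ := nd_minus (m := j + 3) hab
  obtain ⟨ψ, hψ⟩ := exists_psi (F := F)
  obtain ⟨p, hp, hp0, hQp⟩ := exists_singular hQ (⊤ : Submodule F ((Fin (j + 3) ⊕ Fin (j + 3)) ⊕ Fin 2 → F)) (by simp; omega)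
  obtain ⟨p', -, hpp'⟩ := (Nd_top hQ).exists_partner hQ hp hp0 hQp
  have hA : Fintype.card F - 1 = a := by rw [ha, Nat.add_sub_cancel]
  set G := GG (Fintype.card F) j with hG
  have hx := px_eq (k := j) ha
  rw [← hG] at hx
  have hqD : (a + 1) ^ (2 * j + 6) = (a + 1) ^ 6 * (px a G) ^ 2 := by
    rw [hx]
    ring
  have hcardι : Fintype.card ((Fin (j + 3) ⊕ Fin (j + 3)) ⊕ Fin 2) = 2 * j + 8 := by
    simp
    ring
  have he : ∀ t : F, t ≠ 0 → (Finset.univ.filter fun m : F => m ≠ 0 ∧ m ^ 2 = t).card ≤ a := by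
    intro t _
    rcases h12 with rfl | rfl
    · apply he_even
      exact f2_two (by rw [ha])
    · exact he_odd t
  have hn_le : ∀ {v v' : (Fin (j + 3) ⊕ Fin (j + 3)) ⊕ Fin 2 → F}, Hyp (quadFormMinus (j + 3) F c d) v v' → ∀ {t : F}, t ≠ 0 →
      mn a G ≤ NR (quadFormMinus (j + 3) F c d) (WW hQ v v') t := by
    intro v v' h t ht
    have h1 := split_NR hQ (R := ⊤) (a := v) (b := v') trivial trivial h t
    have h2 := minus_hnV (j := j) hab ha ht
    have e1 : WF (Ort hQ (Ort hQ ⊤ v) v') = WF (WW hQ v v') := rfl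
    have e2 : NR (quadFormMinus (j + 3) F c d) (Ort hQ (Ort hQ ⊤ v) v') t = NR (quadFormMinus (j + 3) F c d) (WW hQ v v') t := rfl
    rw [e1, e2, hB.card_W h] at h1
    rw [h1] at h2
    have h3 := Nat.le_of_add_le_add_left h2
    exact Nat.le_of_mul_le_mul_left h3 Fintype.card_pos
  have hCl : ∀ {v v' : (Fin (j + 3) ⊕ Fin (j + 3)) ⊕ Fin 2 → F}, Hyp (quadFormMinus (j + 3) F c d) v v' →
      ∀ {u : (Fin (j + 3) ⊕ Fin (j + 3)) ⊕ Fin 2 → F}, quadFormMinus (j + 3) F c d u ≠ 0 → mn a G ≤ (Cl hQ v v' u).card := by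
    intro v v' h u hQu
    have h1 := Cl_bound (hQ := hQ) (n := mn a G) (e := a) (v := v) (v' := v') hQu (fun _ ht => hn_le h ht) he
    rw [hA] at h1
    exact Nat.le_of_mul_le_mul_left h1 (by rcases h12 with rfl | rfl <;> omega)
  have hPw : mPw a G = 1 + Fintype.card F * (Fintype.card F ^ (2 * j + 3) + mP2 a G) := by
    have := hB.hPw
    rw [show 2 * j + 6 - 2 = 2 * j + 4 by omega] at this
    rw [this]
    ring
  have hK1 : mN0 a G ≤ 2 * Fintype.card F ^ (2 * j + 6) := by
    rw [ha, hqD, ← mul_assoc]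
    exact K1 (by rcases h12 with rfl | rfl <;> omega)
  have N : Num2 hQ (2 * j + 6) (mPw a G) (mN0 a G) (mN0 a G) := by
    refine ⟨by omega, fun _ _ h => hB.card_W h, fun _ _ h => hB.card_Sg_W h, hB.hZ, hB.hN₀, le_refl _, hK1, ?_, ⟨_, hPw⟩, by omega⟩
    intro v v' h u _ hQu
    have h1 := hCl h hQu
    have h2 : mN0 a G - 1 - Fintype.card F ^ (2 * j + 6) = Fintype.card F * mPw a G := by
      rw [hB.hN₀]
      omega
    rw [h2, hA]
    have h3 : a * mPw a G < (Cl hQ v v' u).card := by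
      refine lt_of_lt_of_le ?_ h1
      rcases h12 with rfl | rfl
      · exact S1a
      · exact S1b
    calc a * (Fintype.card F * mPw a G) = Fintype.card F * (a * mPw a G) := by ring
      _ < _ := Nat.mul_lt_mul_of_pos_left h3 Fintype.card_pos
  have hq : Fintype.card F = 2 ∨ Fintype.card F = 3 := by
    rcases h12 with rfl | rfl
    · left; rw [ha]
    · right; rw [ha]
  refine main_small N hq hψ hN htr (w := j + 1) (s' := (Fintype.card F - 1) * mP2 a G) (c₀ := (a + 1) * (a + 1) * px a G + 1) ?_ ?_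
    (fun T hT => minus_witt hab (j + 3) T hT) ?_ (fun c hc => minus_c₀ ha hc (by rcases h12 with rfl | rfl <;> omega)) ?_ ?_ hpp' x hg
  · intro v v' _
    have := finrank_WW hQ v v'
    omega
  · intro v v' h u _ hQu
    have h1 := hCl h hQu
    have h2 : mN0 a G ≤ 5 * mn a G := by
      rcases h12 with rfl | rfl
      · exact S5a
      · exact S5b
    omega
  · intro v v' h u u' hu hu' huu'
    rw [hB.card_Sg_W₂ h hu hu' huu']
  · rw [hA]
    have h1 : mN0 a G ≤ a * mPw a G * ((a + 1) * (a + 1) * px a G + 1) := Kgen (by rcases h12 with rfl | rfl <;> omega)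
    calc mN0 a G * (Fintype.card F ^ (j + 1 + 1) - 1) ≤ mN0 a G * Fintype.card F ^ (j + 1 + 1) :=
          Nat.mul_le_mul_left _ (Nat.sub_le _ _)
      _ ≤ _ := Nat.mul_le_mul_right _ h1
  · intro hR
    have hw2 : Fintype.card X < 2 * (WF (WW hQ p p')).card := by
      rw [hB.card_W hpp']
      exact hN.trans_le hK1
    rcases Nat.eq_zero_or_pos j with rfl | hj
    · exact no_reg_minus8 hpp' (by rw [hcardι]) exists_psi (fun T hT => minus_witt hab 3 T hT) hq hw2 x hR
    · refine no_reg_large hpp' (by omega) exists_psi ?_ hw2 x hR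
      have := finrank_WW hQ p p'
      omega

/-- The minimal index for the minus type. -/
theorem minus_lower {c d : F} {j a : ℕ} (hab : Cfsg.Agent.Lib.MinDeg.Minus.Aniso c d) (ha : Fintype.card F = a + 1) (h1 : 1 ≤ a)
    (K : Subgroup (POmega F (quadFormMinus (j + 3) F c d))) (hK : K ≠ ⊤) : mN0 a (GG (Fintype.card F) j) ≤ K.index := by
  refine index_lower (Q := quadFormMinus (j + 3) F c d) (fun X _ act hN htr => ?_) K hK
  by_cases h3 : 3 ≤ a
  · exact minus_small hab ha h3 X act hN htr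
  · exact minus_small2 hab ha (by omega) X act hN htr

theorem minus_exists {c d : F} {j a : ℕ} (hab : Cfsg.Agent.Lib.MinDeg.Minus.Aniso c d) (ha : Fintype.card F = a + 1) :
    ∃ H : Subgroup (POmega F (quadFormMinus (j + 3) F c d)), H.index = mN0 a (GG (Fintype.card F) j) := by
  set hQ := nd_minus (m := j + 3) hab
  obtain ⟨p, hp, hp0, hQp⟩ := exists_singular hQ (⊤ : Submodule F ((Fin (j + 3) ⊕ Fin (j + 3)) ⊕ Fin 2 → F)) (by simp; omega)
  obtain ⟨p', -, hpp'⟩ := (Nd_top hQ).exists_partner hQ hp hp0 hQp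
  exact exists_index hQ (by simp; omega) hpp' (minus_Sg hab ha)

theorem minus_num {a j : ℕ} (h1 : 1 ≤ a) :
    ((a + 1) ^ (j + 4) + 1) * ((a + 1) ^ (j + 4 - 1) - 1) / (a + 1 - 1) = mN0 a (GG (a + 1) j) := by
  have hx : px a (GG (a + 1) j) = (a + 1) ^ j := by rw [px, GG_mul]
  have h2 : (a + 1) ^ (j + 3) - 1 = a * pg0 a (GG (a + 1) j) := by
    have h3 := E3 a (GG (a + 1) j)
    rw [hx] at h3
    have h4 : (a + 1) ^ (j + 3) = (a + 1) ^ 3 * (a + 1) ^ j := by ring
    rw [h4, ← h3, Nat.add_sub_cancel]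
  rw [show j + 4 - 1 = j + 3 by omega, h2, Nat.add_sub_cancel]
  have e : ((a + 1) ^ (j + 4) + 1) * (a * pg0 a (GG (a + 1) j)) = a * mN0 a (GG (a + 1) j) := by
    rw [M3, hx]
    ring
  rw [e, Nat.mul_div_cancel_left _ (by omega : 0 < a)]

end Cfsg.Agent.Lib.MinOmega
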