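/-
The seven-dimensional orthogonal group over the field with three elements: orthonormal frames,
commutators of Eichler elements and the members through a vector of norm one.
-/
import Cfsg.Agent.Lib.MinOmega.SmallMain
set_option autoImplicit false

namespace Cfsg.Agent.Lib.MinOmega

theorem fin5a : ∀ k l : Fin 5, k ≠ 0 → l ≠ 0 → k ≠ l → ∃ i j : Fin 5, i ≠ 0 ∧ j ≠ 0 ∧ i ≠ j ∧ i ≠ k ∧ i ≠ l ∧ j ≠ k ∧ j ≠ l := by
  set_option synthInstance.maxHeartbeats 200000 in
  set_option synthInstance.maxSize 2000 in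
  decide

theorem fin5b : ∀ k : Fin 5, k ≠ 0 → ∃ l : Fin 5, l ≠ 0 ∧ k ≠ l := by
  decide

open Cfsg Cfsg.Geo Cfsg.Agent.Lib.Geo.Basic Cfsg.Agent.Lib.Geo.QForm Cfsg.Agent.Lib.GeoOmega.Basic
open Cfsg.Agent.Lib.GeoOmega.Eichler
open scoped MatrixGroups Matrix
open scoped _root_.Classical
open scoped commutatorElement

section perm

theorem perm3_comm : ∀ σ τ : Equiv.Perm (Fin 3), σ ^ 3 = 1 → τ ^ 3 = 1 → ⁅σ, τ⁆ = 1 := by
  decide +kernel

/-- Order three elements on at most three points commute. -/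
theorem perm_three' {A : Type*} [Finite A] (hA : Nat.card A ≤ 3) (σ τ : Equiv.Perm A) (h1 : σ ^ 3 = 1) (h2 : τ ^ 3 = 1) :
    ⁅σ, τ⁆ = 1 := by
  haveI := Fintype.ofFinite A
  have hc : Fintype.card A ≤ Fintype.card (Fin 3) := by
    simpa [Nat.card_eq_fintype_card] using hA
  obtain ⟨e⟩ := Function.Embedding.nonempty_of_card_le hc
  apply Equiv.Perm.viaEmbeddingHom_injective e
  rw [map_one, map_commutatorElement]
  apply perm3_comm
  · rw [← map_pow, h1, map_one]
  · rw [← map_pow, h2, map_one]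

end perm

variable {ι : Type} [Fintype ι] [DecidableEq ι] {F : Type*} [Field F] [Fintype F] {Q : (ι → F) → F}

/-- A hyperbolic frame of rank two. -/
structure Fr4 (Q : (ι → F) → F) (e₁ f₁ e₂ f₂ : ι → F) : Prop where
  h1 : Hyp Q e₁ f₁
  h2 : Hyp Q e₂ f₂
  e1e2 : pol Q e₁ e₂ = 0
  e1f2 : pol Q e₁ f₂ = 0
  f1e2 : pol Q f₁ e₂ = 0
  f1f2 : pol Q f₁ f₂ = 0

section comm

variable (hQ : IsNondegenerateQuadraticForm Q)
include hQ

theorem rr_inv' {p b : ι → F} (hp : Q p = 0) (hb : pol Q p b = 0) : (rr hQ p b)⁻¹ = rr hQ p (-b) := by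
  have h0 : pol Q p (-b) = 0 := by rw [pol_neg_right hQ, hb, neg_zero]
  have h1 : rr hQ p b * rr hQ p (-b) = 1 := by
    rw [← rr_add hQ hp hb h0, add_neg_cancel, rr_zero hQ hp]
  exact inv_eq_of_mul_eq_one_right h1

/-- The commutator of two Eichler elements of a hyperbolic frame. -/
theorem comm_formula {e₁ f₁ e₂ f₂ : ι → F} (Fr : Fr4 Q e₁ f₁ e₂ f₂) (z : ι → F) :
    ((⁅rr hQ e₁ e₂, rr hQ f₁ (-f₂)⁆ : GL ι F) : Matrix ι ι F) *ᵥ z =
      z + (2 * pol Q z f₁ - pol Q z e₂) • e₁ + (pol Q z e₁ + 2 * pol Q z f₂) • e₂ - (pol Q z f₂ + pol Q z e₁) • f₁ +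
        (pol Q z f₁ - pol Q z e₂) • f₂ := by
  have hE1 := Fr.h1.ha
  have hF1 := Fr.h1.hb
  have hE2 := Fr.h2.ha
  have hF2 := Fr.h2.hb
  have h11 := Fr.h1.hab
  have h22 := Fr.h2.hab
  have h11' : pol Q f₁ e₁ = 1 := by rw [pol_symm hQ, h11]
  have h22' : pol Q f₂ e₂ = 1 := by rw [pol_symm hQ, h22]
  have a1 := Fr.e1e2
  have a2 := Fr.e1f2
  have a3 := Fr.f1e2
  have a4 := Fr.f1f2
  have a1' : pol Q e₂ e₁ = 0 := by rw [pol_symm hQ, a1]
  have a2' : pol Q f₂ e₁ = 0 := by rw [pol_symm hQ, a2]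
  have a3' : pol Q e₂ f₁ = 0 := by rw [pol_symm hQ, a3]
  have a4' : pol Q f₂ f₁ = 0 := by rw [pol_symm hQ, a4]
  have s1 := pol_singular hQ hE1
  have s2 := pol_singular hQ hE2
  have s3 := pol_singular hQ hF1
  have s4 := pol_singular hQ hF2
  have hneg1 : pol Q f₁ (-f₂) = 0 := by rw [pol_neg_right hQ, a4, neg_zero]
  have hneg2 : pol Q e₁ (-e₂) = 0 := by rw [pol_neg_right hQ, a1, neg_zero]
  have hinv1 : (rr hQ e₁ e₂)⁻¹ = rr hQ e₁ (-e₂) := rr_inv' hQ hE1 a1
  have hinv2 : (rr hQ f₁ (-f₂))⁻¹ = rr hQ f₁ f₂ := by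
    rw [rr_inv' hQ hF1 hneg1, neg_neg]
  rw [commutatorElement_def, hinv1, hinv2]
  simp only [Units.val_mul, ← Matrix.mulVec_mulVec]
  rw [rr_mulVec hQ hF1 a4, rr_mulVec hQ hE1 hneg2, rr_mulVec hQ hF1 hneg1, rr_mulVec hQ hE1 a1]
  have hn : ∀ x : ι → F, Q (-x) = Q x := fun x => by
    have := hQ.smul (-1) x
    simpa using this
  simp only [eE, hn, hE2, hF2, pol_add_left hQ, pol_sub_left hQ, pol_smul_left hQ, pol_neg_right hQ, pol_neg_left hQ, h11, h22, h11', h22', a1, a2, a3, a4, a1', a2', a3', a4', s1, s2, s3, s4]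
  module

end comm

/-- Four orthonormal vectors. -/
structure Or4 (Q : (ι → F) → F) (I J P R : ι → F) : Prop where
  hI : Q I = 1
  hJ : Q J = 1
  hP : Q P = 1
  hR : Q R = 1
  IJ : pol Q I J = 0
  IP : pol Q I P = 0
  IR : pol Q I R = 0
  JP : pol Q J P = 0
  JR : pol Q J R = 0
  PR : pol Q P R = 0

section or4

variable (hQ : IsNondegenerateQuadraticForm Q) (h3 : (3 : F) = 0) {I J P R : ι → F} (O : Or4 Q I J P R)
include hQ h3 O

theorem Or4.frame : Fr4 Q (I + P + R) (I - P - R) (J + P - R) (J - P + R) := by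
  have hI := O.hI
  have hJ := O.hJ
  have hP := O.hP
  have hR := O.hR
  have a1 := O.IJ
  have a2 := O.IP
  have a3 := O.IR
  have a4 := O.JP
  have a5 := O.JR
  have a6 := O.PR
  have b1 : pol Q J I = 0 := by rw [pol_symm hQ, a1]
  have b2 : pol Q P I = 0 := by rw [pol_symm hQ, a2]
  have b3 : pol Q R I = 0 := by rw [pol_symm hQ, a3]
  have b4 : pol Q P J = 0 := by rw [pol_symm hQ, a4]
  have b5 : pol Q R J = 0 := by rw [pol_symm hQ, a5]
  have b6 : pol Q R P = 0 := by rw [pol_symm hQ, a6]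
  have s1 : pol Q I I = 2 := by rw [pol_self hQ, hI, mul_one]
  have s2 : pol Q J J = 2 := by rw [pol_self hQ, hJ, mul_one]
  have s3 : pol Q P P = 2 := by rw [pol_self hQ, hP, mul_one]
  have s4 : pol Q R R = 2 := by rw [pol_self hQ, hR, mul_one]
  refine ⟨⟨?_, ?_, ?_⟩, ⟨?_, ?_, ?_⟩, ?_, ?_, ?_, ?_⟩
  · simp only [Q_add hQ, pol_add_left hQ, hI, hP, hR, a2, a3, a6]
    linear_combination h3
  · simp only [Q_sub hQ, pol_sub_left hQ, hI, hP, hR, a2, a3, a6]
    linear_combination h3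
  · simp only [pol_add_left hQ, pol_sub_right hQ, a2, a3, a6, b2, b3, b6, s1, s3, s4]
    linear_combination -h3
  · simp only [Q_add hQ, Q_sub hQ, pol_add_left hQ, hJ, hP, hR, a4, a5, a6]
    linear_combination h3
  · simp only [Q_add hQ, Q_sub hQ, pol_sub_left hQ, hJ, hP, hR, a4, a5, a6]
    linear_combination h3
  · simp only [pol_add_left hQ, pol_sub_left hQ, pol_add_right hQ, pol_sub_right hQ, a4, a5, a6, b4, b5, b6, s2, s3, s4]
    linear_combination -h3
  · simp only [pol_add_left hQ, pol_sub_left hQ, pol_add_right hQ, pol_sub_right hQ, a1, a2, a3, a4, a5, a6, b1, b2, b3, b4, b5, b6, s1, s2, s3, s4]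
    ring
  · simp only [pol_add_left hQ, pol_sub_left hQ, pol_add_right hQ, pol_sub_right hQ, a1, a2, a3, a4, a5, a6, b1, b2, b3, b4, b5, b6, s1, s2, s3, s4]
    ring
  · simp only [pol_add_left hQ, pol_sub_left hQ, pol_add_right hQ, pol_sub_right hQ, a1, a2, a3, a4, a5, a6, b1, b2, b3, b4, b5, b6, s1, s2, s3, s4]
    ring
  · simp only [pol_add_left hQ, pol_sub_left hQ, pol_add_right hQ, pol_sub_right hQ, a1, a2, a3, a4, a5, a6, b1, b2, b3, b4, b5, b6, s1, s2, s3, s4]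
    ring

/-- The commutator in an orthonormal frame. -/
theorem Or4.comm_formula (z : ι → F) :
    ((⁅rr hQ (I + P + R) (J + P - R), rr hQ (I - P - R) (-(J - P + R))⁆ : GL ι F) : Matrix ι ι F) *ᵥ z =
      z + (pol Q z I + pol Q z J) • I + (pol Q z J - pol Q z I) • J + (pol Q z P + pol Q z R) • P +
        (pol Q z R - pol Q z P) • R := by
  rw [Cfsg.Agent.Lib.MinOmega.comm_formula hQ (O.frame hQ h3)]
  simp only [pol_add_right hQ, pol_sub_right hQ]
  set a := pol Q z I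
  set b := pol Q z J
  set c := pol Q z P
  set d := pol Q z R
  have e : ∀ x : ι → F, (3 : F) • x = 0 := fun x => by rw [h3, zero_smul]
  linear_combination (norm := module) (-b - c - d) • e I + (a - c + d) • e J + (a + b - c + d) • e P + (a - b - c - d) • e R

end or4

namespace Ctx

variable {hQ : IsNondegenerateQuadraticForm Q} {X : Type*} [Fintype X] {act : ↥(omegaGL Q) →* Equiv.Perm X}
  {ψ : AddChar F ℂ} {v v' : ι → F} (C : Ctx hQ act ψ v v')

include C

/-- **The members through a vector lying on at most three members.** -/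
theorem psi_mem (h3 : (3 : F) = 0) {u : ι → F} (hu : u ∈ WW hQ v v') (haa : aa (Sf hQ act ψ v v') u ≤ 3)
    {I J P R : ι → F} (O : Or4 Q I J P R) (hI : I ∈ WW hQ v v') (hJ : J ∈ WW hQ v v') (hP : P ∈ WW hQ v v') (hR : R ∈ WW hQ v v')
    (huI : pol Q u I = 0) (huJ : pol Q u J = 0) (huP : pol Q u P = 0) (huR : pol Q u R = 0)
    {S : Finset (ι → F)} (hS : S ∈ Sf hQ act ψ v v') (huS : u ∈ S) {z : ι → F} (hz : z ∈ S) :
    z + (pol Q z I + pol Q z J) • I + (pol Q z J - pol Q z I) • J + (pol Q z P + pol Q z R) • P +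
        (pol Q z R - pol Q z P) • R ∈ S := by
  have Fr := O.frame hQ h3
  set W := WW hQ v v' with hW
  have hE1 : I + P + R ∈ W := W.add_mem (W.add_mem hI hP) hR
  have hF1 : I - P - R ∈ W := W.sub_mem (W.sub_mem hI hP) hR
  have hE2 : J + P - R ∈ W := W.sub_mem (W.add_mem hJ hP) hR
  have hF2 : J - P + R ∈ W := W.add_mem (W.sub_mem hJ hP) hR
  have hF2' : -(J - P + R) ∈ W := W.neg_mem hF2
  have hneg : pol Q (I - P - R) (-(J - P + R)) = 0 := by rw [pol_neg_right hQ, Fr.f1f2, neg_zero]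
  have hσm : rr hQ (I + P + R) (J + P - R) ∈ LL Q v v' u :=
    C.rr_LL hE1 hE2 Fr.h1.ha Fr.e1e2 (by simp only [pol_add_right hQ, huI, huP, huR]; ring)
      (by simp only [pol_add_right hQ, pol_sub_right hQ, huJ, huP, huR]; ring)
  have hρm : rr hQ (I - P - R) (-(J - P + R)) ∈ LL Q v v' u :=
    C.rr_LL hF1 hF2' Fr.h1.hb hneg (by simp only [pol_sub_right hQ, huI, huP, huR]; ring)
      (by simp only [pol_neg_right hQ, pol_add_right hQ, pol_sub_right hQ, huJ, huP, huR]; ring)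
  have hpow : ∀ (c d : ι → F) (hm : rr hQ c d ∈ LL Q v v' u), Q c = 0 → pol Q c d = 0 → (⟨_, hm⟩ : ↥(LL Q v v' u)) ^ 3 = 1 := by
    intro c d hm h4 h5
    apply Subtype.ext
    rw [Subgroup.coe_pow]
    exact rr_pow_three hQ h3 h4 h5
  have hP' : C.Phi u ⁅(⟨_, hσm⟩ : ↥(LL Q v v' u)), (⟨_, hρm⟩ : ↥(LL Q v v' u))⁆ = 1 := by
    rw [map_commutatorElement]
    apply perm_three'
    · rw [C.card_members]
      exact haa
    · rw [← map_pow, hpow _ _ _ Fr.h1.ha Fr.e1e2, map_one]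
    · rw [← map_pow, hpow _ _ _ Fr.h1.hb hneg, map_one]
  have h1 := C.Phi_image hP' hS huS
  have h2 : ((⁅rr hQ (I + P + R) (J + P - R), rr hQ (I - P - R) (-(J - P + R))⁆ : GL ι F) : Matrix ι ι F) *ᵥ z ∈ S := by
    have : ((⁅rr hQ (I + P + R) (J + P - R), rr hQ (I - P - R) (-(J - P + R))⁆ : GL ι F) : Matrix ι ι F) *ᵥ z ∈
        S.image (fun x => (((⁅(⟨_, hσm⟩ : ↥(LL Q v v' u)), (⟨_, hρm⟩ : ↥(LL Q v v' u))⁆ : ↥(LL Q v v' u)) : GL ι F) : Matrix ι ι F) *ᵥ x) :=
      Finset.mem_image.mpr ⟨z, hz, rfl⟩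
    rwa [h1] at this
  rwa [O.comm_formula hQ h3] at h2

end Ctx

/-- An orthonormal family of five vectors. -/
structure ONB (Q : (ι → F) → F) (W : Submodule F (ι → F)) (y : Fin 5 → ι → F) : Prop where
  mem : ∀ i, y i ∈ W
  norm : ∀ i, Q (y i) = 1
  orth : ∀ i j, i ≠ j → pol Q (y i) (y j) = 0

section onb

variable (hQ : IsNondegenerateQuadraticForm Q) (h3 : (3 : F) = 0) {W : Submodule F (ι → F)} {y : Fin 5 → ι → F} (hy : ONB Q W y)
include hy

omit [Fintype F] in
theorem ONB.or4 {i j k l : Fin 5} (hij : i ≠ j) (hik : i ≠ k) (hil : i ≠ l) (hjk : j ≠ k) (hjl : j ≠ l) (hkl : k ≠ l) :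
    Or4 Q (y i) (y j) (y k) (y l) :=
  ⟨hy.norm i, hy.norm j, hy.norm k, hy.norm l, hy.orth _ _ hij, hy.orth _ _ hik, hy.orth _ _ hil, hy.orth _ _ hjk,
    hy.orth _ _ hjl, hy.orth _ _ hkl⟩

include hQ h3

omit [Fintype F] in
theorem ONB.pol_self' (i : Fin 5) : pol Q (y i) (y i) = -1 := by
  rw [pol_self hQ, hy.norm, mul_one]
  linear_combination h3

/-- An expansion. -/
theorem ONB.pol_sum (c : Fin 5 → F) (j : Fin 5) : pol Q (∑ i, c i • y i) (y j) = - c j := by
  have h1 : ∀ s : Finset (Fin 5), pol Q (∑ i ∈ s, c i • y i) (y j) = ∑ i ∈ s, c i * pol Q (y i) (y j) := by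
    intro s
    induction s using Finset.induction_on with
    | empty => simp [pol_zero_left hQ]
    | insert a s ha ih =>
      rw [Finset.sum_insert ha, Finset.sum_insert ha, pol_add_left hQ, pol_smul_left hQ, ih]
  rw [h1, Finset.sum_eq_single j]
  · rw [hy.pol_self' hQ h3]
    ring
  · intro i _ hij
    rw [hy.orth i j hij, mul_zero]
  · intro h
    exact absurd (Finset.mem_univ _) h

/-- Completeness. -/
theorem ONB.complete (hfin : Module.finrank F W ≤ 5) {x : ι → F} (hx : x ∈ W) : x = ∑ i, (- pol Q x (y i)) • y i := by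
  have hli : LinearIndependent F y := by
    rw [Fintype.linearIndependent_iff]
    intro c hc j
    have h1 := hy.pol_sum hQ h3 c j
    rw [hc, pol_zero_left hQ] at h1
    exact neg_eq_zero.mp h1.symm
  have hspan : Submodule.span F (Set.range y) = W := by
    refine Submodule.eq_of_le_of_finrank_le ?_ ?_
    · rw [Submodule.span_le]
      rintro _ ⟨i, rfl⟩
      exact hy.mem i
    · rw [finrank_span_eq_card hli]
      simpa using hfin
  rw [← hspan] at hx
  obtain ⟨c, rfl⟩ := (Submodule.mem_span_range_iff_exists_fun F).mp hx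
  refine Finset.sum_congr rfl fun i _ => ?_
  rw [hy.pol_sum hQ h3, neg_neg]

end onb

namespace Ctx

variable {hQ : IsNondegenerateQuadraticForm Q} {X : Type*} [Fintype X] {act : ↥(omegaGL Q) →* Equiv.Perm X}
  {ψ : AddChar F ℂ} {v v' : ι → F} (C : Ctx hQ act ψ v v')

include C

/-- Closure under scalars. -/
theorem Sf_smul3 (hF : Fintype.card F = 3) {S : Finset (ι → F)} (hS : S ∈ Sf hQ act ψ v v') (t : F) {x : ι → F} (hx : x ∈ S) :
    t • x ∈ S := by
  rcases f3_cases hF t with rfl | rfl | rfl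
  · rw [zero_smul]
    exact C.Sf_zero hS
  · rwa [one_smul]
  · rw [neg_one_smul]
    exact C.Sf_neg hS hx

/-- **The dichotomy for a member through a vector on at most three members.** -/
theorem onb_dich (hF : Fintype.card F = 3) (hfin : Module.finrank F (WW hQ v v') ≤ 5) {y : Fin 5 → ι → F}
    (hy : ONB Q (WW hQ v v') y) (haa : aa (Sf hQ act ψ v v') (y 0) ≤ 3) {S : Finset (ι → F)} (hS : S ∈ Sf hQ act ψ v v')
    (hu : y 0 ∈ S) : (∀ x ∈ S, x ∈ Submodule.span F {y 0}) ∨ ∀ x ∈ WW hQ v v', x ∈ S := by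
  have h3 := f3_three hF
  have hadd : ∀ {x x' : ι → F}, x ∈ S → x' ∈ S → x + x' ∈ S := fun hx hx' => C.Sf_add hS hx hx'
  have hsmul : ∀ (t : F) {x : ι → F}, x ∈ S → t • x ∈ S := fun t _ hx => C.Sf_smul3 hF hS t hx
  have hneg : ∀ {x : ι → F}, x ∈ S → -x ∈ S := fun hx => C.Sf_neg hS hx
  have hself := hy.pol_self' hQ h3
  have hψ : ∀ {i j k l : Fin 5}, i ≠ 0 → j ≠ 0 → k ≠ 0 → l ≠ 0 → i ≠ j → i ≠ k → i ≠ l → j ≠ k → j ≠ l → k ≠ l → ∀ {z : ι → F}, z ∈ S →
      z + (pol Q z (y i) + pol Q z (y j)) • y i + (pol Q z (y j) - pol Q z (y i)) • y j + (pol Q z (y k) + pol Q z (y l)) • y k +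
        (pol Q z (y l) - pol Q z (y k)) • y l ∈ S := by
    intro i j k l hi hj hk hl hij hik hil hjk hjl hkl z hz
    exact C.psi_mem h3 (hy.mem 0) haa (hy.or4 hij hik hil hjk hjl hkl) (hy.mem _) (hy.mem _) (hy.mem _) (hy.mem _)
      (hy.orth _ _ hi.symm) (hy.orth _ _ hj.symm) (hy.orth _ _ hk.symm) (hy.orth _ _ hl.symm) hS hu hz
  have hD : ∀ {i j k l : Fin 5}, i ≠ 0 → j ≠ 0 → k ≠ 0 → l ≠ 0 → i ≠ j → i ≠ k → i ≠ l → j ≠ k → j ≠ l → k ≠ l → ∀ {z : ι → F}, z ∈ S →
      pol Q z (y k) • y k + pol Q z (y l) • y l ∈ S := by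
    intro i j k l hi hj hk hl hij hik hil hjk hjl hkl z hz
    have h₁ := hψ hj hi hk hl hij.symm hjk hjl hik hil hkl hz
    have h₂ := hψ hi hj hk hl hij hik hil hjk hjl hkl h₁
    set a := pol Q z (y i) with ha
    set b := pol Q z (y j) with hb
    set c := pol Q z (y k) with hc
    set d := pol Q z (y l) with hd
    simp only [pol_add_left hQ, pol_smul_left hQ, hself, hy.orth _ _ hij, hy.orth _ _ hik, hy.orth _ _ hil, hy.orth _ _ hjk,
      hy.orth _ _ hjl, hy.orth _ _ hkl, hy.orth _ _ hij.symm, hy.orth _ _ hik.symm, hy.orth _ _ hil.symm, hy.orth _ _ hjk.symm,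
      hy.orth _ _ hjl.symm, hy.orth _ _ hkl.symm, ← ha, ← hb, ← hc, ← hd] at h₂
    have h₃ := hadd (hneg h₂) hz
    have e : ∀ x : ι → F, (3 : F) • x = 0 := fun x => by rw [h3, zero_smul]
    have e2 : -(z + (b + a) • y j + (a - b) • y i + (c + d) • y k + (d - c) • y l +
        (a + (b + a) * 0 + (a - b) * -1 + (c + d) * 0 + (d - c) * 0 + (b + (b + a) * -1 + (a - b) * 0 + (c + d) * 0 + (d - c) * 0)) • y i +
        (b + (b + a) * -1 + (a - b) * 0 + (c + d) * 0 + (d - c) * 0 - (a + (b + a) * 0 + (a - b) * -1 + (c + d) * 0 + (d - c) * 0)) • y j +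
        (c + (b + a) * 0 + (a - b) * 0 + (c + d) * -1 + (d - c) * 0 + (d + (b + a) * 0 + (a - b) * 0 + (c + d) * 0 + (d - c) * -1)) • y k +
        (d + (b + a) * 0 + (a - b) * 0 + (c + d) * 0 + (d - c) * -1 - (c + (b + a) * 0 + (a - b) * 0 + (c + d) * -1 + (d - c) * 0)) • y l) + z =
        c • y k + d • y l - c • (3 : F) • y k - d • (3 : F) • y l := by
      module
    rw [e2] at h₃
    rw [e, e] at h₃
    simpa using h₃
  have hE : ∀ {k : Fin 5}, k ≠ 0 → ∀ {z : ι → F}, z ∈ S → pol Q z (y k) • y k ∈ S := by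
    intro k hk z hz
    obtain ⟨l, hl, hkl⟩ := fin5b k hk
    obtain ⟨i, j, hi, hj, hij, hik, hil, hjk, hjl⟩ := fin5a k l hk hl hkl
    have h1 := hD hi hj hk hl hij hik hil hjk hjl hkl hz
    have h2 := hD hj hk hl hi hjk hjl hij.symm hkl hik.symm hil.symm h1
    simp only [pol_add_left hQ, pol_smul_left hQ, hself, hy.orth _ _ hkl, hy.orth _ _ hkl.symm, hy.orth _ _ hik.symm, hy.orth _ _ hil.symm] at h2
    have h3' := hsmul (-1) h2
    have e : (-1 : F) • ((pol Q z (y k) * 0 + pol Q z (y l) * -1) • y l + (pol Q z (y k) * 0 + pol Q z (y l) * 0) • y i) =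
        pol Q z (y l) • y l := by
      module
    rw [e] at h3'
    have h4 := hadd h1 (hneg h3')
    have e2 : pol Q z (y k) • y k + pol Q z (y l) • y l + -(pol Q z (y l) • y l) = pol Q z (y k) • y k := by abel
    rwa [e2] at h4
  by_contra hcon
  push Not at hcon
  obtain ⟨⟨x, hx, hxu⟩, w, hw, hwS⟩ := hcon
  set t := x + pol Q x (y 0) • y 0 with ht
  have htS : t ∈ S := hadd hx (hsmul _ hu)
  have ht0 : t ≠ 0 := by
    intro h0
    apply hxu
    have e : x = (- pol Q x (y 0)) • y 0 := by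
      rw [neg_smul]
      exact eq_neg_of_add_eq_zero_left h0
    rw [e]
    exact Submodule.smul_mem _ _ (Submodule.mem_span_singleton_self _)
  have htW := C.Sf_sub hS htS
  have htu : pol Q t (y 0) = 0 := by
    rw [ht, pol_add_left hQ, pol_smul_left hQ, hself]
    ring
  obtain ⟨i, hi⟩ : ∃ i, pol Q t (y i) ≠ 0 := by
    by_contra hc
    push Not at hc
    apply ht0
    rw [hy.complete hQ h3 hfin htW]
    simp [hc]
  have hi0 : i ≠ 0 := by
    rintro rfl
    exact hi htu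
  have hiS : y i ∈ S := by
    have h1 := hsmul (pol Q t (y i))⁻¹ (hE hi0 htS)
    rwa [smul_smul, inv_mul_cancel₀ hi, one_smul] at h1
  have hall : ∀ j, y j ∈ S := by
    intro j
    by_cases hj0 : j = 0
    · rw [hj0]
      exact hu
    by_cases hji : j = i
    · rw [hji]
      exact hiS
    obtain ⟨k, l, hk, hl, hkl, hki, hkj, hli, hlj⟩ := fin5a i j hi0 hj0 (Ne.symm hji)
    have h1 := hψ hi0 hj0 hk hl (Ne.symm hji) hki.symm hli.symm hkj.symm hlj.symm hkl hiS
    simp only [hself, hy.orth _ _ (Ne.symm hji), hy.orth _ _ hki.symm, hy.orth _ _ hli.symm, hy.orth _ _ hki, hy.orth _ _ hli] at h1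
    have e : y i + (-1 + 0 : F) • y i + (0 - -1 : F) • y j + (0 + 0 : F) • y k + (0 - 0 : F) • y l = y j := by
      module
    rwa [e] at h1
  apply hwS
  rw [hy.complete hQ h3 hfin hw]
  refine Finset.sum_induction _ (· ∈ S) (fun _ _ ha hb => hadd ha hb) (C.Sf_zero hS) (fun j _ => hsmul _ (hall j))

/-- Double counting through a class. -/
theorem sum_Cl {𝓞 : Finset (Finset (ι → F))} (h𝓞 : Inv Q v v' 𝓞) {u : ι → F}
    (hu : u ∈ WW hQ v v') (hu0 : u ≠ 0) :
    ∑ S ∈ 𝓞, ((Cl hQ v v' u).filter fun y => y ∈ S).card = aa 𝓞 u * (Cl hQ v v' u).card := by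
  have h1 : ∑ y ∈ Cl hQ v v' u, aa 𝓞 y = aa 𝓞 u * (Cl hQ v v' u).card := by
    rw [mul_comm, ← smul_eq_mul, ← Finset.sum_const]
    apply Finset.sum_congr rfl
    intro y hy
    obtain ⟨hyW, hy0, m, hm, hym⟩ := mem_Cl.mp hy
    exact C.aa_class h𝓞 hu hyW hu0 hy0 hm hym
  rw [← h1]
  have h2 := Finset.sum_card_bipartiteAbove_eq_sum_card_bipartiteBelow (s := 𝓞) (t := Cl hQ v v' u)
    (fun S y => y ∈ S)
  unfold Finset.bipartiteAbove Finset.bipartiteBelow at h2
  exact h2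

/-- Admissible maps preserve the form over the field with three elements. -/
theorem Adm_Q3 (hF : Fintype.card F = 3) {T : (ι → F) → (ι → F)} (hT : Adm Q v v' T) (x : ι → F) : Q (T x) = Q x := by
  obtain ⟨g, hg, μ, hμ, -, -, rfl⟩ := hT
  have h1 : (μ⁻¹) ^ 2 = 1 := by
    rcases f3_cases hF μ⁻¹ with h | h | h
    · exact absurd h (inv_ne_zero hμ)
    · rw [h, one_pow]
    · rw [h]
      ring
  rw [Tw, hQ.smul, (mem_isometryGroup_iff Q g).mp (omega_iso hg), h1, one_mul]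

/-- The shape of a member without vectors of norm one. -/
theorem member_shape (hF : Fintype.card F = 3) {S : Finset (ι → F)} (hS : S ∈ Sf hQ act ψ v v') {u : ι → F} (hu : u ∈ S)
    (hQu : Q u = -1) (hno : ∀ x ∈ S, Q x ≠ 1) :
    (S.filter fun x => Q x = -1).card = 2 * (S.filter fun x => Q x = 0).card ∧
      S.card = 3 * (S.filter fun x => Q x = 0).card := by
  have h3 := f3_three hF
  have hone : (1 : F) ≠ -1 := by
    intro h1
    have h2 : (2 : F) = 0 := by linear_combination h1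
    have h4 : (1 : F) = 0 := by linear_combination h3 - h2
    exact one_ne_zero h4
  have hpuu : pol Q u u = 1 := by
    rw [pol_self hQ, hQu]
    linear_combination -h3
  have hadd : ∀ {x x' : ι → F}, x ∈ S → x' ∈ S → x + x' ∈ S := fun hx hx' => C.Sf_add hS hx hx'
  have hneg : ∀ {x : ι → F}, x ∈ S → -x ∈ S := fun hx => C.Sf_neg hS hx
  have hsub : ∀ {x x' : ι → F}, x ∈ S → x' ∈ S → x - x' ∈ S := fun hx hx' => by
    rw [sub_eq_add_neg]
    exact hadd hx (hneg hx')
  have hperp : ∀ x ∈ S, Q x = 0 → pol Q x u = 0 := by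
    intro x hx hQx
    have h1 := hno _ (hadd hx hu)
    have h2 := hno _ (hsub hx hu)
    rw [Q_add hQ, hQx, hQu] at h1
    rw [Q_sub hQ, hQx, hQu] at h2
    rcases f3_cases hF (pol Q x u) with h | h | h
    · exact h
    · exfalso
      apply h2
      rw [h]
      linear_combination -h3
    · exfalso
      apply h1
      rw [h]
      linear_combination -h3
  set T := S.filter fun x => Q x = 0 with hT
  set B := S.filter fun x => Q x = -1 with hB
  have hTmem : ∀ x, x ∈ T ↔ x ∈ S ∧ Q x = 0 := fun x => Finset.mem_filter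
  have hBmem : ∀ x, x ∈ B ↔ x ∈ S ∧ Q x = -1 := fun x => Finset.mem_filter
  have hBeq : B = T.image (fun x => x + u) ∪ T.image (fun x => x - u) := by
    ext x
    rw [hBmem, Finset.mem_union, Finset.mem_image, Finset.mem_image]
    constructor
    · rintro ⟨hx, hQx⟩
      have h1 := hno _ (hadd hx hu)
      rw [Q_add hQ, hQx, hQu] at h1
      rcases f3_cases hF (pol Q x u) with h | h | h
      · exfalso
        apply h1
        rw [h]
        linear_combination -h3
      · left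
        refine ⟨x - u, (hTmem _).mpr ⟨hsub hx hu, ?_⟩, sub_add_cancel x u⟩
        rw [Q_sub hQ, hQx, hQu, h]
        linear_combination -h3
      · right
        refine ⟨x + u, (hTmem _).mpr ⟨hadd hx hu, ?_⟩, add_sub_cancel_right x u⟩
        rw [Q_add hQ, hQx, hQu, h]
        linear_combination -h3
    · rintro (⟨t, ht, rfl⟩ | ⟨t, ht, rfl⟩)
      · obtain ⟨h1, h2⟩ := (hTmem t).mp ht
        refine ⟨hadd h1 hu, ?_⟩
        rw [Q_add hQ, h2, hQu, hperp t h1 h2]
        ring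
      · obtain ⟨h1, h2⟩ := (hTmem t).mp ht
        refine ⟨hsub h1 hu, ?_⟩
        rw [Q_sub hQ, h2, hQu, hperp t h1 h2]
        ring
  have hdisj : Disjoint (T.image (fun x => x + u)) (T.image (fun x => x - u)) := by
    rw [Finset.disjoint_left]
    intro x hx hx'
    obtain ⟨t, ht, rfl⟩ := Finset.mem_image.mp hx
    obtain ⟨t', ht', he⟩ := Finset.mem_image.mp hx'
    obtain ⟨h1, h2⟩ := (hTmem t).mp ht
    obtain ⟨h1', h2'⟩ := (hTmem t').mp ht'
    have h4 := congrArg (fun z => pol Q z u) he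
    simp only [pol_sub_left hQ, pol_add_left hQ, hperp t h1 h2, hperp t' h1' h2', hpuu] at h4
    apply hone
    linear_combination -h4
  have hcB : B.card = 2 * T.card := by
    rw [hBeq, Finset.card_union_of_disjoint hdisj, Finset.card_image_of_injective _ (add_left_injective u),
      Finset.card_image_of_injective _ (sub_left_injective)]
    ring
  refine ⟨hcB, ?_⟩
  have hS' : S = T ∪ B := by
    ext x
    rw [Finset.mem_union, hTmem, hBmem]
    constructor
    · intro hx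
      rcases f3_cases hF (Q x) with h | h | h
      · exact Or.inl ⟨hx, h⟩
      · exact absurd h (hno x hx)
      · exact Or.inr ⟨hx, h⟩
    · rintro (h | h)
      · exact h.1
      · exact h.1
  have hdisj2 : Disjoint T B := by
    rw [Finset.disjoint_left]
    intro x hx hx'
    have h1 := ((hTmem x).mp hx).2
    have h2 := ((hBmem x).mp hx').2
    rw [h1] at h2
    apply one_ne_zero (α := F)
    linear_combination h2
  calc S.card = (T ∪ B).card := by rw [← hS']
    _ = T.card + B.card := Finset.card_union_of_disjoint hdisj2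
    _ = 3 * T.card := by rw [hcB]; ring

/-- **A member with a vector of norm minus one and a singular vector does not exist.** -/
theorem no_minus (hF : Fintype.card F = 3) (hN : Fintype.card X < 351) (hSg : (Sg Q (WW hQ v v')).card = 80)
    {S : Finset (ι → F)} (hS : S ∈ Sf hQ act ψ v v') {u t : ι → F} (hu : u ∈ S) (hQu : Q u = -1)
    (hCl : (Cl hQ v v' u).card = 72) (hno : ∀ x ∈ S, Q x ≠ 1) (ht : t ∈ S) (ht0 : t ≠ 0) (hQt : Q t = 0) : False := by
  have h3 := f3_three hF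
  set m := S.card with hm
  let 𝓕 : Finset (Finset (ι → F)) := (Sf hQ act ψ v v').filter fun S' => S'.card = m ∧ (∀ x ∈ S', Q x ≠ 1) ∧ ∃ u' ∈ S', Q u' = -1
  have h𝓕mem : ∀ S', S' ∈ 𝓕 ↔ S' ∈ Sf hQ act ψ v v' ∧ S'.card = m ∧ (∀ x ∈ S', Q x ≠ 1) ∧ ∃ u' ∈ S', Q u' = -1 :=
    fun S' => Finset.mem_filter
  have hsub : 𝓕 ⊆ Sf hQ act ψ v v' := Finset.filter_subset _ _
  have hinv : Inv Q v v' 𝓕 := by
    intro T hT S' hS'
    obtain ⟨h1, h2, h4, u', hu', hQu'⟩ := (h𝓕mem S').mp hS'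
    refine (h𝓕mem _).mpr ⟨C.Adm_Sf hT h1, by rw [hT.card_image, h2], ?_, T u', Finset.mem_image_of_mem _ hu', ?_⟩
    · intro x hx
      obtain ⟨y, hy, rfl⟩ := Finset.mem_image.mp hx
      rw [C.Adm_Q3 hF hT]
      exact h4 y hy
    · rw [C.Adm_Q3 hF hT, hQu']
  have hS𝓕 : S ∈ 𝓕 := (h𝓕mem S).mpr ⟨hS, rfl, hno, u, hu, hQu⟩
  set τ := (S.filter fun x => Q x = 0).card with hτ
  have hshape : ∀ S' ∈ 𝓕, (S'.filter fun x => Q x = -1).card = 2 * τ ∧ (S'.filter fun x => Q x = 0).card = τ ∧ S'.card = 3 * τ := by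
    intro S' hS'
    obtain ⟨h1, h2, h4, u', hu', hQu'⟩ := (h𝓕mem S').mp hS'
    obtain ⟨h5, h6⟩ := C.member_shape hF h1 hu' hQu' h4
    obtain ⟨-, h8⟩ := C.member_shape hF hS hu hQu hno
    have h9 : (S'.filter fun x => Q x = 0).card = τ := by
      rw [← hm] at h8
      omega
    rw [h9] at h5 h6
    exact ⟨h5, h9, h6⟩
  have hu0 : u ≠ 0 := by
    rintro rfl
    rw [Q_zero hQ] at hQu
    apply one_ne_zero (α := F)
    linear_combination hQu
  have huW := C.Sf_sub hS hu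
  have htW := C.Sf_sub hS ht
  -- the counts
  have e1 := C.sum_Cl hinv htW ht0
  have e2 := C.sum_Cl hinv huW hu0
  rw [C.Cl_singular hQt, hSg] at e1
  rw [hCl] at e2
  have e1' : ∑ S' ∈ 𝓕, ((Sg Q (WW hQ v v')).filter fun y => y ∈ S').card = 𝓕.card * (τ - 1) := by
    rw [Finset.card_eq_sum_ones, Finset.sum_mul]
    refine Finset.sum_congr rfl fun S' hS' => ?_
    rw [one_mul, ← (hshape S' hS').2.1]
    have h0 : (S'.filter fun x => Q x = 0).erase 0 = (Sg Q (WW hQ v v')).filter fun y => y ∈ S' := by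
      ext y
      rw [Finset.mem_erase, Finset.mem_filter, Finset.mem_filter, mem_Sg]
      constructor
      · rintro ⟨h1, h2, h4⟩
        exact ⟨⟨C.Sf_sub (hsub hS') h2, h1, h4⟩, h2⟩
      · rintro ⟨⟨h1, h2, h4⟩, h5⟩
        exact ⟨h2, h5, h4⟩
    rw [← h0, Finset.card_erase_of_mem]
    rw [Finset.mem_filter]
    exact ⟨C.Sf_zero (hsub hS'), Q_zero hQ⟩
  have e2' : ∑ S' ∈ 𝓕, ((Cl hQ v v' u).filter fun y => y ∈ S').card = 𝓕.card * (2 * τ) := by
    rw [Finset.card_eq_sum_ones, Finset.sum_mul]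
    refine Finset.sum_congr rfl fun S' hS' => ?_
    rw [one_mul, ← (hshape S' hS').1]
    congr 1
    ext y
    rw [Finset.mem_filter, Finset.mem_filter, mem_Cl]
    constructor
    · rintro ⟨⟨h1, h2, m', hm', h4⟩, h5⟩
      refine ⟨h5, ?_⟩
      have h6 : m' ^ 2 = 1 := by
        rcases f3_cases hF m' with h | h | h
        · exact absurd h hm'
        · rw [h, one_pow]
        · rw [h]
          ring
      rw [h4, h6, hQu, one_mul]
    · rintro ⟨h5, h6⟩
      refine ⟨⟨C.Sf_sub (hsub hS') h5, ?_, 1, one_ne_zero, by rw [h6, hQu]; ring⟩, h5⟩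
      rintro rfl
      rw [Q_zero hQ] at h6
      apply one_ne_zero (α := F)
      linear_combination h6
  have e3 : 𝓕.card * (3 * τ) ≤ Fintype.card X := by
    refine le_trans (le_of_eq ?_) (C.sum_card_le hsub)
    rw [Finset.card_eq_sum_ones, Finset.sum_mul]
    refine Finset.sum_congr rfl fun S' hS' => ?_
    rw [one_mul, (hshape S' hS').2.2]
  have hc1 : 1 ≤ aa 𝓕 t := Finset.card_pos.mpr ⟨S, Finset.mem_filter.mpr ⟨hS𝓕, ht⟩⟩
  rw [e1'] at e1
  rw [e2'] at e2
  -- arithmetic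
  have hτ1 : 1 ≤ τ := by
    by_contra hτ0
    have : τ = 0 := by omega
    rw [this] at e1
    simp at e1
    omega
  obtain ⟨τ', hτ'⟩ : ∃ τ', τ = τ' + 1 := ⟨τ - 1, by omega⟩
  rw [hτ'] at e1 e2 e3
  simp only [Nat.add_sub_cancel] at e1
  have e2'' : 𝓕.card * (2 * (τ' + 1)) = 2 * (𝓕.card * τ') + 2 * 𝓕.card := by ring
  have e3'' : 𝓕.card * (3 * (τ' + 1)) = 3 * (𝓕.card * τ') + 3 * 𝓕.card := by ring
  rw [e2''] at e2
  rw [e3''] at e3
  generalize aa 𝓕 u = c' at e2
  generalize aa 𝓕 t = c at e1 hc1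
  generalize 𝓕.card = κ at e1 e2 e3
  have hk : c' ≤ 3 := by omega
  have hκ : κ = 28 := by
    interval_cases c' <;> omega
  subst hκ
  omega

/-- **The members of the family in dimension seven.** -/
theorem tri7 (hF : Fintype.card F = 3) (hN : Fintype.card X < 351) (hfin : Module.finrank F (WW hQ v v') ≤ 5)
    (hON : ∀ u ∈ WW hQ v v', Q u = 1 → ∃ y, ONB Q (WW hQ v v') y ∧ y 0 = u)
    (hP : ∀ u ∈ WW hQ v v', Q u = 1 → 90 ≤ (Cl hQ v v' u).card)
    (hM : ∀ u ∈ WW hQ v v', Q u = -1 → (Cl hQ v v' u).card = 72)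
    (hSg : (Sg Q (WW hQ v v')).card = 80) {S : Finset (ι → F)} (hS : S ∈ Sf hQ act ψ v v') (hTs : ¬ Ts Q S) :
    S = WF (WW hQ v v') ∨ Line S := by
  have h3 := f3_three hF
  by_cases hl : Line S
  · exact Or.inr hl
  left
  by_cases hex : ∃ u ∈ S, Q u = 1
  · obtain ⟨u, hu, hQu⟩ := hex
    have huW := C.Sf_sub hS hu
    have hu0 : u ≠ 0 := by
      rintro rfl
      rw [Q_zero hQ] at hQu
      exact zero_ne_one hQu
    obtain ⟨y, hy, rfl⟩ := hON u huW hQu
    have haa : aa (Sf hQ act ψ v v') (y 0) ≤ 3 := by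
      have h1 := C.aa_mul_Cl_le_card (Finset.Subset.refl _) C.Sf_inv huW hu0
      have h2 := hP _ huW hQu
      by_contra hc
      push Not at hc
      have h4 : 4 * (Cl hQ v v' (y 0)).card ≤ aa (Sf hQ act ψ v v') (y 0) * (Cl hQ v v' (y 0)).card :=
        Nat.mul_le_mul_right _ hc
      omega
    rcases C.onb_dich hF hfin hy haa hS hu with h | h
    · exact absurd ⟨y 0, h⟩ hl
    · ext x
      rw [mem_WF]
      exact ⟨fun hx => C.Sf_sub hS hx, h x⟩
  · exfalso
    push Not at hex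
    obtain ⟨u, hu, hQu⟩ : ∃ u ∈ S, Q u ≠ 0 := by
      by_contra hc
      push Not at hc
      exact hTs ⟨hc, hl⟩
    have hQu' : Q u = -1 := by
      rcases f3_cases hF (Q u) with h | h | h
      · exact absurd h hQu
      · exact absurd h (hex u hu)
      · exact h
    have huW := C.Sf_sub hS hu
    have hpuu : pol Q u u = 1 := by
      rw [pol_self hQ, hQu']
      linear_combination -h3
    obtain ⟨z, hz, hzu⟩ : ∃ z ∈ S, z ∉ Submodule.span F {u} := by
      by_contra hc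
      push Not at hc
      exact hl ⟨u, hc⟩
    set t := z - pol Q z u • u with ht
    have htS : t ∈ S := by
      rw [ht, sub_eq_add_neg]
      exact C.Sf_add hS hz (C.Sf_neg hS (C.Sf_smul3 hF hS _ hu))
    have ht0 : t ≠ 0 := by
      intro h0
      apply hzu
      rw [sub_eq_zero.mp h0]
      exact Submodule.smul_mem _ _ (Submodule.mem_span_singleton_self _)
    have htu : pol Q t u = 0 := by
      rw [ht, pol_sub_left hQ, pol_smul_left hQ, hpuu]
      ring
    have hQt : Q t = 0 := by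
      rcases f3_cases hF (Q t) with h | h | h
      · exact h
      · exact absurd h (hex t htS)
      · exfalso
        apply hex _ (C.Sf_add hS htS hu)
        rw [Q_add hQ, h, hQu', htu]
        linear_combination -h3
    exact C.no_minus hF hN hSg hS hu hQu' (hM u huW hQu') hex htS ht0 hQt

end Ctx

section move

variable (hQ : IsNondegenerateQuadraticForm Q)

omit [Fintype F] in
theorem ONB.map {W W' : Submodule F (ι → F)} {y : Fin 5 → ι → F} (hy : ONB Q W y) {g : GL ι F} (hg : g ∈ isometryGroup F Q)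
    (hW : ∀ x ∈ W, (g : Matrix ι ι F) *ᵥ x ∈ W') : ONB Q W' (fun i => (g : Matrix ι ι F) *ᵥ y i) := by
  refine ⟨fun i => hW _ (hy.mem i), fun i => ?_, fun i j hij => ?_⟩
  · rw [(mem_isometryGroup_iff Q g).mp hg, hy.norm]
  · rw [pol_isometry g hg, hy.orth i j hij]

include hQ in
/-- Vectors of norm one lie in orthonormal frames. -/
theorem ONB.exists_first {W : Submodule F (ι → F)} (hW : Cfsg.Agent.Lib.MinOmega.Nd Q W) (hdim : 5 ≤ Module.finrank F W) {y₀ : Fin 5 → ι → F}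
    (hy₀ : ONB Q W y₀) {u : ι → F} (hu : u ∈ W) (hQu : Q u = 1) : ∃ y, ONB Q W y ∧ y 0 = u := by
  have hy00 : y₀ 0 ≠ 0 := by
    intro h0
    have h1 := hy₀.norm 0
    rw [h0, Q_zero hQ] at h1
    exact zero_ne_one h1
  have hu0 : u ≠ 0 := by
    rintro rfl
    rw [Q_zero hQ] at hQu
    exact zero_ne_one hQu
  have key := norm_class hQ hW hdim (fun z => ∃ y, ONB Q W y ∧ y 0 = z) ?_ (hy₀.mem 0) hu hy00 hu0 (by rw [hy₀.norm, hQu])
  · have h1 : ∃ y, ONB Q W y ∧ y 0 = y₀ 0 := ⟨y₀, hy₀, rfl⟩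
    have h2 : (∃ y, ONB Q W y ∧ y 0 = y₀ 0) = (∃ y, ONB Q W y ∧ y 0 = u) := key
    rw [h2] at h1
    exact h1
  · intro a c x ha hc hx hQa hac
    apply propext
    have hc' : pol Q a (-c) = 0 := by rw [pol_neg_right hQ, hac, neg_zero]
    constructor
    · rintro ⟨y, hy, hy0⟩
      refine ⟨fun i => ((rr hQ a (-c) : GL ι F) : Matrix ι ι F) *ᵥ y i,
        hy.map (rr_iso hQ hQa hc') (fun z hz => ?_), ?_⟩
      · rw [rr_mulVec hQ hQa hc']
        exact eE_mem hQ ha (W.neg_mem hc) hz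
      · change ((rr hQ a (-c) : GL ι F) : Matrix ι ι F) *ᵥ y 0 = x
        rw [hy0, ← rr_mulVec hQ hQa hac, ← rr_inv' hQ hQa hac, inv_mulVec_mulVec]
    · rintro ⟨y, hy, hy0⟩
      refine ⟨fun i => ((rr hQ a c : GL ι F) : Matrix ι ι F) *ᵥ y i,
        hy.map (rr_iso hQ hQa hac) (fun z hz => ?_), ?_⟩
      · rw [rr_mulVec hQ hQa hac]
        exact eE_mem hQ ha hc hz
      · change ((rr hQ a c : GL ι F) : Matrix ι ι F) *ᵥ y 0 = _
        rw [hy0, rr_mulVec hQ hQa hac]

end move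

/-- **No regular action in dimension seven.** -/
theorem no_reg7 {hQ : IsNondegenerateQuadraticForm Q} {X : Type*} [Fintype X] {act : ↥(omegaGL Q) →* Equiv.Perm X} {v v' : ι → F}
    (hF : Fintype.card F = 3) (h : Hyp Q v v') (hn : 7 ≤ Fintype.card ι)
    (hψ : ∃ ψ : AddChar F ℂ, ∀ c : F, c ≠ 0 → ∃ t : F, ψ (t * c) ≠ 1) (hfin : Module.finrank F (WW hQ v v') ≤ 5)
    {y : Fin 5 → ι → F} (hy : ONB Q (WW hQ v v') y) (hcard : Fintype.card X < 2 * (WF (WW hQ v v')).card) (x₀ : X)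
    (hR : ∀ a : ι → F, a ≠ 0 → Q a = 0 → ∀ x, RegAt hQ act a x) : False := by
  obtain ⟨ψ, hψ⟩ := hψ
  have C : Ctx hQ act ψ v v' := ⟨hn, hψ, h⟩
  have h3 := f3_three hF
  have hself := hy.pol_self' hQ h3
  have hnorm := hy.norm
  have hW := Nd_WW hQ h
  set a := y 2 + y 3 + y 4 with ha
  set c := y 2 - y 3 with hc
  have horth : ∀ i j, i ≠ j → pol Q (y i) (y j) = 0 := hy.orth
  have o01 := horth 0 1 (by decide)
  have o02 := horth 0 2 (by decide)
  have o03 := horth 0 3 (by decide)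
  have o04 := horth 0 4 (by decide)
  have o10 := horth 1 0 (by decide)
  have o12 := horth 1 2 (by decide)
  have o13 := horth 1 3 (by decide)
  have o14 := horth 1 4 (by decide)
  have o20 := horth 2 0 (by decide)
  have o21 := horth 2 1 (by decide)
  have o23 := horth 2 3 (by decide)
  have o24 := horth 2 4 (by decide)
  have o30 := horth 3 0 (by decide)
  have o31 := horth 3 1 (by decide)
  have o32 := horth 3 2 (by decide)
  have o34 := horth 3 4 (by decide)
  have o40 := horth 4 0 (by decide)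
  have o41 := horth 4 1 (by decide)
  have o42 := horth 4 2 (by decide)
  have o43 := horth 4 3 (by decide)
  have haW : a ∈ WW hQ v v' := Submodule.add_mem _ (Submodule.add_mem _ (hy.mem 2) (hy.mem 3)) (hy.mem 4)
  have hcW : c ∈ WW hQ v v' := Submodule.sub_mem _ (hy.mem 2) (hy.mem 3)
  have hQa : Q a = 0 := by
    rw [ha]
    simp only [Q_add hQ, pol_add_left hQ, hnorm, o23, o24, o34]
    linear_combination h3
  have hac : pol Q a c = 0 := by
    rw [ha, hc]
    simp only [pol_add_left hQ, pol_sub_right hQ, hself, o23, o24, o32, o34, o42, o43]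
    ring
  have ha0 : a ≠ 0 := by
    intro h0
    have h1 : pol Q a (y 2) = -1 := by
      rw [ha]
      simp only [pol_add_left hQ, hself, o32, o42]
      ring
    rw [h0, pol_zero_left hQ] at h1
    apply one_ne_zero (α := F)
    linear_combination h1
  have hca : c ∉ Submodule.span F {a} := by
    intro hm
    obtain ⟨t, ht⟩ := Submodule.mem_span_singleton.mp hm
    have h1 := congrArg (fun z => pol Q z (y 4)) ht
    have h2 := congrArg (fun z => pol Q z (y 2)) ht
    simp only [ha, hc, pol_add_left hQ, pol_sub_left hQ, pol_smul_left hQ, hself, o24, o34, o42, o32] at h1 h2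
    have ht0 : t = 0 := by linear_combination -h1
    rw [ht0] at h2
    apply one_ne_zero (α := F)
    linear_combination h2
  refine C.no_reg_of_force hR hcard x₀ haW hcW ha0 hQa hac hca (fun d hd _ H => ?_)
  -- the rotations
  obtain ⟨z₁, hz₁, hzf₁⟩ := exists_rot3 hQ hn (y₁ := y 0) (y₂ := y 1) (by rw [hnorm]; exact one_ne_zero) (by rw [hnorm]; exact one_ne_zero) o01
    (by rw [hnorm, hnorm])
  obtain ⟨z₂, hz₂, hzf₂⟩ := exists_rot3 hQ hn (y₁ := y 1) (y₂ := y 2) (by rw [hnorm]; exact one_ne_zero) (by rw [hnorm]; exact one_ne_zero) o12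
    (by rw [hnorm, hnorm])
  obtain ⟨z₃, hz₃, hzf₃⟩ := exists_rot3 hQ hn (y₁ := y 3) (y₂ := y 4) (by rw [hnorm]; exact one_ne_zero) (by rw [hnorm]; exact one_ne_zero) o34
    (by rw [hnorm, hnorm])
  simp only [hnorm, inv_one, one_mul] at hzf₁ hzf₂ hzf₃
  have hfix₁ : ∀ x, pol Q x (y 0) = 0 → pol Q x (y 1) = 0 → (z₁ : Matrix ι ι F) *ᵥ x = x := by
    intro x h1 h2
    rw [hzf₁, h1, h2]
    simp
  have hfix₂ : ∀ x, pol Q x (y 1) = 0 → pol Q x (y 2) = 0 → (z₂ : Matrix ι ι F) *ᵥ x = x := by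
    intro x h1 h2
    rw [hzf₂, h1, h2]
    simp
  have hfix₃ : ∀ x, pol Q x (y 3) = 0 → pol Q x (y 4) = 0 → (z₃ : Matrix ι ι F) *ᵥ x = x := by
    intro x h1 h2
    rw [hzf₃, h1, h2]
    simp
  have hL₁ : Levi Q v v' z₁ := levi_of_fix hz₁ hfix₁ (hy.mem 0) (hy.mem 1)
  have hL₂ : Levi Q v v' z₂ := levi_of_fix hz₂ hfix₂ (hy.mem 1) (hy.mem 2)
  have hL₃ : Levi Q v v' z₃ := levi_of_fix hz₃ hfix₃ (hy.mem 3) (hy.mem 4)
  -- the first rotation
  have hcomm₁ : z₁ * rr hQ a c = rr hQ a c * z₁ := by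
    refine comm_of_fix hQ (omega_iso hz₁) hQa hac (hfix₁ a ?_ ?_) (hfix₁ c ?_ ?_)
    · simp only [ha, pol_add_left hQ, o20, o30, o40]
      ring
    · simp only [ha, pol_add_left hQ, o21, o31, o41]
      ring
    · simp only [hc, pol_sub_left hQ, o20, o30]
      ring
    · simp only [hc, pol_sub_left hQ, o21, o31]
      ring
  have hδ₁ := H z₁ hL₁ hcomm₁
  rw [hzf₁] at hδ₁
  obtain ⟨α, β, hαβ⟩ := Submodule.mem_span_pair.mp hδ₁
  have e0 := congrArg (fun z => pol Q z (y 0)) hαβ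
  have e1 := congrArg (fun z => pol Q z (y 1)) hαβ
  simp only [ha, hc, pol_add_left hQ, pol_sub_left hQ, pol_smul_left hQ, hself, o10, o01, o20, o21, o30, o31, o40, o41] at e0 e1
  have hd0 : pol Q d (y 0) = 0 := by linear_combination -e0
  have hd1 : pol Q d (y 1) = 0 := by linear_combination -e1
  -- the second rotation
  have hzz : ∀ x, ((z₂ * z₃ : GL ι F) : Matrix ι ι F) *ᵥ x =
      x - pol Q x (y 4) • y 4 - pol Q x (y 3) • y 3 - pol Q x (y 2) • y 2 - pol Q x (y 1) • y 1 := by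
    intro x
    rw [Units.val_mul, ← Matrix.mulVec_mulVec, hzf₃, hzf₂]
    simp only [pol_sub_left hQ, pol_smul_left hQ, o41, o31, o42, o32]
    simp only [mul_zero, sub_zero]
  have hL : Levi Q v v' (z₂ * z₃) := ⟨Subgroup.mul_mem _ hL₂.1 hL₃.1, by
    rw [Units.val_mul, ← Matrix.mulVec_mulVec, hL₃.2.1, hL₂.2.1], by
    rw [Units.val_mul, ← Matrix.mulVec_mulVec, hL₃.2.2, hL₂.2.2]⟩
  have e : ∀ x : ι → F, (3 : F) • x = 0 := fun x => by rw [h3, zero_smul]
  have hza : ((z₂ * z₃ : GL ι F) : Matrix ι ι F) *ᵥ a = (-1 : F) • a := by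
    rw [hzz, ha]
    simp only [pol_add_left hQ, hself, o21, o31, o41, o32, o42, o23, o43, o24, o34]
    linear_combination (norm := module) e (y 2) + e (y 3) + e (y 4)
  have hzc : ((z₂ * z₃ : GL ι F) : Matrix ι ι F) *ᵥ c = (-1 : F) • c := by
    rw [hzz, hc]
    simp only [pol_sub_left hQ, hself, o21, o31, o32, o23, o24, o34]
    linear_combination (norm := module) e (y 2) - e (y 3)
  have hcomm : (z₂ * z₃) * rr hQ a c = rr hQ a c * (z₂ * z₃) := by
    have h1 := rr_conj hQ (omega_iso hL.1) hQa hac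
    rw [hza, hzc, rr_smul_left hQ (-1) (by simp) hQa (by rw [pol_smul_right hQ, hac, mul_zero]), smul_smul] at h1
    have e1 : (-1 : F) * -1 = 1 := by ring
    rw [e1, one_smul] at h1
    exact mul_inv_eq_iff_eq_mul.mp h1
  have hδ := H _ hL hcomm
  rw [hzz, hd1] at hδ
  have hdd := hy.complete hQ h3 hfin hd
  rw [Fin.sum_univ_five, hd0, hd1] at hdd
  have efin : d = d - pol Q d (y 4) • y 4 - pol Q d (y 3) • y 3 - pol Q d (y 2) • y 2 - (0 : F) • y 1 - d := by
    linear_combination (norm := module) hdd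
  rw [efin]
  exact hδ

end Cfsg.Agent.Lib.MinOmega
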