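/-
The odd-dimensional orthogonal groups over the field with three elements.
-/
import Cfsg.Agent.Lib.MinOmega.Seven
import Cfsg.Agent.Lib.MinOmega.OddFam
import Cfsg.Agent.Lib.MinOmega.IndexNs
set_option autoImplicit false

namespace Cfsg.Agent.Lib.MinOmega

open Cfsg Cfsg.Geo Cfsg.Agent.Lib.Geo.Basic Cfsg.Agent.Lib.Geo.QForm Cfsg.Agent.Lib.GeoOmega.Basic
open Cfsg.Agent.Lib.GeoOmega.Eichler NumP NumO
open scoped MatrixGroups Matrix
open scoped _root_.Classical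

universe u

namespace NumO

def oNs (g : ℕ) : ℕ := 9 * px 2 g * (9 * g + 4)

theorem T1 {g : ℕ} : oNs g ≤ oN0 2 g := by
  simp only [oNs, px, oy, oP2, oPw, oN0, on']
  refine Nat.le.intro (k := 9*g + 4) ?_
  ring

theorem T2 {g : ℕ} : oNs g ≤ 2 * ((2 + 1) ^ 3 * (px 2 g) ^ 2) := by
  simp only [oNs, px, oy, oP2, oPw, oN0, on']
  refine Nat.le.intro (k := 54*g^2 + 63*g + 18) ?_
  ring

theorem T3 {g : ℕ} : 2 * oNs g = 2 * ((2 + 1) ^ 3 * (px 2 g) ^ 2) + 3 * on' 2 g := by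
  simp only [oNs, px, oy, oP2, oPw, oN0, on']
  ring

theorem T4 {g : ℕ} : 1 ≤ on' 2 g := by
  simp only [oNs, px, oy, oP2, oPw, oN0, on']
  refine Nat.le.intro (k := 36*g^2 + 30*g + 5) ?_
  ring

theorem T5 {g : ℕ} (hg : 1 ≤ g) : oNs g ≤ 5 * on' 2 g := by
  obtain ⟨B, rfl⟩ : ∃ B, g = B + 1 := ⟨g - 1, by omega⟩
  simp only [oNs, px, oy, oP2, oPw, oN0, on']
  refine Nat.le.intro (k := 18*B^2 + 33*B + 9) ?_
  ring

theorem T6 {g : ℕ} (hg : 1 ≤ g) : oNs g * (6 * g + 2) ≤ 2 * oPw 2 g * (px 2 g + 1) * (3 * px 2 g) := by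
  obtain ⟨B, rfl⟩ : ∃ B, g = B + 1 := ⟨g - 1, by omega⟩
  simp only [oNs, px, oy, oP2, oPw, oN0, on']
  refine Nat.le.intro (k := 432*B^4 + 1836*B^3 + 2634*B^2 + 1326*B + 72) ?_
  ring

end NumO

variable {F : Type u} [Field F] [Fintype F] {k : ℕ}

theorem f3_two_ne (hF : Fintype.card F = 3) : (2 : F) ≠ 0 := by
  intro h2
  have := ringChar_two h2
  have h5 := ringChar_dvd (F := F)
  rw [this, hF] at h5
  omega

theorem f3_sq (hF : Fintype.card F = 3) {t : F} (ht : t ≠ 0) : t ^ 2 = 1 := by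
  rcases f3_cases hF t with h | h | h
  · exact absurd h ht
  · rw [h, one_pow]
  · rw [h]
    ring

theorem odd3_base (ha : Fintype.card F = 2 + 1) (h2 : (2 : F) ≠ 0) (hk : 1 ≤ k) :
    Base (nd_oddQ (F := F) h2 (k + 2)) (2 * k + 3) (oP2 2 (GG (Fintype.card F) k))
      (oPw 2 (GG (Fintype.card F) k)) (oN0 2 (GG (Fintype.card F) k)) := by
  set g := GG (Fintype.card F) k with hg
  have hx := px_eq (k := k) ha
  rw [← hg] at hx
  refine ⟨?_, by omega, ?_, ?_, ?_⟩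
  · simp
    omega
  · exact odd_Sg ha h2
  · rw [F4, ha, show (2 + 1) ^ (2 * k + 3) = (2 + 1) ^ 3 * ((2 + 1) ^ k) ^ 2 by ring, hx]
  · rw [F5, ha, show 2 * k + 3 - 2 = 2 * k + 1 by omega, show (2 + 1) ^ (2 * k + 1) = (2 + 1) * ((2 + 1) ^ k) ^ 2 by ring, hx]

theorem pol_odd {m : ℕ} (x y : Unit ⊕ (Fin m ⊕ Fin m) → F) :
    pol (quadFormOdd m F) x y = 2 * (x (.inl ()) * y (.inl ())) +
      ∑ i : Fin m, (x (.inr (.inl i)) * y (.inr (.inr i)) + y (.inr (.inl i)) * x (.inr (.inr i))) :=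
  Cfsg.Agent.Lib.GeoOmega.Planes.polar_quadFormOdd m F x y

section std

variable (h2 : (2 : F) ≠ 0)

/-- A standard vector. -/
def mk7 (a₀ a₂ b₂ a₃ b₃ : F) : Unit ⊕ (Fin 3 ⊕ Fin 3) → F :=
  Sum.elim (fun _ => a₀) (Sum.elim ![0, a₂, a₃] ![0, b₂, b₃])

theorem Q_mk7 (a₀ a₂ b₂ a₃ b₃ : F) : quadFormOdd 3 F (mk7 a₀ a₂ b₂ a₃ b₃) = a₀ ^ 2 + a₂ * b₂ + a₃ * b₃ := by
  simp [quadFormOdd, mk7, Fin.sum_univ_three]
  ring

theorem pol_mk7 (a₀ a₂ b₂ a₃ b₃ a₀' a₂' b₂' a₃' b₃' : F) :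
    pol (quadFormOdd 3 F) (mk7 a₀ a₂ b₂ a₃ b₃) (mk7 a₀' a₂' b₂' a₃' b₃') =
      2 * (a₀ * a₀') + a₂ * b₂' + a₂' * b₂ + a₃ * b₃' + a₃' * b₃ := by
  rw [pol_odd]
  simp [mk7, Fin.sum_univ_three]
  ring

/-- The standard orthonormal family. -/
def y7 : Fin 5 → (Unit ⊕ (Fin 3 ⊕ Fin 3) → F) :=
  ![mk7 1 0 0 0 0, mk7 0 1 1 0 0, mk7 0 0 0 1 1, mk7 0 1 (-1) 1 (-1), mk7 0 1 (-1) (-1) 1]

theorem std_onb (hF : Fintype.card F = 3) : ∃ v v' : Unit ⊕ (Fin 3 ⊕ Fin 3) → F, Hyp (quadFormOdd 3 F) v v' ∧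
    ONB (quadFormOdd 3 F) (WW (nd_oddQ (F := F) (f3_two_ne hF) 3) v v') y7 := by
  have h3 := f3_three hF
  set hQ := nd_oddQ (F := F) (f3_two_ne hF) 3
  let v : Unit ⊕ (Fin 3 ⊕ Fin 3) → F := Pi.single (.inr (.inl 0)) 1
  let v' : Unit ⊕ (Fin 3 ⊕ Fin 3) → F := Pi.single (.inr (.inr 0)) 1
  have hv : ∀ x, pol (quadFormOdd 3 F) v x = x (.inr (.inr 0)) := by
    intro x
    rw [pol_odd]
    simp [v, Pi.single_apply, Fin.sum_univ_three]
  have hv' : ∀ x, pol (quadFormOdd 3 F) v' x = x (.inr (.inl 0)) := by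
    intro x
    rw [pol_odd]
    simp [v', Pi.single_apply, Fin.sum_univ_three]
  refine ⟨v, v', ⟨?_, ?_, ?_⟩, ?_, ?_, ?_⟩
  · simp [quadFormOdd, v, Pi.single_apply, Fin.sum_univ_three]
  · simp [quadFormOdd, v', Pi.single_apply, Fin.sum_univ_three]
  · rw [hv]
    simp [v']
  · intro i
    rw [mem_WW hQ, hv, hv']
    fin_cases i <;> simp [y7, mk7]
  · intro i
    fin_cases i <;> simp [y7, Q_mk7]
    · linear_combination -h3
    · linear_combination -h3
  · intro i j hij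
    fin_cases i <;> fin_cases j <;> first
      | exact absurd rfl hij
      | (simp [y7, pol_mk7]; try ring)
end std

section counts

theorem finrank_WW_le {ι : Type} [Fintype ι] [DecidableEq ι] {Q : (ι → F) → F} (hQ : IsNondegenerateQuadraticForm Q) {v v' : ι → F} (h : Hyp Q v v') :
    Module.finrank F (WW hQ v v') + 2 ≤ Fintype.card ι := by
  have h1 := finrank_Ort_lt hQ (R := ⊤) (x := v) (y := v') trivial (by rw [h.hab]; exact one_ne_zero)
  have h2 := finrank_Ort_lt hQ (R := Ort hQ ⊤ v) (x := v') (y := v) ((mem_Ort hQ).mpr ⟨trivial, pol_singular hQ h.ha⟩)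
    (by rw [pol_symm hQ, h.hab]; exact one_ne_zero)
  have h3 : Module.finrank F (⊤ : Submodule F (ι → F)) = Fintype.card ι := by simp
  rw [WW]
  omega

theorem odd3_onb (hF : Fintype.card F = 3) {a a' : Unit ⊕ (Fin 3 ⊕ Fin 3) → F} (h : Hyp (quadFormOdd 3 F) a a') :
    ∃ y, ONB (quadFormOdd 3 F) (WW (nd_oddQ (F := F) (f3_two_ne hF) 3) a a') y := by
  obtain ⟨v, v', hvv, hy⟩ := std_onb hF
  set hQ := nd_oddQ (F := F) (f3_two_ne hF) 3
  obtain ⟨g, hg, h1, h2⟩ := exists_pair_move hQ (by simp) hvv h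
  exact ⟨_, hy.map (omega_iso hg) (fun x hx => g_WW hg h1 h2 hx)⟩

theorem card_sq_one (hF : Fintype.card F = 3) : Nat.card {x : F // x ^ 2 = 1} = 2 := by
  have h3 := f3_three hF
  have hne : (1 : F) ≠ -1 := by
    intro h1
    exact f3_two_ne hF (by linear_combination h1)
  rw [Nat.card_eq_fintype_card, Fintype.card_subtype]
  have e : (Finset.univ.filter fun x : F => x ^ 2 = 1) = {1, -1} := by
    ext x
    simp only [Finset.mem_filter, Finset.mem_univ, true_and, Finset.mem_insert, Finset.mem_singleton]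
    constructor
    · intro hx
      rcases f3_cases hF x with h | h | h
      · rw [h] at hx
        simp at hx
      · exact Or.inl h
      · exact Or.inr h
    · rintro (rfl | rfl) <;> ring
  rw [e, Finset.card_pair hne]

theorem card_sq_neg (hF : Fintype.card F = 3) : Nat.card {x : F // x ^ 2 = -1} = 0 := by
  have hne : (1 : F) ≠ -1 := by
    intro h1
    exact f3_two_ne hF (by linear_combination h1)
  haveI : IsEmpty {x : F // x ^ 2 = -1} := by
    constructor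
    rintro ⟨x, hx⟩
    by_cases h0 : x = 0
    · rw [h0] at hx
      apply one_ne_zero (α := F)
      linear_combination hx
    · rw [f3_sq hF h0] at hx
      exact hne hx
  exact Nat.card_of_isEmpty

theorem Cl_eq_NR (hF : Fintype.card F = 3) {ι : Type} [Fintype ι] [DecidableEq ι] {Q : (ι → F) → F} (hQ : IsNondegenerateQuadraticForm Q)
    {v v' u : ι → F} (hu : Q u ≠ 0) : (Cl hQ v v' u).card = NR Q (WW hQ v v') (Q u) := by
  rw [NR]
  congr 1
  ext y
  rw [mem_Cl, Finset.mem_filter, mem_WF]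
  constructor
  · rintro ⟨h1, -, m, hm, h2⟩
    exact ⟨h1, by rw [h2, f3_sq hF hm, one_mul]⟩
  · rintro ⟨h1, h2⟩
    refine ⟨h1, ?_, 1, one_ne_zero, by rw [h2]; ring⟩
    rintro rfl
    rw [Q_zero hQ] at h2
    exact hu h2.symm

end counts

/-- The small-orbit theorem for the odd type over the field with three elements. -/
theorem odd3_small (hF : Fintype.card F = 3) (hk : 1 ≤ k) (X : Type u) [Fintype X]
    (act : omegaGL (quadFormOdd (k + 2) F) →* Equiv.Perm X)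
    (hN : Fintype.card X < oNs (GG (Fintype.card F) k))
    (htr : ∀ x y : X, ∃ g ∈ omegaGL (quadFormOdd (k + 2) F), AA act g x = y) :
    ∀ (x : X), ∀ g ∈ omegaGL (quadFormOdd (k + 2) F), AA act g x = x := by
  intro x g hg
  have ha : Fintype.card F = 2 + 1 := hF
  have h2 := f3_two_ne hF
  have hB := odd3_base (k := k) ha h2 hk
  set hQ := nd_oddQ (F := F) h2 (k + 2)
  obtain ⟨ψ, hψ⟩ := exists_psi (F := F)
  obtain ⟨p, hp, hp0, hQp⟩ := exists_singular hQ (⊤ : Submodule F (Unit ⊕ (Fin (k + 2) ⊕ Fin (k + 2)) → F)) (by simp; omega)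
  obtain ⟨p', -, hpp'⟩ := (Nd_top hQ).exists_partner hQ hp hp0 hQp
  have hA : Fintype.card F - 1 = 2 := by rw [hF]
  set G := GG (Fintype.card F) k with hG
  have hx := px_eq (k := k) ha
  rw [← hG] at hx
  have hG1 : 1 ≤ G := GG_pos hk
  have hqD : Fintype.card F ^ (2 * k + 3) = (2 + 1) ^ 3 * (px 2 G) ^ 2 := by
    rw [hx, ha]
    ring
  have hcardι : Fintype.card (Unit ⊕ (Fin (k + 2) ⊕ Fin (k + 2))) = 2 * k + 5 := by
    simp
    ring
  have he : ∀ t : F, t ≠ 0 → (Finset.univ.filter fun m : F => m ≠ 0 ∧ m ^ 2 = t).card ≤ 2 :=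
    fun t _ => he_odd t
  have hnV : ∀ {t : F}, t ≠ 0 → (Fintype.card F - 1) * Fintype.card F ^ (2 * k + 3) +
      Fintype.card F * on' 2 G ≤ NR (quadFormOdd (k + 2) F) ⊤ t := by
    intro t ht
    have hqq : Fintype.card F * on' 2 G = (2 + 1) * on' 2 G := by rw [ha]
    rw [hA, hqD, hqq]
    refine le_trans (le_of_eq ?_) (odd_NR_ge ha t)
    rw [← hG, ← F7, mul_assoc]
  have hn_le : ∀ {v v' : Unit ⊕ (Fin (k + 2) ⊕ Fin (k + 2)) → F}, Hyp (quadFormOdd (k + 2) F) v v' → ∀ {t : F}, t ≠ 0 →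
      on' 2 G ≤ NR (quadFormOdd (k + 2) F) (WW hQ v v') t := by
    intro v v' h t ht
    have h1 := split_NR hQ (R := ⊤) (a := v) (b := v') trivial trivial h t
    have h2 := hnV ht
    have e1 : WF (Ort hQ (Ort hQ ⊤ v) v') = WF (WW hQ v v') := rfl
    have e2 : NR (quadFormOdd (k + 2) F) (Ort hQ (Ort hQ ⊤ v) v') t = NR (quadFormOdd (k + 2) F) (WW hQ v v') t := rfl
    rw [e1, e2, hB.card_W h] at h1
    rw [h1] at h2
    have h3 := Nat.le_of_add_le_add_left h2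
    exact Nat.le_of_mul_le_mul_left h3 Fintype.card_pos
  have hCl : ∀ {v v' : Unit ⊕ (Fin (k + 2) ⊕ Fin (k + 2)) → F}, Hyp (quadFormOdd (k + 2) F) v v' →
      ∀ {u : Unit ⊕ (Fin (k + 2) ⊕ Fin (k + 2)) → F}, quadFormOdd (k + 2) F u ≠ 0 → on' 2 G ≤ (Cl hQ v v' u).card := by
    intro v v' h u hQu
    have h1 := Cl_bound (hQ := hQ) (n := on' 2 G) (e := 2) (v := v) (v' := v') hQu (fun _ ht => hn_le h ht) he
    rw [hA] at h1
    omega
  have hPw : oPw 2 G = 1 + Fintype.card F * (1 + (2 + 1) * oP2 2 G) := by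
    rw [hF]
    rfl
  have hK1 : oNs G ≤ 2 * Fintype.card F ^ (2 * k + 3) := by
    rw [hqD]
    exact T2
  have N : Num2 hQ (2 * k + 3) (oPw 2 G) (oN0 2 G) (oNs G) := by
    refine ⟨by omega, fun _ _ h => hB.card_W h, fun _ _ h => hB.card_Sg_W h, hB.hZ, hB.hN₀, T1, hK1, ?_, ⟨_, hPw⟩, by omega⟩
    intro v v' h u _ hQu
    have h1 := hCl h hQu
    have h3 : 2 * oNs G = 2 * Fintype.card F ^ (2 * k + 3) + 3 * on' 2 G := by
      rw [hqD]
      exact T3
    have h4 : Fintype.card F * (Cl hQ v v' u).card = 3 * (Cl hQ v v' u).card := by rw [hF]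
    have h5 : 1 ≤ on' 2 G := T4
    rw [hA, h4]
    omega
  have hq : Fintype.card F = 2 ∨ Fintype.card F = 3 := Or.inr hF
  have hw : ∀ T : Submodule F (Unit ⊕ (Fin (k + 2) ⊕ Fin (k + 2)) → F), (∀ x ∈ T, quadFormOdd (k + 2) F x = 0) →
      Module.finrank F T ≤ k + 2 :=
    witt_bound hQ (by simp; omega)
  have hc₀ : ∀ c, (Fintype.card F - 1) * oP2 2 G ≤ c * (Fintype.card F ^ k - 1) → px 2 G + 1 ≤ c := by
    intro c hc
    have h8 : (2 + 1) ^ k - 1 = 2 * G := by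
      rw [← hx, px, Nat.add_sub_cancel]
    rw [hA, ha, h8, oP2, mul_comm c, ← mul_assoc] at hc
    exact Nat.le_of_mul_le_mul_left hc (Nat.mul_pos (by omega) hG1)
  have hs' : ∀ a a' : Unit ⊕ (Fin (k + 2) ⊕ Fin (k + 2)) → F, Hyp (quadFormOdd (k + 2) F) a a' →
      ∀ u u' : Unit ⊕ (Fin (k + 2) ⊕ Fin (k + 2)) → F, u ∈ WW hQ a a' → u' ∈ WW hQ a a' → Hyp (quadFormOdd (k + 2) F) u u' →
      (Fintype.card F - 1) * oP2 2 G ≤ (Sg (quadFormOdd (k + 2) F) (Ort hQ (Ort hQ (WW hQ a a') u) u')).card := by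
    intro v v' h u u' hu hu' huu'
    rw [hB.card_Sg_W₂ h hu hu' huu']
  have hgen : oNs G * (Fintype.card F ^ (k + 1) - 1) ≤ (Fintype.card F - 1) * oPw 2 G * (px 2 G + 1) * Fintype.card F ^ (k + 1) := by
    have hM : Fintype.card F ^ (k + 1) = 3 * px 2 G := by
      rw [hx, ha]
      ring
    have hM1 : 3 * px 2 G - 1 = 6 * G + 2 := by
      simp only [px]
      omega
    rw [hA, hM, hM1]
    exact T6 hG1
  have hw2 : Fintype.card X < 2 * (WF (WW hQ p p')).card := by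
    rw [hB.card_W hpp']
    exact hN.trans_le hK1
  rcases Nat.lt_or_ge k 2 with hk2 | hk2
  · -- dimension seven
    obtain rfl : k = 1 := by omega
    have hG1' : G = 1 := by
      rw [hG]
      simp [GG]
    have hN' : Fintype.card X < 351 := by
      rw [hG1'] at hN
      exact hN
    have hfin : ∀ {a a' : Unit ⊕ (Fin (1 + 2) ⊕ Fin (1 + 2)) → F}, Hyp (quadFormOdd (1 + 2) F) a a' → Module.finrank F (WW hQ a a') ≤ 5 := by
      intro a a' h
      have := finrank_WW_le hQ h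
      omega
    refine core2 N hψ hN htr ?_ ?_ hpp' x hg
    · intro a a' haa' S hS
      have C : Ctx hQ act ψ a a' := ⟨N.hn, hψ, haa'⟩
      have hW := Nd_WW hQ haa'
      have hdim : 5 ≤ Module.finrank F (WW hQ a a') := C.finrank_W
      obtain ⟨y₀, hy₀⟩ := odd3_onb hF haa'
      have hcW := hB.card_W haa'
      have hNRW : ∀ t : F, NR (quadFormOdd (1 + 2) F) ⊤ t = (Fintype.card F - 1) * Fintype.card F ^ (2 * 1 + 3) + Fintype.card F * NR (quadFormOdd (1 + 2) F) (WW hQ a a') t := by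
        intro t
        have h1 := split_NR hQ (R := ⊤) (a := a) (b := a') trivial trivial haa' t
        have e1 : WF (Ort hQ (Ort hQ ⊤ a) a') = WF (WW hQ a a') := rfl
        have e2 : NR (quadFormOdd (1 + 2) F) (Ort hQ (Ort hQ ⊤ a) a') t = NR (quadFormOdd (1 + 2) F) (WW hQ a a') t := rfl
        rw [e1, e2, hcW] at h1
        exact h1
      have hlev : ∀ t : F, NR (quadFormOdd (1 + 2) F) ⊤ t = Nat.card {x : F // x ^ 2 = t} * (2 + 1) ^ (1 + 2) + (2 + 1) * (((2 + 1) ^ (1 + 2) - 1) * (2 + 1) ^ (1 + 2 - 1)) := by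
        intro t
        rw [NR_top, odd_level ha]
      refine C.tri7 hF hN' (hfin haa') (fun u hu hQu => ONB.exists_first hQ hW hdim hy₀ hu hQu) ?_ ?_ ?_ hS ?_
      · intro u _ hQu
        rw [Cl_eq_NR hF hQ (by rw [hQu]; exact one_ne_zero), hQu]
        have h1 := hNRW 1
        rw [hlev, card_sq_one hF, hF] at h1
        norm_num at h1
        omega
      · intro u _ hQu
        have hne : (-1 : F) ≠ 0 := by simp
        rw [Cl_eq_NR hF hQ (by rw [hQu]; exact hne), hQu]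
        have h1 := hNRW (-1)
        rw [hlev, card_sq_neg hF, hF] at h1
        norm_num at h1
        omega
      · rw [hB.card_Sg_W haa', hG1', hF]
        rfl
      · exact C.no_ts2 hN hw (hs' a a' haa') hc₀ (by rw [N.hs a a' haa']; exact hgen) hS
    · intro hR
      obtain ⟨y, hy⟩ := odd3_onb hF hpp'
      exact no_reg7 hF hpp' N.hn exists_psi (hfin hpp') hy hw2 x hR
  · refine main_small N hq hψ hN htr (w := k) (s' := (Fintype.card F - 1) * oP2 2 G) (c₀ := px 2 G + 1) ?_ ?_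
      hw hs' hc₀ hgen ?_ hpp' x hg
    · intro v v' _
      have := finrank_WW hQ v v'
      omega
    · intro v v' h u _ hQu
      have h1 := hCl h hQu
      have h2 : oNs G ≤ 5 * on' 2 G := T5 hG1
      omega
    · intro hR
      refine no_reg_large hpp' (by omega) exists_psi ?_ hw2 x hR
      have := finrank_WW hQ p p'
      omega

/-- The minimal index for the odd type over the field with three elements. -/
theorem odd3_lower (hF : Fintype.card F = 3) (hk : 1 ≤ k) (K : Subgroup (POmega F (quadFormOdd (k + 2) F))) (hK : K ≠ ⊤) :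
    oNs (GG (Fintype.card F) k) ≤ K.index :=
  index_lower (Q := quadFormOdd (k + 2) F) (fun X _ act hN htr => odd3_small hF hk X act hN htr) K hK

theorem odd3_exists (hF : Fintype.card F = 3) (hk : 1 ≤ k) :
    ∃ H : Subgroup (POmega F (quadFormOdd (k + 2) F)), H.index = oNs (GG (Fintype.card F) k) := by
  have ha : Fintype.card F = 2 + 1 := hF
  have h3 := f3_three hF
  have h2 := f3_two_ne hF
  set hQ := nd_oddQ (F := F) h2 (k + 2)
  obtain ⟨p, hp, hp0, hQp⟩ := exists_singular hQ (⊤ : Submodule F (Unit ⊕ (Fin (k + 2) ⊕ Fin (k + 2)) → F)) (by simp; omega)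
  obtain ⟨p', -, hpp'⟩ := (Nd_top hQ).exists_partner hQ hp hp0 hQp
  have hQ1 : quadFormOdd (k + 2) F (p - p') = -1 := by
    rw [Q_sub hQ, hpp'.ha, hpp'.hb, hpp'.hab]
    ring
  have hne : p - p' ≠ 0 := by
    intro h0
    rw [h0, Q_zero hQ] at hQ1
    apply one_ne_zero (α := F)
    linear_combination hQ1
  refine exists_index_ns hQ (by simp; omega) hpp' (fun t ht => f3_sq hF ht) hne ?_
  have h1 : NR (quadFormOdd (k + 2) F) ⊤ (-1) = 0 * (2 + 1) ^ (k + 2) + (2 + 1) * (((2 + 1) ^ (k + 2) - 1) * (2 + 1) ^ (k + 2 - 1)) := by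
    rw [NR_top, odd_level ha, card_sq_neg hF]
  rw [NR] at h1
  have h4 : (Finset.univ.filter fun y : Unit ⊕ (Fin (k + 2) ⊕ Fin (k + 2)) → F => y ≠ 0 ∧ quadFormOdd (k + 2) F y = quadFormOdd (k + 2) F (p - p')) =
      (WF (⊤ : Submodule F (Unit ⊕ (Fin (k + 2) ⊕ Fin (k + 2)) → F))).filter fun x => quadFormOdd (k + 2) F x = -1 := by
    ext y
    simp only [Finset.mem_filter, Finset.mem_univ, true_and, hQ1, mem_WF, Submodule.mem_top]
    constructor
    · exact fun h => h.2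
    · intro h
      refine ⟨?_, h⟩
      rintro rfl
      rw [Q_zero hQ] at h
      apply one_ne_zero (α := F)
      linear_combination h
  rw [h4, h1, hF]
  set G := GG 3 k with hG
  have hx : px 2 G = 3 ^ k := by rw [hG, px]; exact GG_mul 2 k
  have e1 : (2 + 1) ^ (k + 2) = 9 * px 2 G := by rw [hx]; ring
  have e2 : (2 + 1) ^ (k + 2 - 1) = 3 * px 2 G := by
    rw [hx, show k + 2 - 1 = k + 1 by omega]
    ring
  have e3 : 9 * px 2 G - 1 = 2 * (9 * G + 4) := by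
    simp only [px]
    omega
  rw [e1, e2, e3, oNs]
  ring

theorem odd3_num {g k : ℕ} (hg : g = GG 3 k) : 3 ^ (k + 2) * (3 ^ (k + 2) - 1) / 2 = oNs g := by
  have hx : px 2 g = 3 ^ k := by rw [hg, px]; exact GG_mul 2 k
  have e1 : 3 ^ (k + 2) = 9 * px 2 g := by rw [hx]; ring
  have e3 : 9 * px 2 g - 1 = 2 * (9 * g + 4) := by
    simp only [px]
    omega
  rw [e1, e3, oNs]
  rw [show 9 * px 2 g * (2 * (9 * g + 4)) = 2 * (9 * px 2 g * (9 * g + 4)) by ring]
  exact Nat.mul_div_cancel_left _ (by norm_num)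

end Cfsg.Agent.Lib.MinOmega
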