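/-
The plus type over the field with two elements.
-/
import Cfsg.Agent.Lib.MinOmega.SmallMain
import Cfsg.Agent.Lib.MinOmega.IndexNs
set_option autoImplicit false

namespace Cfsg.Agent.Lib.MinOmega

open Cfsg Cfsg.Geo Cfsg.Agent.Lib.Geo.Basic Cfsg.Agent.Lib.Geo.QForm Cfsg.Agent.Lib.GeoOmega.Basic
open Cfsg.Agent.Lib.GeoOmega.Eichler NumP
open scoped MatrixGroups Matrix
open scoped _root_.Classical

universe u

section abstract

variable {ι : Type} [Fintype ι] [DecidableEq ι] {F : Type*} [Field F] [Fintype F] {Q : (ι → F) → F}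

/-- **No regular action on the plus type in dimension eight over the field with two elements.** -/
theorem no_reg_plus8 {hQ : IsNondegenerateQuadraticForm Q} {X : Type*} [Fintype X] {act : ↥(omegaGL Q) →* Equiv.Perm X}
    {v v' a a' e e' b b' : ι → F} (hF : Fintype.card F = 2) (h : Hyp Q v v') (hn : Fintype.card ι = 8)
    (hψ : ∃ ψ : AddChar F ℂ, ∀ c : F, c ≠ 0 → ∃ t : F, ψ (t * c) ≠ 1)
    (Fr : Frame Q hQ (WW hQ v v') a a' e e') (hb : b ∈ W3 hQ (WW hQ v v') a a' e e') (hb' : b' ∈ W3 hQ (WW hQ v v') a a' e e')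
    (hbb' : Hyp Q b b') (hcard : Fintype.card X < 2 * (WF (WW hQ v v')).card) (x₀ : X)
    (hR : ∀ a : ι → F, a ≠ 0 → Q a = 0 → ∀ x, RegAt hQ act a x) : False := by
  obtain ⟨ψ, hψ⟩ := hψ
  have hn7 : 7 ≤ Fintype.card ι := by omega
  have C : Ctx hQ act ψ v v' := ⟨hn7, hψ, h⟩
  have hW := Nd_WW hQ h
  have hbm := mem_W3.mp hb
  have hbm' := mem_W3.mp hb'
  obtain ⟨hbW, z_a_b', z_ap_b', z_e_b', z_ep_b'⟩ := hbm
  obtain ⟨hbW', z_a_bp', z_ap_bp', z_e_bp', z_ep_bp'⟩ := hbm'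
  obtain ⟨z_a_e', z_ap_e', z_a_ep', z_ap_ep'⟩ := Fr.perp
  have z_a_e : pol Q a e = 0 := z_a_e'
  have z_e_a : pol Q e a = 0 := by rw [pol_symm hQ, z_a_e]
  have z_a_ep : pol Q a e' = 0 := z_a_ep'
  have z_ep_a : pol Q e' a = 0 := by rw [pol_symm hQ, z_a_ep]
  have z_a_b : pol Q a b = 0 := z_a_b'
  have z_b_a : pol Q b a = 0 := by rw [pol_symm hQ, z_a_b]
  have z_a_bp : pol Q a b' = 0 := z_a_bp'
  have z_bp_a : pol Q b' a = 0 := by rw [pol_symm hQ, z_a_bp]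
  have z_ap_e : pol Q a' e = 0 := z_ap_e'
  have z_e_ap : pol Q e a' = 0 := by rw [pol_symm hQ, z_ap_e]
  have z_ap_ep : pol Q a' e' = 0 := z_ap_ep'
  have z_ep_ap : pol Q e' a' = 0 := by rw [pol_symm hQ, z_ap_ep]
  have z_ap_b : pol Q a' b = 0 := z_ap_b'
  have z_b_ap : pol Q b a' = 0 := by rw [pol_symm hQ, z_ap_b]
  have z_ap_bp : pol Q a' b' = 0 := z_ap_bp'
  have z_bp_ap : pol Q b' a' = 0 := by rw [pol_symm hQ, z_ap_bp]
  have z_e_b : pol Q e b = 0 := z_e_b'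
  have z_b_e : pol Q b e = 0 := by rw [pol_symm hQ, z_e_b]
  have z_e_bp : pol Q e b' = 0 := z_e_bp'
  have z_bp_e : pol Q b' e = 0 := by rw [pol_symm hQ, z_e_bp]
  have z_ep_b : pol Q e' b = 0 := z_ep_b'
  have z_b_ep : pol Q b e' = 0 := by rw [pol_symm hQ, z_ep_b]
  have z_ep_bp : pol Q e' b' = 0 := z_ep_bp'
  have z_bp_ep : pol Q b' e' = 0 := by rw [pol_symm hQ, z_ep_bp]
  have o_a_ap : pol Q a a' = 1 := Fr.haa.hab
  have o_ap_a : pol Q a' a = 1 := by rw [pol_symm hQ, o_a_ap]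
  have o_e_ep : pol Q e e' = 1 := Fr.hcc.hab
  have o_ep_e : pol Q e' e = 1 := by rw [pol_symm hQ, o_e_ep]
  have o_b_bp : pol Q b b' = 1 := hbb'.hab
  have o_bp_b : pol Q b' b = 1 := by rw [pol_symm hQ, o_b_bp]
  have s_a : pol Q a a = 0 := pol_self2 hQ hF a
  have s_ap : pol Q a' a' = 0 := pol_self2 hQ hF a'
  have s_e : pol Q e e = 0 := pol_self2 hQ hF e
  have s_ep : pol Q e' e' = 0 := pol_self2 hQ hF e'
  have s_b : pol Q b b = 0 := pol_self2 hQ hF b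
  have s_bp : pol Q b' b' = 0 := pol_self2 hQ hF b'
  have hcW := Fr.cW
  have hc'W := Fr.c'W
  have haW := Fr.ha
  have ha'W := Fr.ha'
  set W := WW hQ v v' with hWdef
  have h2F := f2_two hF
  have hvv : ∀ x : ι → F, (2 : F) • x = 0 := f2_v hF
  set c := e + b + b' with hc
  have hcWm : c ∈ W := W.add_mem (W.add_mem hcW hbW) hbW'
  have hac : pol Q a c = 0 := by
    rw [hc]
    simp only [pol_add_left hQ, pol_add_right hQ, pol_smul_left hQ, pol_smul_right hQ, pol_zero_right hQ, z_a_e, z_e_a, z_a_ep, z_ep_a, z_a_b, z_b_a, z_a_bp, z_bp_a, z_ap_e, z_e_ap, z_ap_ep, z_ep_ap, z_ap_b, z_b_ap, z_ap_bp, z_bp_ap, z_e_b, z_b_e, z_e_bp, z_bp_e, z_ep_b, z_b_ep, z_ep_bp, z_bp_ep, o_a_ap, o_ap_a, o_e_ep, o_ep_e, o_b_bp, o_bp_b, s_a, s_ap, s_e, s_ep, s_b, s_bp]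
    ring
  have hca : c ∉ Submodule.span F {a} := by
    intro hm
    obtain ⟨t, ht⟩ := Submodule.mem_span_singleton.mp hm
    have h1 := congrArg (pol Q a') ht
    have h2 := congrArg (pol Q e') ht
    rw [hc] at h1 h2
    simp only [pol_add_left hQ, pol_add_right hQ, pol_smul_left hQ, pol_smul_right hQ, pol_zero_right hQ, z_a_e, z_e_a, z_a_ep, z_ep_a, z_a_b, z_b_a, z_a_bp, z_bp_a, z_ap_e, z_e_ap, z_ap_ep, z_ep_ap, z_ap_b, z_b_ap, z_ap_bp, z_bp_ap, z_e_b, z_b_e, z_e_bp, z_bp_e, z_ep_b, z_b_ep, z_ep_bp, z_bp_ep, o_a_ap, o_ap_a, o_e_ep, o_ep_e, o_b_bp, o_bp_b, s_a, s_ap, s_e, s_ep, s_b, s_bp] at h1 h2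
    have ht0 : t = 0 := by linear_combination h1
    rw [ht0] at h2
    simp at h2
  refine C.no_reg_of_force hR hcard x₀ haW hcWm Fr.a_ne Fr.haa.ha hac hca (fun d hd hd2 H => ?_)
  have hQc : Q c = 1 := by
    rw [hc, Q_add hQ, Q_add hQ, Fr.hcc.ha, hbb'.ha, hbb'.hb]
    simp only [pol_add_left hQ, pol_add_right hQ, pol_smul_left hQ, pol_smul_right hQ, pol_zero_right hQ, z_a_e, z_e_a, z_a_ep, z_ep_a, z_a_b, z_b_a, z_a_bp, z_bp_a, z_ap_e, z_e_ap, z_ap_ep, z_ep_ap, z_ap_b, z_b_ap, z_ap_bp, z_bp_ap, z_e_b, z_b_e, z_e_bp, z_bp_e, z_ep_b, z_b_ep, z_ep_bp, z_bp_ep, o_a_ap, o_ap_a, o_e_ep, o_ep_e, o_b_bp, o_bp_b, s_a, s_ap, s_e, s_ep, s_b, s_bp]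
    ring
  -- orthogonality to the centre and the parameter
  have hd2' := hd2 h2F
  have hd3 : pol Q d c • a - pol Q d a • c - (Q c * pol Q d a) • a = 0 := by
    unfold eE at hd2'
    linear_combination (norm := module) hd2'
  have hda : pol Q d a = 0 := by
    have h1 := congrArg (pol Q e') hd3
    rw [hc] at h1
    simp only [pol_sub_right hQ, pol_add_left hQ, pol_add_right hQ, pol_smul_left hQ, pol_smul_right hQ, pol_zero_right hQ, z_a_e, z_e_a, z_a_ep, z_ep_a, z_a_b, z_b_a, z_a_bp, z_bp_a, z_ap_e, z_e_ap, z_ap_ep, z_ep_ap, z_ap_b, z_b_ap, z_ap_bp, z_bp_ap, z_e_b, z_b_e, z_e_bp, z_bp_e, z_ep_b, z_b_ep, z_ep_bp, z_bp_ep, o_a_ap, o_ap_a, o_e_ep, o_ep_e, o_b_bp, o_bp_b, s_a, s_ap, s_e, s_ep, s_b, s_bp] at h1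
    linear_combination -h1
  have hdc : pol Q d c = 0 := by
    have h1 := congrArg (pol Q a') hd3
    rw [hda, hc] at h1
    simp only [pol_sub_right hQ, pol_add_left hQ, pol_add_right hQ, pol_smul_left hQ, pol_smul_right hQ, pol_zero_right hQ, z_a_e, z_e_a, z_a_ep, z_ep_a, z_a_b, z_b_a, z_a_bp, z_bp_a, z_ap_e, z_e_ap, z_ap_ep, z_ep_ap, z_ap_b, z_b_ap, z_ap_bp, z_bp_ap, z_e_b, z_b_e, z_e_bp, z_bp_e, z_ep_b, z_b_ep, z_ep_bp, z_bp_ep, o_a_ap, o_ap_a, o_e_ep, o_ep_e, o_b_bp, o_bp_b, s_a, s_ap, s_e, s_ep, s_b, s_bp] at h1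
    rw [hc, pol_add_right hQ, pol_add_right hQ]
    linear_combination h1
  -- the rotation
  set y₁ := b + b' with hy₁
  set y₂ := b + e + e' with hy₂
  have hQy₁ : Q y₁ ≠ 0 := by
    rw [hy₁, Q_add hQ, hbb'.ha, hbb'.hb, o_b_bp]
    simp
  have hQy₂ : Q y₂ ≠ 0 := by
    rw [hy₂, Q_add hQ, Q_add hQ, hbb'.ha, Fr.hcc.ha, Fr.hcc.hb]
    simp only [pol_add_left hQ, pol_add_right hQ, pol_smul_left hQ, pol_smul_right hQ, pol_zero_right hQ, z_a_e, z_e_a, z_a_ep, z_ep_a, z_a_b, z_b_a, z_a_bp, z_bp_a, z_ap_e, z_e_ap, z_ap_ep, z_ep_ap, z_ap_b, z_b_ap, z_ap_bp, z_bp_ap, z_e_b, z_b_e, z_e_bp, z_bp_e, z_ep_b, z_b_ep, z_ep_bp, z_bp_ep, o_a_ap, o_ap_a, o_e_ep, o_ep_e, o_b_bp, o_bp_b, s_a, s_ap, s_e, s_ep, s_b, s_bp]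
    simp
  have hp12 : pol Q y₁ y₂ ≠ 0 := by
    rw [hy₁, hy₂]
    simp only [pol_add_left hQ, pol_add_right hQ, pol_smul_left hQ, pol_smul_right hQ, pol_zero_right hQ, z_a_e, z_e_a, z_a_ep, z_ep_a, z_a_b, z_b_a, z_a_bp, z_bp_a, z_ap_e, z_e_ap, z_ap_ep, z_ep_ap, z_ap_b, z_b_ap, z_ap_bp, z_bp_ap, z_e_b, z_b_e, z_e_bp, z_bp_e, z_ep_b, z_b_ep, z_ep_bp, z_bp_ep, o_a_ap, o_ap_a, o_e_ep, o_ep_e, o_b_bp, o_bp_b, s_a, s_ap, s_e, s_ep, s_b, s_bp]
    simp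
  obtain ⟨z, hz, hzf⟩ := exists_rot2 hQ hF hQy₁ hQy₂ hp12
  have hfix : ∀ x, pol Q x y₁ = 0 → pol Q x y₂ = 0 → (z : Matrix ι ι F) *ᵥ x = x := by
    intro x h1 h2
    rw [hzf, h1, h2]
    simp
  have hy₁W : y₁ ∈ W := W.add_mem hbW hbW'
  have hy₂W : y₂ ∈ W := W.add_mem (W.add_mem hbW hcW) hc'W
  have hL := levi_of_fix hz hfix hy₁W hy₂W
  have hcomm : z * rr hQ a c = rr hQ a c * z := by
    refine comm_of_fix hQ (omega_iso hz) Fr.haa.ha hac (hfix a ?_ ?_) (hfix c ?_ ?_)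
    · rw [hy₁]
      simp only [pol_add_left hQ, pol_add_right hQ, pol_smul_left hQ, pol_smul_right hQ, pol_zero_right hQ, z_a_e, z_e_a, z_a_ep, z_ep_a, z_a_b, z_b_a, z_a_bp, z_bp_a, z_ap_e, z_e_ap, z_ap_ep, z_ep_ap, z_ap_b, z_b_ap, z_ap_bp, z_bp_ap, z_e_b, z_b_e, z_e_bp, z_bp_e, z_ep_b, z_b_ep, z_ep_bp, z_bp_ep, o_a_ap, o_ap_a, o_e_ep, o_ep_e, o_b_bp, o_bp_b, s_a, s_ap, s_e, s_ep, s_b, s_bp]
      ring
    · rw [hy₂]
      simp only [pol_add_left hQ, pol_add_right hQ, pol_smul_left hQ, pol_smul_right hQ, pol_zero_right hQ, z_a_e, z_e_a, z_a_ep, z_ep_a, z_a_b, z_b_a, z_a_bp, z_bp_a, z_ap_e, z_e_ap, z_ap_ep, z_ep_ap, z_ap_b, z_b_ap, z_ap_bp, z_bp_ap, z_e_b, z_b_e, z_e_bp, z_bp_e, z_ep_b, z_b_ep, z_ep_bp, z_bp_ep, o_a_ap, o_ap_a, o_e_ep, o_ep_e, o_b_bp, o_bp_b, s_a, s_ap, s_e, s_ep, s_b, s_bp]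
      ring
    · rw [hc, hy₁]
      simp only [pol_add_left hQ, pol_add_right hQ, pol_smul_left hQ, pol_smul_right hQ, pol_zero_right hQ, z_a_e, z_e_a, z_a_ep, z_ep_a, z_a_b, z_b_a, z_a_bp, z_bp_a, z_ap_e, z_e_ap, z_ap_ep, z_ep_ap, z_ap_b, z_b_ap, z_ap_bp, z_bp_ap, z_e_b, z_b_e, z_e_bp, z_bp_e, z_ep_b, z_b_ep, z_ep_bp, z_bp_ep, o_a_ap, o_ap_a, o_e_ep, o_ep_e, o_b_bp, o_bp_b, s_a, s_ap, s_e, s_ep, s_b, s_bp]
      linear_combination h2F
    · rw [hc, hy₂]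
      simp only [pol_add_left hQ, pol_add_right hQ, pol_smul_left hQ, pol_smul_right hQ, pol_zero_right hQ, z_a_e, z_e_a, z_a_ep, z_ep_a, z_a_b, z_b_a, z_a_bp, z_bp_a, z_ap_e, z_e_ap, z_ap_ep, z_ep_ap, z_ap_b, z_b_ap, z_ap_bp, z_bp_ap, z_e_b, z_b_e, z_e_bp, z_bp_e, z_ep_b, z_b_ep, z_ep_bp, z_bp_ep, o_a_ap, o_ap_a, o_e_ep, o_ep_e, o_b_bp, o_bp_b, s_a, s_ap, s_e, s_ep, s_b, s_bp]
      linear_combination h2F
  have hδ := H z hL hcomm
  have hdiff : (z : Matrix ι ι F) *ᵥ d - d = pol Q d y₁ • y₁ + (pol Q d y₁ + pol Q d y₂) • y₂ := by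
    rw [hzf]
    abel
  rw [hdiff] at hδ
  obtain ⟨α, β, hαβ⟩ := Submodule.mem_span_pair.mp hδ
  set A := pol Q d y₁ with hA
  set B := pol Q d y₂ with hB
  have e1 := congrArg (pol Q a') hαβ
  have e2 := congrArg (pol Q e) hαβ
  have e3 := congrArg (pol Q e') hαβ
  have e4 := congrArg (pol Q b') hαβ
  rw [hc, hy₁, hy₂] at e1 e2 e3 e4
  simp only [pol_add_left hQ, pol_add_right hQ, pol_smul_left hQ, pol_smul_right hQ, pol_zero_right hQ, z_a_e, z_e_a, z_a_ep, z_ep_a, z_a_b, z_b_a, z_a_bp, z_bp_a, z_ap_e, z_e_ap, z_ap_ep, z_ep_ap, z_ap_b, z_b_ap, z_ap_bp, z_bp_ap, z_e_b, z_b_e, z_e_bp, z_bp_e, z_ep_b, z_b_ep, z_ep_bp, z_bp_ep, o_a_ap, o_ap_a, o_e_ep, o_ep_e, o_b_bp, o_bp_b, s_a, s_ap, s_e, s_ep, s_b, s_bp] at e1 e2 e3 e4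
  have hAB : A + B = 0 := by linear_combination -e2
  have hβ : β = 0 := by
    rw [hAB] at e3
    linear_combination e3
  have hA0 : A = 0 := by
    rw [hAB, hβ] at e4
    linear_combination -e4
  have hB0 : B = 0 := by linear_combination hAB - hA0
  have ht : ∀ s : F, s + s = 0 := by
    intro s
    have : s + s = 2 * s := by ring
    rw [this, h2F, zero_mul]
  have hneg : ∀ {s t : F}, s + t = 0 → t = s := by
    intro s t hst
    have := eq_neg_of_add_eq_zero_right hst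
    rw [this]
    exact (eq_neg_of_add_eq_zero_left (ht s)).symm
  have ex1 : pol Q d b + pol Q d b' = 0 := by
    rw [hA, hy₁, pol_add_right hQ] at hA0
    exact hA0
  have ex2 : pol Q d b + pol Q d e + pol Q d e' = 0 := by
    rw [hB, hy₂, pol_add_right hQ, pol_add_right hQ] at hB0
    exact hB0
  have ex3 : pol Q d e + pol Q d b + pol Q d b' = 0 := by
    rw [hc, pol_add_right hQ, pol_add_right hQ] at hdc
    exact hdc
  have hde : pol Q d e = 0 := by linear_combination ex3 - ex1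
  have hde' : pol Q d e' = pol Q d b := by
    rw [hde, add_zero] at ex2
    exact hneg ex2
  have hdb' : pol Q d b' = pol Q d b := hneg ex1
  -- the last complement is trivial
  set Y := W3 hQ W a a' e e' with hY
  have hfr : Module.finrank F Y + 4 ≤ Module.finrank F W := Fr.finrank3_le
  have hd1 : Module.finrank F W + 2 ≤ 8 := by
    have h1 := finrank_Ort_lt hQ (R := ⊤) (x := v) (y := v') trivial (by rw [h.hab]; exact one_ne_zero)
    have h2 := finrank_Ort_lt hQ (R := Ort hQ ⊤ v) (x := v') (y := v) ((mem_Ort hQ).mpr ⟨trivial, pol_singular hQ h.ha⟩)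
      (by rw [pol_symm hQ, h.hab]; exact one_ne_zero)
    have h3 : Module.finrank F (⊤ : Submodule F (ι → F)) = Fintype.card ι := by simp
    rw [hWdef, WW]
    omega
  have hf1 := finrank_Ort_lt hQ hb' (x := b) (y := b') (by rw [hbb'.hab]; exact one_ne_zero)
  have hf2 := finrank_Ort_lt hQ (R := Ort hQ Y b) (x := b') (y := b) ((mem_Ort hQ).mpr ⟨hb, pol_singular hQ hbb'.ha⟩)
    (by rw [pol_symm hQ, hbb'.hab]; exact one_ne_zero)
  set W₄ := Ort hQ (Ort hQ Y b) b' with hW₄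
  have hW₄0 : W₄ = ⊥ := by
    apply Submodule.finrank_eq_zero.mp
    omega
  set d₀ := d - pol Q d a' • a - pol Q d b • (e + b + b') with hd₀
  have hpd : ∀ x, pol Q x d = pol Q d x := fun x => pol_symm hQ x d
  have hd₀m : d₀ ∈ W₄ := by
    rw [hW₄, mem_Ort hQ, mem_Ort hQ, hY, mem_W3]
    refine ⟨⟨⟨W.sub_mem (W.sub_mem hd (W.smul_mem _ haW)) (W.smul_mem _ hcWm), ?_, ?_, ?_, ?_⟩, ?_⟩, ?_⟩
    · rw [hd₀]
      simp only [pol_sub_right hQ, pol_add_left hQ, pol_add_right hQ, pol_smul_left hQ, pol_smul_right hQ, pol_zero_right hQ, z_a_e, z_e_a, z_a_ep, z_ep_a, z_a_b, z_b_a, z_a_bp, z_bp_a, z_ap_e, z_e_ap, z_ap_ep, z_ep_ap, z_ap_b, z_b_ap, z_ap_bp, z_bp_ap, z_e_b, z_b_e, z_e_bp, z_bp_e, z_ep_b, z_b_ep, z_ep_bp, z_bp_ep, o_a_ap, o_ap_a, o_e_ep, o_ep_e, o_b_bp, o_bp_b, s_a, s_ap, s_e, s_ep, s_b, s_bp, hpd, hda]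
      ring
    · rw [hd₀]
      simp only [pol_sub_right hQ, pol_add_left hQ, pol_add_right hQ, pol_smul_left hQ, pol_smul_right hQ, pol_zero_right hQ, z_a_e, z_e_a, z_a_ep, z_ep_a, z_a_b, z_b_a, z_a_bp, z_bp_a, z_ap_e, z_e_ap, z_ap_ep, z_ep_ap, z_ap_b, z_b_ap, z_ap_bp, z_bp_ap, z_e_b, z_b_e, z_e_bp, z_bp_e, z_ep_b, z_b_ep, z_ep_bp, z_bp_ep, o_a_ap, o_ap_a, o_e_ep, o_ep_e, o_b_bp, o_bp_b, s_a, s_ap, s_e, s_ep, s_b, s_bp, hpd]
      ring
    · rw [hd₀]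
      simp only [pol_sub_right hQ, pol_add_left hQ, pol_add_right hQ, pol_smul_left hQ, pol_smul_right hQ, pol_zero_right hQ, z_a_e, z_e_a, z_a_ep, z_ep_a, z_a_b, z_b_a, z_a_bp, z_bp_a, z_ap_e, z_e_ap, z_ap_ep, z_ep_ap, z_ap_b, z_b_ap, z_ap_bp, z_bp_ap, z_e_b, z_b_e, z_e_bp, z_bp_e, z_ep_b, z_b_ep, z_ep_bp, z_bp_ep, o_a_ap, o_ap_a, o_e_ep, o_ep_e, o_b_bp, o_bp_b, s_a, s_ap, s_e, s_ep, s_b, s_bp, hpd, hde]
      ring
    · rw [hd₀]
      simp only [pol_sub_right hQ, pol_add_left hQ, pol_add_right hQ, pol_smul_left hQ, pol_smul_right hQ, pol_zero_right hQ, z_a_e, z_e_a, z_a_ep, z_ep_a, z_a_b, z_b_a, z_a_bp, z_bp_a, z_ap_e, z_e_ap, z_ap_ep, z_ep_ap, z_ap_b, z_b_ap, z_ap_bp, z_bp_ap, z_e_b, z_b_e, z_e_bp, z_bp_e, z_ep_b, z_b_ep, z_ep_bp, z_bp_ep, o_a_ap, o_ap_a, o_e_ep, o_ep_e, o_b_bp, o_bp_b, s_a, s_ap, s_e, s_ep, s_b, s_bp, hpd, hde']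
      ring
    · rw [hd₀]
      simp only [pol_sub_right hQ, pol_add_left hQ, pol_add_right hQ, pol_smul_left hQ, pol_smul_right hQ, pol_zero_right hQ, z_a_e, z_e_a, z_a_ep, z_ep_a, z_a_b, z_b_a, z_a_bp, z_bp_a, z_ap_e, z_e_ap, z_ap_ep, z_ep_ap, z_ap_b, z_b_ap, z_ap_bp, z_bp_ap, z_e_b, z_b_e, z_e_bp, z_bp_e, z_ep_b, z_b_ep, z_ep_bp, z_bp_ep, o_a_ap, o_ap_a, o_e_ep, o_ep_e, o_b_bp, o_bp_b, s_a, s_ap, s_e, s_ep, s_b, s_bp, hpd, hdb']
      ring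
    · rw [hd₀]
      simp only [pol_sub_right hQ, pol_add_left hQ, pol_add_right hQ, pol_smul_left hQ, pol_smul_right hQ, pol_zero_right hQ, z_a_e, z_e_a, z_a_ep, z_ep_a, z_a_b, z_b_a, z_a_bp, z_bp_a, z_ap_e, z_e_ap, z_ap_ep, z_ep_ap, z_ap_b, z_b_ap, z_ap_bp, z_bp_ap, z_e_b, z_b_e, z_e_bp, z_bp_e, z_ep_b, z_b_ep, z_ep_bp, z_bp_ep, o_a_ap, o_ap_a, o_e_ep, o_ep_e, o_b_bp, o_bp_b, s_a, s_ap, s_e, s_ep, s_b, s_bp, hpd, hdb']
      ring
  rw [hW₄0, Submodule.mem_bot] at hd₀m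
  have efin : d = pol Q d a' • a + pol Q d b • c := by
    rw [hc]
    linear_combination (norm := module) hd₀m
  rw [efin]
  exact Submodule.add_mem _ (Submodule.smul_mem _ _ (Submodule.subset_span (by simp)))
    (Submodule.smul_mem _ _ (Submodule.subset_span (by simp)))

end abstract

section plus2

variable {F : Type u} [Field F] [Fintype F] {k : ℕ}

namespace NumP

def pNs (g : ℕ) : ℕ := 4 * px 1 g * pg0 1 g

theorem Q1 {g : ℕ} : pNs g ≤ pN0 1 g := by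
  simp only [pNs, px, pg2, pg1, pg0, pP2, pPw, pN0, pn]
  refine Nat.le.intro (k := 8*g + 7) ?_
  ring

theorem Q2 {g : ℕ} : pNs g ≤ 2 * ((1 + 1) ^ 4 * (px 1 g) ^ 2) := by
  simp only [pNs, px, pg2, pg1, pg0, pP2, pPw, pN0, pn]
  refine Nat.le.intro (k := 4*g + 4) ?_
  ring

theorem Q3 {g : ℕ} : pNs g = (1 + 1) ^ 4 * (px 1 g) ^ 2 + 2 * pn 1 g := by
  simp only [pNs, px, pg2, pg1, pg0, pP2, pPw, pN0, pn]
  ring

theorem Q5 {g : ℕ} : pNs g ≤ 5 * pn 1 g := by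
  simp only [pNs, px, pg2, pg1, pg0, pP2, pPw, pN0, pn]
  refine Nat.le.intro (k := 8*g^2 + 10*g + 2) ?_
  ring

theorem Q6 {g : ℕ} (hg : 1 ≤ g) : pNs g * pg1 1 g ≤ 1 * pPw 1 g * (px 1 g + 1) * (4 * px 1 g) := by
  obtain ⟨B, rfl⟩ : ∃ B, g = B + 1 := ⟨g - 1, by omega⟩
  simp only [pNs, px, pg2, pg1, pg0, pP2, pPw, pN0, pn]
  refine Nat.le.intro (k := 32*B^4 + 168*B^3 + 292*B^2 + 168*B) ?_
  ring

theorem Q7 {g : ℕ} : 1 ≤ pn 1 g := by
  simp only [pNs, px, pg2, pg1, pg0, pP2, pPw, pN0, pn]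
  refine Nat.le.intro (k := 8*g^2 + 14*g + 5) ?_
  ring

end NumP

theorem plus_base {a : ℕ} (ha : Fintype.card F = a + 1) (hk : 1 ≤ k) :
    Base (nd_plusQ (F := F) (k + 3)) (2 * k + 4) (pP2 a (GG (Fintype.card F) k))
    (pPw a (GG (Fintype.card F) k)) (pN0 a (GG (Fintype.card F) k)) := by
  set g := GG (Fintype.card F) k with hg
  have hx := px_eq (k := k) ha
  rw [← hg] at hx
  refine ⟨?_, by omega, ?_, ?_, ?_⟩
  · simp
    omega
  · exact plus_Sg ha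
  · rw [E1, ha, show (a + 1) ^ (2 * k + 4) = (a + 1) ^ 4 * ((a + 1) ^ k) ^ 2 by ring, hx]
  · rw [E2, ha, show 2 * k + 4 - 2 = 2 * k + 2 by omega, show (a + 1) ^ (2 * k + 2) = (a + 1) ^ 2 * ((a + 1) ^ k) ^ 2 by ring, hx]

theorem pol_plus {m : ℕ} (x y : Fin m ⊕ Fin m → F) :
    pol (quadFormPlus m F) x y = ∑ i, (x (Sum.inl i) * y (Sum.inr i) + x (Sum.inr i) * y (Sum.inl i)) := by
  simp only [pol, QuadraticMap.polar, quadFormPlus, Pi.add_apply]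
  rw [← Finset.sum_sub_distrib, ← Finset.sum_sub_distrib]
  refine Finset.sum_congr rfl fun i _ => ?_
  ring

/-- The regular world does not occur in dimension eight. -/
theorem no_reg_plus_four (hF : Fintype.card F = 2) {X : Type u} [Fintype X]
    (act : omegaGL (quadFormPlus 4 F) →* Equiv.Perm X)
    (hcard : ∀ v v' : Fin 4 ⊕ Fin 4 → F, Hyp (quadFormPlus 4 F) v v' →
      Fintype.card X < 2 * (WF (WW (nd_plusQ (F := F) 4) v v')).card) (x₀ : X)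
    (hR : ∀ a : Fin 4 ⊕ Fin 4 → F, a ≠ 0 → quadFormPlus 4 F a = 0 → ∀ x, RegAt (nd_plusQ (F := F) 4) act a x) : False := by
  set hQ := nd_plusQ (F := F) 4
  let E : Fin 4 → (Fin 4 ⊕ Fin 4 → F) := fun i => Pi.single (Sum.inl i) 1
  let E' : Fin 4 → (Fin 4 ⊕ Fin 4 → F) := fun i => Pi.single (Sum.inr i) 1
  have hpE : ∀ i y, pol (quadFormPlus 4 F) (E i) y = y (Sum.inr i) := by
    intro i y
    rw [pol_plus]
    simp [E, Pi.single_apply]
  have hpE' : ∀ i y, pol (quadFormPlus 4 F) (E' i) y = y (Sum.inl i) := by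
    intro i y
    rw [pol_plus]
    simp [E', Pi.single_apply]
  have hH : ∀ i, Hyp (quadFormPlus 4 F) (E i) (E' i) := by
    intro i
    refine ⟨?_, ?_, ?_⟩
    · simp [E, quadFormPlus, Pi.single_apply]
    · simp [E', quadFormPlus, Pi.single_apply]
    · rw [hpE]
      simp [E']
  have h0 := hH 0
  have hW : ∀ {x : Fin 4 ⊕ Fin 4 → F}, x (Sum.inr 0) = 0 → x (Sum.inl 0) = 0 → x ∈ WW hQ (E 0) (E' 0) := by
    intro x h1 h2
    rw [mem_WW hQ, hpE, hpE']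
    exact ⟨h1, h2⟩
  have hW₂ : ∀ {x : Fin 4 ⊕ Fin 4 → F}, x (Sum.inr 0) = 0 → x (Sum.inl 0) = 0 → x (Sum.inr 1) = 0 → x (Sum.inl 1) = 0 →
      x ∈ Ort hQ (Ort hQ (WW hQ (E 0) (E' 0)) (E 1)) (E' 1) := by
    intro x h1 h2 h3 h4
    rw [mem_Ort hQ, mem_Ort hQ, hpE, hpE']
    exact ⟨⟨hW h1 h2, h3⟩, h4⟩
  have Fr : Frame (quadFormPlus 4 F) hQ (WW hQ (E 0) (E' 0)) (E 1) (E' 1) (E 2) (E' 2) := by
    refine ⟨hW ?_ ?_, hW ?_ ?_, hH 1, hW₂ ?_ ?_ ?_ ?_, hW₂ ?_ ?_ ?_ ?_, hH 2⟩ <;> simp [E, E', Pi.single_apply]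
  have hb : ∀ {x : Fin 4 ⊕ Fin 4 → F}, x (Sum.inr 0) = 0 → x (Sum.inl 0) = 0 → x (Sum.inr 1) = 0 → x (Sum.inl 1) = 0 →
      x (Sum.inr 2) = 0 → x (Sum.inl 2) = 0 → x ∈ W3 hQ (WW hQ (E 0) (E' 0)) (E 1) (E' 1) (E 2) (E' 2) := by
    intro x h1 h2 h3 h4 h5 h6
    rw [mem_W3]
    refine ⟨hW h1 h2, ?_, ?_, ?_, ?_⟩
    · rw [hpE]; exact h3
    · rw [hpE']; exact h4
    · rw [hpE]; exact h5
    · rw [hpE']; exact h6
  refine no_reg_plus8 (b := E 3) (b' := E' 3) hF h0 (by simp) exists_psi Fr ?_ ?_ (hH 3) (hcard _ _ h0) x₀ hR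
  · apply hb <;> simp [E, Pi.single_apply]
  · apply hb <;> simp [E', Pi.single_apply]

/-- The small-orbit theorem for the plus type over the field with two elements. -/
theorem plus2_small (hF : Fintype.card F = 2) (hk : 1 ≤ k) (X : Type u) [Fintype X]
    (act : omegaGL (quadFormPlus (k + 3) F) →* Equiv.Perm X)
    (hN : Fintype.card X < pNs (GG (Fintype.card F) k))
    (htr : ∀ x y : X, ∃ g ∈ omegaGL (quadFormPlus (k + 3) F), AA act g x = y) :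
    ∀ (x : X), ∀ g ∈ omegaGL (quadFormPlus (k + 3) F), AA act g x = x := by
  intro x g hg
  have ha : Fintype.card F = 1 + 1 := hF
  have hB := plus_base (k := k) ha hk
  set hQ := nd_plusQ (F := F) (k + 3)
  obtain ⟨ψ, hψ⟩ := exists_psi (F := F)
  obtain ⟨p, hp, hp0, hQp⟩ := exists_singular hQ (⊤ : Submodule F (Fin (k + 3) ⊕ Fin (k + 3) → F)) (by simp; omega)
  obtain ⟨p', -, hpp'⟩ := (Nd_top hQ).exists_partner hQ hp hp0 hQp
  have hA : Fintype.card F - 1 = 1 := by rw [hF]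
  set G := GG (Fintype.card F) k with hG
  have hx := px_eq (k := k) ha
  rw [← hG] at hx
  have hG1 : 1 ≤ G := GG_pos hk
  have hqD : Fintype.card F ^ (2 * k + 4) = (1 + 1) ^ 4 * (px 1 G) ^ 2 := by
    rw [hx, ha]
    ring
  have hcardι : Fintype.card (Fin (k + 3) ⊕ Fin (k + 3)) = 2 * k + 6 := by
    simp
    ring
  have he : ∀ t : F, t ≠ 0 → (Finset.univ.filter fun m : F => m ≠ 0 ∧ m ^ 2 = t).card ≤ 1 := by
    intro t _
    exact he_even (f2_two hF) t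
  have hnV : ∀ {t : F}, t ≠ 0 → (Fintype.card F - 1) * Fintype.card F ^ (2 * k + 4) +
      Fintype.card F * pn 1 G ≤ NR (quadFormPlus (k + 3) F) ⊤ t := by
    intro t ht
    have hqq : Fintype.card F * pn 1 G = (1 + 1) * pn 1 G := by rw [ha]
    rw [plus_NR ha, if_neg ht, zero_add, hA, ← hG, hqD, hqq, ← E5, mul_assoc]
  have hn_le : ∀ {v v' : Fin (k + 3) ⊕ Fin (k + 3) → F}, Hyp (quadFormPlus (k + 3) F) v v' → ∀ {t : F}, t ≠ 0 →
      pn 1 G ≤ NR (quadFormPlus (k + 3) F) (WW hQ v v') t := by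
    intro v v' h t ht
    have h1 := split_NR hQ (R := ⊤) (a := v) (b := v') trivial trivial h t
    have h2 := hnV ht
    have e1 : WF (Ort hQ (Ort hQ ⊤ v) v') = WF (WW hQ v v') := rfl
    have e2 : NR (quadFormPlus (k + 3) F) (Ort hQ (Ort hQ ⊤ v) v') t = NR (quadFormPlus (k + 3) F) (WW hQ v v') t := rfl
    rw [e1, e2, hB.card_W h] at h1
    rw [h1] at h2
    have h3 := Nat.le_of_add_le_add_left h2
    exact Nat.le_of_mul_le_mul_left h3 Fintype.card_pos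
  have hCl : ∀ {v v' : Fin (k + 3) ⊕ Fin (k + 3) → F}, Hyp (quadFormPlus (k + 3) F) v v' →
      ∀ {u : Fin (k + 3) ⊕ Fin (k + 3) → F}, quadFormPlus (k + 3) F u ≠ 0 → pn 1 G ≤ (Cl hQ v v' u).card := by
    intro v v' h u hQu
    have h1 := Cl_bound (hQ := hQ) (n := pn 1 G) (e := 1) (v := v) (v' := v') hQu (fun _ ht => hn_le h ht) he
    rw [hA, one_mul, one_mul] at h1
    exact h1
  have hPw : pPw 1 G = 1 + Fintype.card F * (Fintype.card F ^ (2 * k + 1) + pP2 1 G) := by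
    have := hB.hPw
    rw [show 2 * k + 4 - 2 = 2 * k + 2 by omega] at this
    rw [this]
    ring
  have hK1 : pNs G ≤ 2 * Fintype.card F ^ (2 * k + 4) := by
    rw [hqD]
    exact Q2
  have hN₀ := hB.hN₀
  have N : Num2 hQ (2 * k + 4) (pPw 1 G) (pN0 1 G) (pNs G) := by
    refine ⟨by omega, fun _ _ h => hB.card_W h, fun _ _ h => hB.card_Sg_W h, hB.hZ, hB.hN₀, Q1, hK1, ?_, ⟨_, hPw⟩, by omega⟩
    intro v v' h u _ hQu
    have h1 := hCl h hQu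
    have h3 : pNs G = Fintype.card F ^ (2 * k + 4) + 2 * pn 1 G := by
      rw [hqD]
      exact Q3
    rw [hA, one_mul]
    have h4 : Fintype.card F * (Cl hQ v v' u).card = 2 * (Cl hQ v v' u).card := by rw [hF]
    have h5 : 1 ≤ pn 1 G := Q7
    rw [h4]
    omega
  have hq : Fintype.card F = 2 ∨ Fintype.card F = 3 := Or.inl hF
  have hw : ∀ T : Submodule F (Fin (k + 3) ⊕ Fin (k + 3) → F), (∀ x ∈ T, quadFormPlus (k + 3) F x = 0) →
      Module.finrank F T ≤ (k + 1) + 2 :=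
    witt_bound hQ (by simp; omega)
  have hc₀ : ∀ c, (Fintype.card F - 1) * pP2 1 G ≤ c * (Fintype.card F ^ (k + 1) - 1) → px 1 G + 1 ≤ c := by
    intro c hc
    have h6 := E6 1 G
    have h7 := E7 1 G
    have h8 : (1 + 1) ^ (k + 1) - 1 = 1 * pg2 1 G := by
      rw [pow_succ, mul_comm, ← hx, ← h6, Nat.add_sub_cancel]
    rw [hA, ha, h8, h7, mul_comm c] at hc
    exact Nat.le_of_mul_le_mul_left hc (by
      have : 1 ≤ pg2 1 G := by rw [pg2]; omega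
      omega)
  refine main_small N hq hψ hN htr (w := k + 1) (s' := (Fintype.card F - 1) * pP2 1 G) (c₀ := px 1 G + 1) ?_ ?_
    hw ?_ hc₀ ?_ ?_ hpp' x hg
  · intro v v' _
    have := finrank_WW hQ v v'
    omega
  · intro v v' h u _ hQu
    have h1 := hCl h hQu
    have h2 : pNs G ≤ 5 * pn 1 G := Q5
    omega
  · intro v v' h u u' hu hu' huu'
    rw [hB.card_Sg_W₂ h hu hu' huu']
  · have h8 := E8 1 G
    have hM : Fintype.card F ^ (k + 1 + 1) = 4 * px 1 G := by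
      rw [hx, ha]
      ring
    have hM1 : 4 * px 1 G - 1 = pg1 1 G := by
      have : (1 + 1) ^ 2 * px 1 G = 4 * px 1 G := by ring
      omega
    rw [hA, hM, hM1]
    exact Q6 hG1
  · intro hR
    have hw2 : Fintype.card X < 2 * (WF (WW hQ p p')).card := by
      rw [hB.card_W hpp']
      exact hN.trans_le hK1
    rcases Nat.lt_or_ge k 2 with hk2 | hk2
    · obtain rfl : k = 1 := by omega
      exact no_reg_plus_four hF act (fun v v' h => by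
        have hc := hB.card_W h
        rw [show WF (WW (nd_plusQ (F := F) 4) v v') = WF (WW hQ v v') from rfl, hc]
        exact hN.trans_le hK1) x hR
    · refine no_reg_large hpp' (by omega) exists_psi ?_ hw2 x hR
      have := finrank_WW hQ p p'
      omega

/-- The minimal index for the plus type over the field with two elements. -/
theorem plus2_lower (hF : Fintype.card F = 2) (hk : 1 ≤ k) (K : Subgroup (POmega F (quadFormPlus (k + 3) F))) (hK : K ≠ ⊤) :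
    pNs (GG (Fintype.card F) k) ≤ K.index :=
  index_lower (Q := quadFormPlus (k + 3) F) (fun X _ act hN htr => plus2_small hF hk X act hN htr) K hK

theorem plus2_exists (hF : Fintype.card F = 2) (hk : 1 ≤ k) :
    ∃ H : Subgroup (POmega F (quadFormPlus (k + 3) F)), H.index = pNs (GG (Fintype.card F) k) := by
  have ha : Fintype.card F = 1 + 1 := hF
  set hQ := nd_plusQ (F := F) (k + 3)
  obtain ⟨p, hp, hp0, hQp⟩ := exists_singular hQ (⊤ : Submodule F (Fin (k + 3) ⊕ Fin (k + 3) → F)) (by simp; omega)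
  obtain ⟨p', -, hpp'⟩ := (Nd_top hQ).exists_partner hQ hp hp0 hQp
  have hQ1 : quadFormPlus (k + 3) F (p + p') = 1 := by
    rw [Q_add hQ, hpp'.ha, hpp'.hb, hpp'.hab]
    ring
  have hne : p + p' ≠ 0 := by
    intro h0
    rw [h0, Q_zero hQ] at hQ1
    exact zero_ne_one hQ1
  have hsq : ∀ t : F, t ≠ 0 → t ^ 2 = 1 := by
    intro t ht
    rcases f2_cases hF t with h | h
    · exact absurd h ht
    · rw [h, one_pow]
  refine exists_index_ns hQ (by simp; omega) hpp' hsq hne ?_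
  have h1 := plus_NR (k := k) ha (1 : F)
  rw [if_neg one_ne_zero, zero_add, NR] at h1
  have h2 : (Finset.univ.filter fun y : Fin (k + 3) ⊕ Fin (k + 3) → F => y ≠ 0 ∧ quadFormPlus (k + 3) F y = quadFormPlus (k + 3) F (p + p')) =
      (WF (⊤ : Submodule F (Fin (k + 3) ⊕ Fin (k + 3) → F))).filter fun x => quadFormPlus (k + 3) F x = 1 := by
    ext y
    simp only [Finset.mem_filter, Finset.mem_univ, true_and, hQ1, mem_WF, Submodule.mem_top]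
    constructor
    · exact fun h => h.2
    · intro h
      refine ⟨?_, h⟩
      rintro rfl
      rw [Q_zero hQ] at h
      exact zero_ne_one h
  rw [h2, h1, hF]
  simp only [pNs, ← px_eq (k := k) ha, hF]
  ring_nf

theorem plus2_num {g k : ℕ} (hg : g = GG 2 k) : 2 ^ (k + 3 - 1) * (2 ^ (k + 3) - 1) = pNs g := by
  have hx : px 1 g = 2 ^ k := by rw [hg, px]; exact GG_mul 1 k
  have h1 := E3 1 g
  rw [pNs, hx]
  rw [hx] at h1
  have h2 : 2 ^ (k + 3) = (1 + 1) ^ 3 * 2 ^ k := by ring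
  rw [h2, ← h1, Nat.add_sub_cancel, show k + 3 - 1 = k + 2 by omega, pow_add]
  ring

end plus2


end Cfsg.Agent.Lib.MinOmega
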